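import Cfsg.Agent.H9.ExSL
import Cfsg.Agent.H7.Herm

set_option autoImplicit false

namespace CfsgH9
open Cfsg Matrix CfsgH7
open scoped MatrixGroups

variable {K : Type*} [Field K] {n q : ℕ} {σ : K ≃+* K} {θ : K} {k : Type*} [Field k] [Algebra k K]

variable (n σ θ) in
/-- nilpotent parts of unitary transvections -/
def SuS : Set (Matrix (Fin n) (Fin n) K) :=
  {s | ∃ p : Fin n → K, p ≠ 0 ∧ (σ ∘ p) ⬝ᵥ p = 0 ∧ s = θ • vecMulVec p (σ ∘ p)}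

variable (n K q) in
/-- the natural representation of `SU` -/
def rhoSU : SU n K q →* Matrix (Fin n) (Fin n) K := SpecialLinearGroup.coeMonoidHom.comp (SU n K q).subtype

theorem comp_ne_zero {p : Fin n → K} (hp : p ≠ 0) : σ ∘ p ≠ 0 := fun e => hp (by
  ext i; simpa using congrFun e i)

theorem herm_conj (h2 : orderOf σ = 2) (p r : Fin n → K) : (σ ∘ r) ⬝ᵥ p = σ ((σ ∘ p) ⬝ᵥ r) := by
  simp [dotProduct, invol_of_orderOf h2, mul_comm]

theorem ct_vmv (h2 : orderOf σ = 2) (p : Fin n → K) : ct σ (vecMulVec p (σ ∘ p)) = vecMulVec p (σ ∘ p) := by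
  ext i j; simp [ct_apply, vecMulVec_apply, invol_of_orderOf h2, mul_comm]

theorem ct_tv_mul (h2 : orderOf σ = 2) {p : Fin n → K} (hp : (σ ∘ p) ⬝ᵥ p = 0) (a : K) :
    ct σ (1 + a • vecMulVec p (σ ∘ p)) * (1 + a • vecMulVec p (σ ∘ p)) =
      1 + (σ a + a) • vecMulVec p (σ ∘ p) := by
  rw [map_add, ct_one, ct_smul, ct_vmv h2]
  simp only [mul_add, add_mul, one_mul, mul_one, smul_mul_assoc, mul_smul_comm, vmv_mul, hp, zero_smul,
    smul_zero, add_zero, add_smul]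
  abel

section
variable (hσ : ∀ x, σ x = x ^ q) (h2 : orderOf σ = 2) (hθ : θ ≠ 0) (hσθ : σ θ = -θ)
  (hk : ∀ x, σ x = x ↔ ∃ y, algebraMap k K y = x)
include hσ h2 hθ hσθ hk

omit hσ in
theorem Su_opp {p r : Fin n → K} (h : (σ ∘ p) ⬝ᵥ r ≠ 0) :
    ∃ c : k, c ≠ 0 ∧ θ • vecMulVec p (σ ∘ p) * θ • vecMulVec r (σ ∘ r) * θ • vecMulVec p (σ ∘ p) =
      c • θ • vecMulVec p (σ ∘ p) ∧ θ • vecMulVec r (σ ∘ r) * θ • vecMulVec p (σ ∘ p) *
        θ • vecMulVec r (σ ∘ r) = c • θ • vecMulVec r (σ ∘ r) := by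
  obtain ⟨c, hc⟩ := (hk (θ * θ * ((σ ∘ p) ⬝ᵥ r * (σ ∘ r) ⬝ᵥ p))).1 (by
    rw [map_mul, map_mul, map_mul, hσθ, ← herm_conj h2, ← herm_conj h2]; ring)
  refine ⟨c, fun e => ?_, ?_, ?_⟩
  · rw [e, map_zero, herm_conj h2 p r] at hc
    exact mul_ne_zero (mul_ne_zero hθ hθ) (mul_ne_zero h ((map_ne_zero σ).2 h)) hc.symm
  · rw [← algebraMap_smul K c, hc]
    simp only [smul_mul_assoc, mul_smul_comm, vmv_mul3, smul_smul]
    congr 1; ring
  · rw [← algebraMap_smul K c, hc]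
    simp only [smul_mul_assoc, mul_smul_comm, vmv_mul3, smul_smul]
    congr 1; ring

omit hσ in
theorem Su_pair : ∀ s ∈ SuS n σ θ, ∀ t ∈ SuS n σ θ,
    s * t = t * s ∨ (∃ c : k, c ≠ 0 ∧ s * t * s = c • s ∧ t * s * t = c • t) := by
  rintro _ ⟨p, hp, h1, rfl⟩ _ ⟨r, hr, h3, rfl⟩
  by_cases h : (σ ∘ p) ⬝ᵥ r = 0
  · left
    simp only [smul_mul_assoc, mul_smul_comm, vmv_mul, h, herm_conj h2 p r, map_zero, zero_smul]
  · exact Or.inr (Su_opp h2 hθ hσθ hk h)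

theorem linFam_SU : LinFam k (rhoSU K n q) (SuS n σ θ) where
  inj := Subtype.val_injective.comp Subtype.val_injective
  sq := by
    rintro _ ⟨p, -, h, rfl⟩
    rw [smul_mul_assoc, mul_smul_comm, vmv_mul, h, zero_smul, smul_zero, smul_zero]
  ne := by
    rintro _ ⟨p, hp, -, rfl⟩
    exact smul_ne_zero hθ (vecMulVec_ne_zero hp (comp_ne_zero hp))
  ex := by
    rintro _ ⟨p, -, h, rfl⟩ c
    refine ⟨⟨tvSL ((algebraMap k K c * θ) • p) (σ ∘ p) (by simp [h]), ?_⟩, ?_⟩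
    · rw [mem_SU_iff hσ, tvSL_coe, smul_vecMulVec, ct_tv_mul h2 h, map_mul, (hk _).2 ⟨c, rfl⟩, hσθ]
      simp
    · refine (tvSL_coe _ _ (by simp [h])).trans ?_
      rw [smul_vecMulVec, mul_smul, algebraMap_smul]
  conj := by
    rintro _ ⟨p, hp, h, rfl⟩ g
    have h1 : rhoSU K n q g⁻¹ = ct σ (rhoSU K n q g) := by
      have h3 : ct σ (rhoSU K n q g) * rhoSU K n q g = 1 := (mem_SU_iff hσ _).1 g.2
      calc _ = ct σ (rhoSU K n q g) * rhoSU K n q g * rhoSU K n q g⁻¹ := by rw [h3, one_mul]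
        _ = _ := by rw [mul_assoc, rho_mul_inv, mul_one]
    have h4 : σ ∘ (rhoSU K n q g *ᵥ p) = (σ ∘ p) ᵥ* rhoSU K n q g⁻¹ := by
      rw [h1, ct_apply, vecMul_transpose, map_mulVec_comp]
    refine ⟨_, mulVec_ne_zero_of (rhoSU K n q) g hp, ?_, ?_⟩
    · rw [h4, ← dotProduct_mulVec, mulVec_mulVec, rho_inv_mul, one_mulVec, h]
    · rw [mul_smul_comm, smul_mul_assoc, mul_vecMulVec, vecMulVec_mul, h4]
  pair s hs t ht := (Su_pair h2 hθ hσθ hk s hs t ht).imp_right Or.inl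

omit hσ in
theorem Su_common_opp : ∀ s ∈ SuS n σ θ, ∀ t ∈ SuS n σ θ,
    ∃ w ∈ SuS n σ θ, (∃ c : k, c ≠ 0 ∧ s * w * s = c • s ∧ w * s * w = c • w) ∧
      (∃ c : k, c ≠ 0 ∧ w * t * w = c • w ∧ t * w * t = c • t) := by
  rintro _ ⟨p, hp, h1, rfl⟩ _ ⟨r, hr, h3, rfl⟩
  have key : ∃ u, (σ ∘ u) ⬝ᵥ u = 0 ∧ (σ ∘ p) ⬝ᵥ u ≠ 0 ∧ (σ ∘ r) ⬝ᵥ u ≠ 0 := by
    obtain ⟨w, -, hw1, hw2⟩ := exists_two_ne_zero (dotL (σ ∘ p)) (dotL (σ ∘ r)) (W := ⊤)
      ((exists_dot_ne (comp_ne_zero hp)).imp fun _ h => ⟨trivial, h⟩)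
      ((exists_dot_ne (comp_ne_zero hr)).imp fun _ h => ⟨trivial, h⟩)
    change _ ⬝ᵥ w ≠ 0 at hw1 hw2
    -- adjust by a multiple of a vector `v ∈ {p, r}`
    have adj : ∀ v : Fin n → K, (σ ∘ v) ⬝ᵥ v = 0 → ∀ w, (σ ∘ v) ⬝ᵥ w ≠ 0 → ∀ x,
        x + σ x = -((σ ∘ w) ⬝ᵥ w) →
        (σ ∘ (w + (x / (σ ∘ w) ⬝ᵥ v) • v)) ⬝ᵥ (w + (x / (σ ∘ w) ⬝ᵥ v) • v) = 0 := by
      intro v hv w hw x hx
      have e1 : σ ∘ (w + (x / (σ ∘ w) ⬝ᵥ v) • v) = σ ∘ w + (σ x / (σ ∘ v) ⬝ᵥ w) • σ ∘ v := by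
        rw [herm_conj h2 w v]; ext i; simp
      have hw' : (σ ∘ w) ⬝ᵥ v ≠ 0 := by rw [herm_conj h2 v w]; exact (map_ne_zero σ).2 hw
      rw [e1]
      simp only [add_dotProduct, dotProduct_add, smul_dotProduct, dotProduct_smul, smul_eq_mul, hv]
      rw [div_mul_cancel₀ _ hw, mul_zero, add_zero, div_mul_cancel₀ _ hw']
      linear_combination hx
    by_cases hpr : (σ ∘ r) ⬝ᵥ p = 0
    · obtain ⟨x, hx⟩ := exists_trace_two h2 (c := -((σ ∘ w) ⬝ᵥ w)) (by rw [map_neg, ← herm_conj h2])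
      refine ⟨_, adj p h1 w hw1 x hx, ?_, ?_⟩
      · simpa [h1] using hw1
      · simpa [hpr] using hw2
    · have hrp : (σ ∘ p) ⬝ᵥ r ≠ 0 := by rw [herm_conj h2 r p]; exact (map_ne_zero σ).2 hpr
      refine ⟨_, adj p h1 r hrp θ (by rw [hσθ, h3]; simp), ?_, ?_⟩
      · simpa [h1] using hrp
      · simp [h3, hθ, hpr]
  obtain ⟨u, hu, hu1, hu2⟩ := key
  refine ⟨_, ⟨u, ?_, hu, rfl⟩, Su_opp h2 hθ hσθ hk hu1, Su_opp h2 hθ hσθ hk ?_⟩
  · rintro rfl; simp at hu1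
  · rw [herm_conj h2 r u]; exact (map_ne_zero σ).2 hu2

theorem Su_set_eq : {A : Subgroup ↥(Cfsg.SU n K q) | ∃ p : Fin n → K, p ≠ 0 ∧ Cfsg.hermForm n K q p p = 0 ∧
          A = Subgroup.closure {g : ↥(Cfsg.SU n K q) |
            (∀ v : Fin n → K, ∃ c : K, ((g : Matrix.SpecialLinearGroup (Fin n) K) :
              Matrix (Fin n) (Fin n) K) *ᵥ v = v + c • p) ∧
            ∀ v : Fin n → K, Cfsg.hermForm n K q v p = 0 →
              ((g : Matrix.SpecialLinearGroup (Fin n) K) : Matrix (Fin n) (Fin n) K) *ᵥ v = v}} =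
    RG k (rhoSU K n q) '' SuS n σ θ := by
  have hL := linFam_SU (n := n) hσ h2 hθ hσθ hk
  have key : ∀ p : Fin n → K, p ≠ 0 → (σ ∘ p) ⬝ᵥ p = 0 → Subgroup.closure {g : ↥(Cfsg.SU n K q) |
            (∀ v : Fin n → K, ∃ c : K, ((g : Matrix.SpecialLinearGroup (Fin n) K) :
              Matrix (Fin n) (Fin n) K) *ᵥ v = v + c • p) ∧
            ∀ v : Fin n → K, Cfsg.hermForm n K q v p = 0 →
              ((g : Matrix.SpecialLinearGroup (Fin n) K) : Matrix (Fin n) (Fin n) K) *ᵥ v = v} =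
      RG k (rhoSU K n q) (θ • vecMulVec p (σ ∘ p)) := by
    intro p hp h1
    rw [← Subgroup.closure_eq (RG k _ _)]
    congr 1
    ext g
    rw [SetLike.mem_coe, mem_RG (hL.sq _ ⟨p, hp, h1, rfl⟩)]
    constructor
    · rintro ⟨h3, h4⟩
      obtain ⟨u, hu⟩ := exists_dot_ne_zero (comp_ne_zero (σ := σ) hp)
      obtain ⟨a, ha⟩ := h3 u
      have h5 : rhoSU K n q g = 1 + a • vecMulVec p (σ ∘ p) := by
        refine Matrix.toLin'.injective (LinearMap.ext fun v => ?_)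
        have h6 := h4 (v - ((σ ∘ p) ⬝ᵥ v) • u) (by
          rw [hermForm_eq hσ, dotProduct_comm, dotProduct_sub, dotProduct_smul, hu]; simp)
        rw [mulVec_sub, mulVec_smul, ha, sub_eq_iff_eq_add] at h6
        rw [Matrix.toLin'_apply, Matrix.toLin'_apply, add_mulVec, one_mulVec, smul_mulVec, vecMulVec_mulVec']
        refine h6.trans ?_
        module
      have h6 : ct σ (rhoSU K n q g) * rhoSU K n q g = 1 := (mem_SU_iff hσ _).1 g.2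
      rw [h5, ct_tv_mul h2 h1, add_eq_left] at h6
      have h7 : σ a + a = 0 := (smul_eq_zero.1 h6).resolve_right (vecMulVec_ne_zero hp (comp_ne_zero hp))
      obtain ⟨c, hc⟩ := (hk (a / θ)).1 (by
        rw [map_div₀, hσθ, eq_neg_of_add_eq_zero_left h7, neg_div_neg_eq])
      exact ⟨c, by rw [h5, ← algebraMap_smul K c, hc, smul_smul, div_mul_cancel₀ _ hθ]⟩
    · rintro ⟨c, hc⟩
      have h5 : ∀ v, ((g : Matrix.SpecialLinearGroup (Fin n) K) : Matrix (Fin n) (Fin n) K) *ᵥ v =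
          v + (algebraMap k K c * θ * (σ ∘ p) ⬝ᵥ v) • p := fun v => by
        change rhoSU K n q g *ᵥ v = _
        rw [hc, ← algebraMap_smul K c, add_mulVec, one_mulVec, smul_mulVec, smul_mulVec, vecMulVec_mulVec',
          smul_smul, smul_smul]
      refine ⟨fun v => ⟨_, h5 v⟩, fun v hv => ?_⟩
      rw [hermForm_eq hσ, dotProduct_comm] at hv
      rw [h5, hv]; simp
  ext A
  constructor
  · rintro ⟨p, hp, h1, rfl⟩
    rw [hermForm_eq hσ, dotProduct_comm] at h1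
    exact ⟨_, ⟨p, hp, h1, rfl⟩, (key p hp h1).symm⟩
  · rintro ⟨_, ⟨p, hp, h1, rfl⟩, rfl⟩
    exact ⟨p, hp, by rw [hermForm_eq hσ, dotProduct_comm, h1], (key p hp h1).symm⟩

end

end CfsgH9
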