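import Cfsg.Agent.H9.ExSL
import Cfsg.Agent.H8.MaxTS

set_option autoImplicit false

namespace CfsgH9
open Cfsg CfsgH8 QuadraticMap Module

variable {F V : Type*} [Field F] [AddCommGroup V] [Module F V] {Q : QuadraticForm F V}

variable (Q) in
/-- nilpotent part of a Siegel transformation -/
noncomputable def sgN (p r : V) : Module.End F V :=
  (polarBilin Q r).smulRight p - (polarBilin Q p).smulRight r

theorem sgN_apply (p r x : V) : sgN Q p r x = polar Q r x • p - polar Q p x • r := by simp [sgN]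

/-- a basis of a singular line -/
structure SLine (Q : QuadraticForm F V) (p r : V) : Prop where
  li : LinearIndependent F ![p, r]
  p0 : Q p = 0
  r0 : Q r = 0
  pr : polar Q p r = 0

theorem SLine.symm {p r : V} (h : SLine Q p r) : SLine Q r p :=
  ⟨LinearIndependent.pair_symm_iff.1 h.li, h.r0, h.p0, by rw [pcomm, h.pr]⟩

theorem SLine.pp {p r : V} (h : SLine Q p r) : polar Q p p = 0 := by rw [polar_self', h.p0, mul_zero]
theorem SLine.rr {p r : V} (h : SLine Q p r) : polar Q r r = 0 := h.symm.pp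
theorem SLine.rp {p r : V} (h : SLine Q p r) : polar Q r p = 0 := h.symm.pr

variable (Q) in
/-- the family of Siegel root elements -/
def SiS : Set (Module.End F V) := {s | ∃ p r, SLine Q p r ∧ s = sgN Q p r}

theorem sgN_mul3 (p r u w : V) : sgN Q p r * sgN Q u w * sgN Q p r =
    (polar Q p w * polar Q r u - polar Q p u * polar Q r w) • sgN Q p r := by
  ext x
  simp only [Module.End.mul_apply, sgN_apply, LinearMap.smul_apply, map_sub, map_smul, pcomm u p, pcomm u r,
    pcomm w p, pcomm w r]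
  module

theorem sgN_eq_zero {u p : V} (h : ¬ LinearIndependent F ![u, p]) : sgN Q u p = 0 := by
  by_cases hu : u = 0
  · ext x; simp [sgN_apply, hu]
  rw [LinearIndependent.pair_iff' hu] at h
  push Not at h
  obtain ⟨c, rfl⟩ := h
  ext x; simp only [sgN_apply, polar_sl, LinearMap.zero_apply]; module

theorem sgN_change (p r : V) (a b c d : F) :
    sgN Q (a • p + b • r) (c • p + d • r) = (a * d - b * c) • sgN Q p r := by
  ext x
  simp only [sgN_apply, LinearMap.smul_apply, polar_add_left, polar_sl]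
  module

theorem exists_rank_one {a b c d : F} (h : b * c - a * d = 0) :
    ∃ x₁ x₂ y₁ y₂ : F, a = x₁ * y₁ ∧ b = x₁ * y₂ ∧ c = x₂ * y₁ ∧ d = x₂ * y₂ := by
  by_cases ha : a = 0
  · by_cases hb : b = 0
    · exact ⟨0, 1, c, d, by simp [ha], by simp [hb], by simp, by simp⟩
    · have hc : c = 0 := by simpa [ha, hb] using h
      exact ⟨b, d, 0, 1, by simp [ha], by simp, by simp [hc], by simp⟩
  · exact ⟨a, c, 1, b / a, by simp, by field_simp, by simp, by field_simp; linear_combination -h⟩

variable {Γ : Type*} [Group Γ]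

/-- the natural representation through an isomorphism with the orthogonal group -/
def rhoO (e : Γ ≃* OG Q) : Γ →* Module.End F V where
  toFun g := (e g).1.toLinearMap
  map_one' := by rw [_root_.map_one]; rfl
  map_mul' g h := by rw [_root_.map_mul]; rfl

theorem rhoO_apply (e : Γ ≃* OG Q) (g : Γ) (x : V) : rhoO e g x = (e g).1 x := rfl

theorem linFam_Sieg (hQ : ND Q) (e : Γ ≃* OG Q) : LinFam F (rhoO e) (SiS Q) where
  inj g h H := e.injective (OG.ext' fun x => LinearMap.congr_fun H x)
  sq := by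
    rintro _ ⟨p, r, h, rfl⟩
    ext x
    simp [sgN_apply, h.pp, h.rr, h.pr, h.rp]
  ne := by
    rintro _ ⟨p, r, h, rfl⟩ e1
    refine (h.li.ne_zero 1) (hQ.eq_zero fun x => ?_)
    have := LinearMap.congr_fun e1 x
    rw [sgN_apply, sub_eq_add_neg, ← neg_smul] at this
    exact (LinearIndependent.pair_iff.1 h.li _ _ this).1
  ex := by
    rintro _ ⟨p, r, h, rfl⟩ c
    refine ⟨e.symm (sieg Q p (c • r)), LinearMap.ext fun x => ?_⟩
    rw [rhoO_apply, MulEquiv.apply_symm_apply, sieg_apply h.p0 (by rw [polar_sr, h.pr, mul_zero])]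
    simp only [LinearMap.add_apply, LinearMap.smul_apply, sgN_apply, Module.End.one_apply, polar_sl, Q_smul, h.r0]
    module
  conj := by
    rintro _ ⟨p, r, h, rfl⟩ g
    refine ⟨(e g).1 p, (e g).1 r, ⟨?_, ?_, ?_, ?_⟩, ?_⟩
    · rw [LinearIndependent.pair_iff]
      intro a b hab
      rw [← map_smul, ← map_smul, ← map_add, OG.eq_zero_iff] at hab
      exact LinearIndependent.pair_iff.1 h.li _ _ hab
    · rw [(e g).2, h.p0]
    · rw [(e g).2, h.r0]
    · rw [OG.map_polar, h.pr]
    · ext x
      simp only [Module.End.mul_apply, sgN_apply, rhoO_apply, map_sub, map_smul, map_inv, OG.polar_inv]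
  pair := by
    rintro _ ⟨p, r, h, rfl⟩ _ ⟨u, w, h', rfl⟩
    by_cases hD : polar Q p w * polar Q r u - polar Q p u * polar Q r w = 0
    swap
    · refine Or.inr (Or.inl ⟨_, hD, sgN_mul3 _ _ _ _, ?_⟩)
      rw [sgN_mul3, pcomm u r, pcomm w p, pcomm u p, pcomm w r]; congr 1; ring
    obtain ⟨x₁, x₂, y₁, y₂, e1, e2, e3, e4⟩ := exists_rank_one hD
    have key : sgN Q p r * sgN Q u w - sgN Q u w * sgN Q p r = sgN Q (y₂ • u - y₁ • w) (x₂ • p - x₁ • r) := by
      ext x
      simp only [Module.End.mul_apply, sgN_apply, LinearMap.sub_apply, map_sub, map_smul, pcomm u p, pcomm u r,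
        pcomm w p, pcomm w r, e1, e2, e3, e4, polar_sub_left, polar_sl]
      module
    by_cases hli : LinearIndependent F ![y₂ • u - y₁ • w, x₂ • p - x₁ • r]
    · refine Or.inr (Or.inr ⟨by rw [sgN_mul3, hD, zero_smul], ?_, 1, one_ne_zero, _, _, ⟨hli, ?_, ?_, ?_⟩,
        by rw [one_smul, key]⟩)
      · rw [sgN_mul3, pcomm u r, pcomm w p, pcomm u p, pcomm w r, mul_comm (polar Q r u), hD, zero_smul]
      · simp [Q_sub, Q_smul, h'.p0, h'.r0, h'.pr]
      · simp [Q_sub, Q_smul, h.p0, h.r0, h.pr]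
      · simp only [polar_sub_left, polar_sub_right, polar_sl, polar_sr, pcomm u p, pcomm u r,
          pcomm w p, pcomm w r, e1, e2, e3, e4]
        ring
    · left
      rw [← sub_eq_zero, key, sgN_eq_zero hli]

variable [FiniteDimensional F V]

theorem SLine.exists_dual (hQ : ND Q) {p r : V} (h : SLine Q p r) :
    ∃ w, polar Q p w = 0 ∧ polar Q r w = 1 := by
  obtain ⟨w, h1, h2⟩ := hQ.exists_perp_one (U := F ∙ p) (x := r) (fun hr => by
    obtain ⟨c, hc⟩ := Submodule.mem_span_singleton.1 hr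
    exact (LinearIndependent.pair_iff' (h.li.ne_zero 0)).1 h.li c hc)
  exact ⟨w, h1 p (Submodule.mem_span_singleton_self p), h2⟩

theorem mem_RG_sieg (hQ : ND Q) (e : Γ ≃* OG Q) {p r : V} (h : SLine Q p r) (g : Γ) :
    g ∈ RG F (rhoO e) (sgN Q p r) ↔ ∀ v, polar Q v p = 0 → polar Q v r = 0 → (e g).1 v = v := by
  rw [mem_RG ((linFam_Sieg hQ e).sq _ ⟨p, r, h, rfl⟩)]
  constructor
  · rintro ⟨c, hc⟩ v h1 h2
    rw [← rhoO_apply, hc]
    simp [sgN_apply, pcomm p v, pcomm r v, h1, h2]
  · intro H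
    obtain ⟨w, hw1, hw2⟩ := h.exists_dual hQ
    obtain ⟨u, hu1, hu2⟩ := h.symm.exists_dual hQ
    have hmov : ∀ x, ∃ a b : F, (e g).1 x = x + (a • p + b • r) := by
      intro x
      have : (e g).1 x - x ∈ Submodule.span F {p, r} := by
        rw [← hQ.perp_perp (Submodule.span F {p, r}), mem_perp]
        intro y hy
        rw [mem_perp_span] at hy
        have h1 := H y (by rw [pcomm]; exact hy p (by simp)) (by rw [pcomm]; exact hy r (by simp))
        rw [polar_sub_right, ← OG.map_polar (e g) y x, h1, sub_self]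
      obtain ⟨a, b, hab⟩ := Submodule.mem_span_pair.1 this
      exact ⟨a, b, by rw [hab]; abel⟩
    obtain ⟨a, b, hab⟩ := hmov u
    obtain ⟨c, d, hcd⟩ := hmov w
    have ha : a = 0 := by
      have := (e g).2 u
      rw [hab] at this
      simpa [Q_add, Q_smul, h.p0, h.r0, h.pr, pcomm u p, pcomm u r, hu1, hu2] using this
    have hd : d = 0 := by
      have := (e g).2 w
      rw [hcd] at this
      simpa [Q_add, Q_smul, h.p0, h.r0, h.pr, pcomm w p, pcomm w r, hw1, hw2] using this
    have hc : c = -b := by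
      have := OG.map_polar (e g) u w
      rw [hab, hcd] at this
      simp only [ha, hd, zero_smul, zero_add, add_zero, polar_add_left, polar_add_right, polar_sl, polar_sr,
        pcomm u p, hu2, hw2, h.rp] at this
      linear_combination this
    refine ⟨c, LinearMap.ext fun x => ?_⟩
    have h1 := H (x - polar Q p x • u - polar Q r x • w)
      (by simp [pcomm u p, pcomm w p, pcomm x p, hu2, hw1]) (by simp [pcomm u r, pcomm w r, pcomm x r, hu1, hw2])
    rw [map_sub, map_sub, map_smul, map_smul, hab, hcd, sub_sub, sub_eq_iff_eq_add] at h1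
    rw [rhoO_apply, h1]
    simp only [LinearMap.add_apply, LinearMap.smul_apply, sgN_apply, Module.End.one_apply, ha, hd, hc]
    module

theorem Sieg_connected (hQ : ND Q) (e : Γ ≃* OG Q) {E : Submodule F V} (hE : TS Q E) (h3 : 3 ≤ finrank F E) :
    IsConnectedFamily (FAdj (RG F (rhoO e) '' SiS Q)) (RG F (rhoO e) '' SiS Q) := by
  have hL := linFam_Sieg hQ e
  have step1 : ∀ {p r r' : V}, SLine Q p r → SLine Q p r' → polar Q r r' = 0 →
      FR (RG F (rhoO e) '' SiS Q) (RG F (rhoO e) (sgN Q p r)) (RG F (rhoO e) (sgN Q p r')) := by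
    intro p r r' h h' hr
    obtain ⟨w, hw, hw1, hw2⟩ := exists_two_ne_zero (polarBilin Q r).toAddMonoidHom
      (polarBilin Q r').toAddMonoidHom (W := (polarBilin Q p).toAddMonoidHom.ker)
      ((h.exists_dual hQ).imp fun w hw => ⟨hw.1, by simp [hw.2]⟩)
      ((h'.exists_dual hQ).imp fun w hw => ⟨hw.1, by simp [hw.2]⟩)
    change polar Q p w = 0 at hw
    change polar Q r w ≠ 0 at hw1
    change polar Q r' w ≠ 0 at hw2
    obtain ⟨u, hu⟩ := hQ.exists_one (h.li.ne_zero 0)
    change polar Q p u = 1 at hu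
    set w' := w - (Q w / polar Q r w) • r with hw'
    have a1 : Q w' = 0 := by
      rw [hw', Q_sub, Q_smul, h.r0, polar_sr, pcomm w r, div_mul_cancel₀ _ hw1]; ring
    have a2 : polar Q p w' = 0 := by simp [hw', hw, h.pr]
    have a3 : polar Q r w' = polar Q r w := by simp [hw', h.rr, -polar_self]
    have a4 : polar Q r' w' = polar Q r' w := by simp [hw', pcomm r' r, hr]
    set u' := u - (polar Q u w' / polar Q r w) • r with hu'
    have b1 : polar Q u' w' = 0 := by
      rw [hu', polar_sub_left, polar_sl, a3, div_mul_cancel₀ _ hw1, sub_self]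
    have b2 : polar Q p u' = 1 := by simp [hu', hu, h.pr]
    set u'' := u' - Q u' • p with hu''
    have c1 : Q u'' = 0 := by
      rw [hu'', Q_sub, Q_smul, h.p0, polar_sr, pcomm u' p, b2]; ring
    have c2 : polar Q u'' w' = 0 := by rw [hu'', polar_sub_left, polar_sl, b1, a2]; ring
    have c3 : polar Q p u'' = 1 := by rw [hu'', polar_sub_right, polar_sr, h.pp, b2]; ring
    have hl : SLine Q u'' w' := by
      refine ⟨LinearIndependent.pair_iff.2 fun a b hab => ?_, c1, a1, c2⟩
      have d1 := congrArg (polar Q p) hab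
      rw [polar_add_right, polar_sr, polar_sr, c3, a2, polar_zero_right, mul_zero, add_zero, mul_one] at d1
      have d2 := congrArg (polar Q r) hab
      rw [d1, zero_smul, zero_add, polar_sr, a3, polar_zero_right] at d2
      exact ⟨d1, (mul_eq_zero.1 d2).resolve_right hw1⟩
    have key : ∀ {r : V}, SLine Q p r → polar Q r w' ≠ 0 →
        IsRankOnePair (RG F (rhoO e) (sgN Q p r)) (RG F (rhoO e) (sgN Q u'' w')) := by
      intro r h hr
      refine (hL.opp ⟨p, r, h, rfl⟩ ⟨_, _, hl, rfl⟩ (neg_ne_zero.2 hr) ?_ ?_).2.2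
      · rw [sgN_mul3, a2, c3]; simp
      · rw [sgN_mul3, pcomm w' p, pcomm u'' p, pcomm w' r, a2, c3]; simp
    exact (fr_single (S := RG F (rhoO e) '' SiS Q) ⟨_, ⟨p, r, h, rfl⟩, rfl⟩ ⟨_, ⟨_, _, hl, rfl⟩, rfl⟩
      (key h (a3 ▸ hw1))).trans (fr_single (S := RG F (rhoO e) '' SiS Q) ⟨_, ⟨_, _, hl, rfl⟩, rfl⟩
        ⟨_, ⟨p, r', h', rfl⟩, rfl⟩ (r1_symm (key h' (a4 ▸ hw2))))
  have step2 : ∀ {p r r' : V}, SLine Q p r → SLine Q p r' →
      FR (RG F (rhoO e) '' SiS Q) (RG F (rhoO e) (sgN Q p r)) (RG F (rhoO e) (sgN Q p r')) := by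
    intro p r r' h h'
    by_cases hr : polar Q r r' = 0
    · exact step1 h h' hr
    have hT : TS Q (Submodule.span F {p, r}) := TS.span (by rintro _ (rfl | rfl); exacts [h.p0, h.r0])
      (by rintro _ (rfl | rfl) _ (rfl | rfl); exacts [h.pp, h.pr, h.rp, h.rr])
    have hle : finrank F (Submodule.span F ({p, r} : Set V)) ≤ 2 := by
      classical
      exact (finrank_span_le_card ({p, r} : Set V)).trans (by simpa using Finset.card_le_two)
    obtain ⟨g, hg⟩ := hT.exists_map_le hQ hE (by omega)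
    have hz : ∃ z ∈ E, z ∉ (Submodule.span F {p, r}).map g.1.toLinearMap := by
      by_contra hn
      push Not at hn
      have h4 := Submodule.finrank_mono (show E ≤ _ from hn)
      have h5 := Submodule.finrank_map_le g.1.toLinearMap (Submodule.span F {p, r})
      omega
    obtain ⟨z, hzE, hz⟩ := hz
    obtain ⟨z, rfl⟩ := g.1.surjective z
    have hp : g.1 p ∈ E := hg ⟨p, Submodule.subset_span (by simp), rfl⟩
    have hrE : g.1 r ∈ E := hg ⟨r, Submodule.subset_span (by simp), rfl⟩
    have z0 : Q z = 0 := by rw [← g.2 z]; exact hE _ hzE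
    have zp : polar Q p z = 0 := by rw [← OG.map_polar g]; exact hE.polar hp hzE
    have zr : polar Q r z = 0 := by rw [← OG.map_polar g]; exact hE.polar hrE hzE
    have hl : SLine Q p (z - (polar Q z r' / polar Q r r') • r) := by
      refine ⟨(LinearIndependent.pair_iff' (h.li.ne_zero 0)).2 fun a ha => hz ⟨z, ?_, rfl⟩, h.p0, ?_, ?_⟩
      · exact Submodule.mem_span_pair.2 ⟨a, _, eq_sub_iff_add_eq.1 ha⟩
      · rw [Q_sub, Q_smul, z0, h.r0, polar_sr, pcomm z r, zr]; ring
      · rw [polar_sub_right, polar_sr, zp, h.pr]; ring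
    refine (step1 h hl ?_).trans (step1 hl h' ?_)
    · rw [polar_sub_right, polar_sr, zr, h.rr]; ring
    · rw [polar_sub_left, polar_sl, div_mul_cancel₀ _ hr, sub_self]
  have hswap : ∀ {p r : V}, SLine Q p r → RG F (rhoO e) (sgN Q r p) = RG F (rhoO e) (sgN Q p r) := by
    intro p r h
    rw [← RG_smul (hL.sq _ ⟨p, r, h, rfl⟩) (c := (-1 : F)) (by simp)]
    congr 1
    simp [sgN]
  rintro _ ⟨_, ⟨p, r, h, rfl⟩, rfl⟩ _ ⟨_, ⟨u, w, h', rfl⟩, rfl⟩
  -- a point of the second line perpendicular to `p`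
  obtain ⟨a, b, hab, hpa, e1⟩ : ∃ a b, SLine Q a b ∧ polar Q p a = 0 ∧
      RG F (rhoO e) (sgN Q a b) = RG F (rhoO e) (sgN Q u w) := by
    by_cases hw : polar Q p w = 0
    · exact ⟨w, u, h'.symm, hw, hswap h'⟩
    · refine ⟨u - (polar Q p u / polar Q p w) • w, w, ⟨?_, ?_, h'.r0, ?_⟩, ?_, ?_⟩
      · rw [LinearIndependent.pair_iff]
        intro x y hxy
        have := LinearIndependent.pair_iff.1 h'.li x (y - x * (polar Q p u / polar Q p w)) (by
          rw [← hxy]; module)
        exact ⟨this.1, by simpa [this.1] using this.2⟩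
      · rw [Q_sub, Q_smul, h'.p0, h'.r0, polar_sr, h'.pr]; ring
      · rw [polar_sub_left, polar_sl, h'.pr, h'.rr]; ring
      · rw [polar_sub_right, polar_sr, div_mul_cancel₀ _ hw, sub_self]
      · congr 1
        ext x
        simp only [sgN_apply, polar_sub_left, polar_sl]
        module
  rw [← e1]
  by_cases hli : LinearIndependent F ![p, a]
  · have hl : SLine Q p a := ⟨hli, h.p0, hab.p0, hpa⟩
    refine (step2 h hl).trans ?_
    rw [← hswap hl]
    exact step2 hl.symm hab
  · rw [LinearIndependent.pair_iff' (show p ≠ 0 from h.li.ne_zero 0)] at hli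
    push Not at hli
    obtain ⟨c, rfl⟩ := hli
    have hc : c ≠ 0 := by
      rintro rfl
      exact hab.li.ne_zero 0 (by simp)
    have hl : SLine Q p b := by
      refine ⟨LinearIndependent.pair_iff.2 fun x y hxy => ?_, h.p0, hab.r0, ?_⟩
      · have := LinearIndependent.pair_iff.1 hab.li (x / c) y (by
          rw [← hxy]; change (x / c) • c • p + _ = _; rw [smul_smul, div_mul_cancel₀ _ hc])
        exact ⟨by simpa [hc] using this.1, this.2⟩
      · have := hab.pr
        change polar Q (c • p) b = 0 at this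
        rw [polar_sl] at this
        exact (mul_eq_zero.1 this).resolve_left hc
    have e2 : RG F (rhoO e) (sgN Q (c • p) b) = RG F (rhoO e) (sgN Q p b) := by
      rw [← RG_smul (hL.sq _ ⟨p, b, hl, rfl⟩) hc]
      congr 1
      ext x
      simp only [sgN_apply, polar_sl, LinearMap.smul_apply]
      module
    exact e2 ▸ step2 h hl

end CfsgH9
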