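/-
The centraliser inside the group: codes, the groups of order 64 and their automorphisms.
-/
import Cfsg.Agent.H9.HdB
import Cfsg.Agent.H9.HdF

set_option autoImplicit false
set_option maxRecDepth 100000

namespace CfsgH9.Hd

open CfsgH5 CfsgH6 Subgroup

noncomputable section

theorem ind64 {P : ℕ → Prop} (h0 : P 0) (hp : ∀ i, i < 6 → P (2 ^ i))
    (hx : ∀ k l, k < 64 → l < 64 → P k → P l → P (k ^^^ l)) : ∀ k, k < 64 → P k := by
  intro k
  induction k using Nat.strong_induction_on with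
  | _ k ih =>
    intro hk
    rcases (by decide : ∀ k, k < 64 → k = 0 ∨ ∃ i, i < 6 ∧ k ^^^ 2 ^ i < k ∧ 2 ^ i < 64) k hk with
      rfl | ⟨i, h1, h2, h3⟩
    · exact h0
    · have := hx _ _ (h2.trans hk) h3 (ih _ h2 (h2.trans hk)) (hp i h1)
      rwa [Nat.xor_xor_cancel_right] at this

theorem xor_lt {k l : ℕ} (hk : k < 64) (hl : l < 64) : k ^^^ l < 64 :=
  Nat.xor_lt_two_pow (n := 6) hk hl

theorem dg_lt (L i : ℕ) : dg L i < 64 := Nat.lt_succ_of_le Nat.and_le_right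

theorem tm_eq (L k i : ℕ) : tm L k i = if k.testBit i then dg L i else 0 := by
  show bit k i * dg L i = _
  rw [bit_eq]; split_ifs <;> simp

theorem ap6_eq (L k : ℕ) : ap6 L k = ((tm L k 0 ^^^ tm L k 1) ^^^ (tm L k 2 ^^^ tm L k 3)) ^^^
    (tm L k 4 ^^^ tm L k 5) := by
  rw [ap6, force_eq, force_eq]; rfl

theorem ap6_lt (L k : ℕ) : ap6 L k < 64 := by
  have h : ∀ i, tm L k i < 64 := fun i => by
    rw [tm_eq]; split_ifs
    exacts [dg_lt _ _, by norm_num]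
  rw [ap6_eq]
  exact xor_lt (xor_lt (xor_lt (h _) (h _)) (xor_lt (h _) (h _))) (xor_lt (h _) (h _))

theorem ap6_xor (L k l : ℕ) : ap6 L (k ^^^ l) = ap6 L k ^^^ ap6 L l := by
  have h : ∀ i, tm L (k ^^^ l) i = tm L k i ^^^ tm L l i := fun i => by
    simp only [tm_eq, Nat.testBit_xor]
    cases k.testBit i <;> cases l.testBit i <;> simp
  simp only [ap6_eq, h]
  ac_rfl

theorem ap6_zero (L : ℕ) : ap6 L 0 = 0 := by simp [ap6_eq, tm_eq]

theorem ap6_pow (L : ℕ) {i : ℕ} (hi : i < 6) : ap6 L (2 ^ i) = dg L i := by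
  simp only [ap6_eq, tm_eq, Nat.testBit_two_pow]
  interval_cases i <;> simp

theorem dg_eq (L i : ℕ) : dg L i = L / 2 ^ (6 * i) % 64 := by
  show (L >>> (6 * i)) &&& (2 ^ 6 - 1) = _
  rw [Nat.and_two_pow_sub_one_eq_mod, Nat.shiftRight_eq_div_pow]

theorem pk_eq (a b c d e f : ℕ) :
    pk a b c d e f = a + 64 * (b + 64 * (c + 64 * (d + 64 * (e + 64 * f)))) := rfl

theorem dg_pk {a b c d e f : ℕ} (ha : a < 64) (hb : b < 64) (hc : c < 64) (hd : d < 64)
    (he : e < 64) (hf : f < 64) : pk a b c d e f < 2 ^ 36 ∧ dg (pk a b c d e f) 0 = a ∧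
    dg (pk a b c d e f) 1 = b ∧ dg (pk a b c d e f) 2 = c ∧ dg (pk a b c d e f) 3 = d ∧
    dg (pk a b c d e f) 4 = e ∧ dg (pk a b c d e f) 5 = f := by
  simp only [dg_eq, pk_eq]; omega

theorem pk_dg {L : ℕ} (h : L < 2 ^ 36) :
    pk (dg L 0) (dg L 1) (dg L 2) (dg L 3) (dg L 4) (dg L 5) = L := by
  simp only [dg_eq, pk_eq]; omega

theorem cmp_spec (L M : ℕ) : cmp L M < 2 ^ 36 ∧ ∀ k, k < 64 → ap6 (cmp L M) k = ap6 L (ap6 M k) := by
  rw [cmp, force_eq, force_eq]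
  obtain ⟨h, h0, h1, h2, h3, h4, h5⟩ := dg_pk (ap6_lt L (dg M 0)) (ap6_lt L (dg M 1))
    (ap6_lt L (dg M 2)) (ap6_lt L (dg M 3)) (ap6_lt L (dg M 4)) (ap6_lt L (dg M 5))
  refine ⟨h, ind64 (by simp [ap6_zero]) (fun i hi => ?_) fun k l _ _ a b => by
    rw [ap6_xor, ap6_xor, ap6_xor, a, b]⟩
  rw [ap6_pow _ hi, ap6_pow _ hi]
  interval_cases i <;> assumption

theorem ap6_id : ∀ k, k < 64 → ap6 id6 k = k := by decide +kernel

theorem ex1_lt (c : ℕ) : ex1 c < 64 := by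
  have h : ∀ x m, m < 64 → sr c x m < 2 ^ 6 := fun x m h => lt_of_le_of_lt Nat.and_le_right h
  rw [ex1, force_eq]
  exact Nat.or_lt_two_pow (Nat.or_lt_two_pow (Nat.or_lt_two_pow (h _ _ (by norm_num))
    (h _ _ (by norm_num))) (Nat.or_lt_two_pow (h _ _ (by norm_num)) (h _ _ (by norm_num))))
    (Nat.or_lt_two_pow (h _ _ (by norm_num)) (h _ _ (by norm_num)))

theorem ex2_lt (c : ℕ) : ex2 c < 64 := by
  have h : ∀ x m, m < 64 → sr c x m < 2 ^ 6 := fun x m h => lt_of_le_of_lt Nat.and_le_right h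
  rw [ex2, force_eq]
  exact Nat.or_lt_two_pow (Nat.or_lt_two_pow (Nat.or_lt_two_pow (h _ _ (by norm_num))
    (h _ _ (by norm_num))) (Nat.or_lt_two_pow (h _ _ (by norm_num)) (h _ _ (by norm_num))))
    (Nat.or_lt_two_pow (h _ _ (by norm_num)) (h _ _ (by norm_num)))

theorem exT_lt (c : ℕ) : exT c < 1024 := by
  have h : ∀ x m, m < 1024 → sr c x m < 2 ^ 10 := fun x m h => lt_of_le_of_lt Nat.and_le_right h
  rw [exT, force_eq]
  exact Nat.or_lt_two_pow (Nat.or_lt_two_pow (h _ _ (by norm_num)) (h _ _ (by norm_num)))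
    (Nat.or_lt_two_pow (h _ _ (by norm_num)) (h _ _ (by norm_num)))

theorem sA1 {k : ℕ} (hk : k < 64) : vH (a1 k) = true ∧ ex1 (a1 k) = k ∧ tau (a1 k) = a2 k ∧
    inT (a1 k) = true ∧ inT (a2 k) = true ∧ ex2 (a2 k) = k ∧
    (∀ l, l < 64 → m5 (a1 k) (a1 l) = a1 (k ^^^ l)) ∧ vH (wit1 k) = true ∧ cl1 k < 8 ∧
    (4 ≤ cl1 k → inP (wit1 k) = true) ∧
    (k = 0 ∨ cl1 k < 7 ∧ m5 (wit1 k) (a1 k) = m5 (rep (cl1 k)) (wit1 k)) := by
  have := (allLt_iff _ _).1 chkA1 k hk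
  simp only [force_eq, band_eq, bor_eq, Bool.and_eq_true, Bool.or_eq_true, beq_true_iff,
    allLt_iff, blt_true_iff, bimp_iff, ble_true_iff] at this
  exact this

theorem inA_iff {c : ℕ} : inA c = true ↔ ∃ k, k < 64 ∧ a1 k = c := by
  rw [inA, force_eq, beq_true_iff]
  exact ⟨fun h => ⟨_, ex1_lt c, h⟩, fun ⟨k, hk, e⟩ => by rw [← e, (sA1 hk).2.1]⟩

theorem inB_iff {c : ℕ} : inB c = true ↔ ∃ k, k < 64 ∧ a2 k = c := by
  rw [inB, force_eq, beq_true_iff]
  exact ⟨fun h => ⟨_, ex2_lt c, h⟩, fun ⟨k, hk, e⟩ => by rw [← e, (sA1 hk).2.2.2.2.2.1]⟩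

theorem sT {j : ℕ} (hj : j < 1024) : vH (embT j) = true ∧ exT (embT j) = j ∧
    inP (embT j) = true ∧ (sqr (sqr (embT j)) = one5 ∨ sqr (sqr (embT j)) = zc) := by
  have := (allLt_iff _ _).1 chkT j hj
  simpa only [force_eq, band_eq, bor_eq, Bool.and_eq_true, Bool.or_eq_true, beq_true_iff] using this

theorem inT_iff {c : ℕ} : inT c = true ↔ ∃ k, k < 1024 ∧ embT k = c := by
  rw [inT, force_eq, beq_true_iff]
  exact ⟨fun h => ⟨_, exT_lt c, h⟩, fun ⟨k, hk, e⟩ => by rw [← e, (sT hk).2.1]⟩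

theorem allT_spec {P : ℕ → Bool} (h : allT P = true) {c : ℕ} (hc : inT c = true) : P c = true := by
  obtain ⟨n, hn, rfl⟩ := inT_iff.1 hc
  simpa using (allLt_iff _ _).1 h n hn

theorem inT_spec {c : ℕ} (h : inT c = true) : vH c = true ∧ inP c = true ∧
    (sqr (sqr c) = one5 ∨ sqr (sqr c) = zc) := by
  obtain ⟨n, hn, rfl⟩ := inT_iff.1 h
  exact ⟨(sT hn).1, (sT hn).2.2⟩

theorem vmul {a b : ℕ} (ha : vH a = true) (hb : vH b = true) : vH (m5 a b) = true := (gH_mul ha hb).1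

theorem viv {a : ℕ} (ha : vH a = true) : vH (iv a) = true := (vH_spec ha).2.2.2.2.1

theorem vcj {g d c : ℕ} (hg : vH g = true) (hd : vH d = true) (hc : vH c = true) :
    vH (cj g d c) = true := vmul (vmul hg hc) hd

theorem vcmt {g d c : ℕ} (hg : vH g = true) (hd : vH d = true) (hc : vH c = true) :
    vH (cmt g d c) = true := vmul (vcj hg hd hc) hc

theorem vsqr {c : ℕ} (hc : vH c = true) : vH (sqr c) = true := by
  rw [sqr, force_eq]; exact vmul hc hc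

theorem va1 {k : ℕ} (hk : k < 64) : vH (a1 k) = true := (sA1 hk).1

theorem vone : vH one5 = true := by decide +kernel

theorem vz : vH zc = true := by decide +kernel

variable {G : Type*} [Group G]

theorem nm_of [Finite G] {X : Subgroup G} {n : G} (h : ∀ a ∈ X, n * a * n⁻¹ ∈ X) :
    n ∈ normalizer (X : Set G) := mem_normalizer_fintype h

theorem nm_mem {X : Subgroup G} {n : G} (h : n ∈ normalizer (X : Set G)) {a : G} (ha : a ∈ X) :
    n * a * n⁻¹ ∈ X := (mem_normalizer_iff.1 h a).1 ha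

/-- the element with a given code -/
def E (φ : H0 →* G) (c : ℕ) : G := φ (gH c)

/-- the centraliser of an involution -/
structure Loc (φ : H0 →* G) : Prop where
  inj : Function.Injective φ
  cen : ∀ g, Commute g (E φ zc) → g ∈ φ.range

variable {φ : H0 →* G}

theorem E_mul {a b : ℕ} (ha : vH a = true) (hb : vH b = true) : E φ (m5 a b) = E φ a * E φ b := by
  rw [E, (gH_mul ha hb).2, map_mul]; rfl

theorem E_one : E φ one5 = 1 := by rw [E, gH_one, map_one]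

theorem E_iv {a : ℕ} (ha : vH a = true) : E φ (iv a) = (E φ a)⁻¹ := by
  rw [E, gH_iv ha, map_inv]; rfl

theorem E_cj {g c : ℕ} (hg : vH g = true) (hc : vH c = true) :
    E φ (cj g (iv g) c) = E φ g * E φ c * (E φ g)⁻¹ := by
  rw [cj, E_mul (vmul hg hc) (viv hg), E_mul hg hc, E_iv hg]

theorem E_cj' {g d c : ℕ} (hg : vH g = true) (hd : vH d = true) (hc : vH c = true) :
    E φ (cj g d c) = E φ g * E φ c * E φ d := by
  rw [cj, E_mul (vmul hg hc) hd, E_mul hg hc]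

theorem E_cmt {g d c : ℕ} (hg : vH g = true) (hd : vH d = true) (hc : vH c = true) :
    E φ (cmt g d c) = E φ g * E φ c * E φ d * E φ c := by
  rw [cmt, E_mul (vcj hg hd hc) hc, E_cj' hg hd hc]

theorem E_sqr {c : ℕ} (hc : vH c = true) : E φ (sqr c) = E φ c * E φ c := by
  rw [sqr, force_eq, E_mul hc hc]

theorem E_four {c : ℕ} (hc : vH c = true) : E φ (sqr (sqr c)) = E φ c ^ 4 := by
  rw [E_sqr (vsqr hc), E_sqr hc]; simp [pow_succ, mul_assoc]

theorem E_mem (c : ℕ) : E φ c ∈ φ.range := ⟨_, rfl⟩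

theorem ex_E {g : G} (h : g ∈ φ.range) : ∃ c, vH c = true ∧ E φ c = g := by
  obtain ⟨a, rfl⟩ := h
  exact ⟨_, vH_cd a, by rw [E, gH_cd]⟩

theorem Loc.eq (h : Loc φ) {a b : ℕ} (ha : vH a = true) (hb : vH b = true) :
    E φ a = E φ b ↔ a = b :=
  ⟨fun e => by rw [← cd_gH ha, h.inj e, cd_gH hb], fun e => e ▸ rfl⟩

theorem Loc.ex (h : Loc φ) {g : G} (hg : Commute g (E φ zc)) : ∃ c, vH c = true ∧ E φ c = g :=
  ex_E (h.cen g hg)

theorem E_comm {a b : ℕ} (ha : vH a = true) (hb : vH b = true) (h : cm a b = true) :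
    Commute (E φ a) (E φ b) := by
  rw [cm, force_eq, force_eq, beq_true_iff] at h
  rw [Commute, SemiconjBy, ← E_mul ha hb, ← E_mul hb ha, h]

theorem Loc.cm (h : Loc φ) {a b : ℕ} (ha : vH a = true) (hb : vH b = true) :
    cm a b = true ↔ Commute (E φ a) (E φ b) := by
  refine ⟨E_comm ha hb, fun e => ?_⟩
  rw [Hd.cm, force_eq, force_eq, beq_true_iff, ← h.eq (vmul ha hb) (vmul hb ha), E_mul ha hb,
    E_mul hb ha]
  exact e

theorem Loc.sq1 (h : Loc φ) {a : ℕ} (ha : vH a = true) : sq1 a = true ↔ E φ a * E φ a = 1 := by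
  rw [Hd.sq1, force_eq, beq_true_iff, ← h.eq (vmul ha ha) vone, E_mul ha ha, E_one]

theorem Loc.ne_one (h : Loc φ) {a : ℕ} (ha : vH a = true) (h1 : a ≠ one5) : E φ a ≠ 1 :=
  fun e => h1 ((h.eq ha vone).1 (e.trans E_one.symm))

theorem comm_z {g : G} (h : g ∈ φ.range) : Commute g (E φ zc) := by
  obtain ⟨c, hc, rfl⟩ := ex_E h
  rw [Commute, SemiconjBy, ← E_mul hc vz, ← E_mul vz hc, (vH_spec hc).2.1]

theorem E_tau {c : ℕ} (h : vH c = true) : E (φ.comp τ) c = E φ (tau c) := by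
  rw [E, E, MonoidHom.comp_apply, (τ_gH h).2]

theorem vtau {c : ℕ} (h : vH c = true) : vH (tau c) = true := (τ_gH h).1

theorem tau_tau (φ : H0 →* G) : (φ.comp τ).comp τ = φ := MonoidHom.ext fun g => by
  rw [MonoidHom.comp_apply, MonoidHom.comp_apply, τ_τ]

theorem E_tau' {c : ℕ} (h : vH c = true) : E (φ.comp τ) (tau c) = E φ c := by
  rw [← E_tau h, tau_tau]

theorem range_tau (φ : H0 →* G) : (φ.comp τ).range = φ.range := by
  ext g
  exact ⟨fun ⟨a, e⟩ => ⟨_, e⟩, fun ⟨a, e⟩ => ⟨τ a, by rw [MonoidHom.comp_apply, τ_τ, e]⟩⟩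

theorem z_tau : E (φ.comp τ) zc = E φ zc := by
  rw [E_tau vz, show tau zc = zc by decide +kernel]

theorem Loc.tau (h : Loc φ) : Loc (φ.comp τ) :=
  ⟨h.inj.comp (Function.LeftInverse.injective τ_τ), fun g hg => by
    rw [range_tau]; exact h.cen g (z_tau (φ := φ) ▸ hg)⟩

/-- elements of the elementary abelian group -/
def A (φ : H0 →* G) (k : ℕ) : G := E φ (a1 k)

theorem A_mul {k l : ℕ} (hk : k < 64) (hl : l < 64) : A φ k * A φ l = A φ (k ^^^ l) := by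
  rw [A, A, A, ← E_mul (va1 hk) (va1 hl), (sA1 hk).2.2.2.2.2.2.1 l hl]

theorem A_zero : A φ 0 = 1 := by rw [A, show a1 0 = one5 by decide +kernel, E_one]

theorem A_four : A φ 4 = E φ zc := by rw [A, show a1 4 = zc by decide +kernel]

theorem A_sq {k : ℕ} (hk : k < 64) : A φ k * A φ k = 1 := by rw [A_mul hk hk, Nat.xor_self, A_zero]

theorem A_inv {k : ℕ} (hk : k < 64) : (A φ k)⁻¹ = A φ k := inv_eq_of_mul_eq_one_left (A_sq hk)

theorem A_comm {k l : ℕ} (hk : k < 64) (hl : l < 64) : Commute (A φ k) (A φ l) := by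
  rw [Commute, SemiconjBy, A_mul hk hl, A_mul hl hk, Nat.xor_comm]

theorem Loc.A_eq (h : Loc φ) {k l : ℕ} (hk : k < 64) (hl : l < 64) : A φ k = A φ l ↔ k = l := by
  rw [A, A, h.eq (va1 hk) (va1 hl)]
  exact ⟨fun e => by rw [← (sA1 hk).2.1, e, (sA1 hl).2.1], fun e => e ▸ rfl⟩

theorem A_tau {k : ℕ} (hk : k < 64) : A (φ.comp τ) k = E φ (a2 k) := by
  rw [A, E_tau (va1 hk), (sA1 hk).2.2.1]

theorem va2 {k : ℕ} (hk : k < 64) : vH (a2 k) = true := (sA1 hk).2.2.1 ▸ vtau (va1 hk)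

/-- the elementary abelian group of order 64 -/
def AS (φ : H0 →* G) : Subgroup G where
  carrier := {g | ∃ k, k < 64 ∧ A φ k = g}
  one_mem' := ⟨0, by norm_num, A_zero⟩
  mul_mem' := by
    rintro _ _ ⟨k, hk, rfl⟩ ⟨l, hl, rfl⟩; exact ⟨_, xor_lt hk hl, (A_mul hk hl).symm⟩
  inv_mem' := by rintro _ ⟨k, hk, rfl⟩; exact ⟨k, hk, (A_inv hk).symm⟩

theorem A_mem {k : ℕ} (hk : k < 64) : A φ k ∈ AS φ := ⟨k, hk, rfl⟩

theorem AS_le : AS φ ≤ φ.range := by rintro _ ⟨k, -, rfl⟩; exact E_mem _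

theorem AS_sq {a : G} (h : a ∈ AS φ) : a * a = 1 := by obtain ⟨k, hk, rfl⟩ := h; exact A_sq hk

theorem AS_comm {a b : G} (h : a ∈ AS φ) (h' : b ∈ AS φ) : Commute a b := by
  obtain ⟨k, hk, rfl⟩ := h; obtain ⟨l, hl, rfl⟩ := h'; exact A_comm hk hl

theorem Loc.memA (h : Loc φ) {c : ℕ} (hc : vH c = true) : E φ c ∈ AS φ ↔ inA c = true := by
  rw [inA_iff]
  exact exists_congr fun k => and_congr_right fun hk => h.eq (va1 hk) hc

theorem Loc.memB (h : Loc φ) {c : ℕ} (hc : vH c = true) :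
    E φ c ∈ AS (φ.comp τ) ↔ inB c = true := by
  rw [inB_iff]
  exact exists_congr fun k => and_congr_right fun hk => by rw [A_tau hk, h.eq (va2 hk) hc]

theorem Loc.cardA (h : Loc φ) : Nat.card (AS φ) = 64 := by
  have := ncard_eq_countLt 64 (fun _ => true) (A φ) (AS φ)
    (fun i j hi hj _ _ e => (h.A_eq hi hj).1 e) fun x => by simp; rfl
  rw [← Nat.card_coe_set_eq] at this
  exact this.trans (by decide +kernel)

/-- the action on the group of order 64 -/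
def Acts (φ : H0 →* G) (n : G) (L : ℕ) : Prop :=
  L < 2 ^ 36 ∧ ∀ k, k < 64 → n * A φ k * n⁻¹ = A φ (ap6 L k)

theorem acts_of_gen {n : G} {L : ℕ} (hL : L < 2 ^ 36)
    (h : ∀ i, i < 6 → n * A φ (2 ^ i) * n⁻¹ = A φ (dg L i)) : Acts φ n L :=
  ⟨hL, ind64 (by simp [ap6_zero, A_zero]) (fun i hi => by rw [ap6_pow _ hi, h i hi])
    fun k l hk hl a b => by
      rw [ap6_xor, ← A_mul hk hl, ← A_mul (ap6_lt _ _) (ap6_lt _ _), ← a, ← b, conj_mul]⟩

/-- the normaliser -/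
def NA (φ : H0 →* G) : Subgroup G := normalizer (AS φ : Set G)

theorem exists_acts {n : G} (h : n ∈ NA φ) : ∃ L, Acts φ n L := by
  have : ∀ i : Fin 6, ∃ k, k < 64 ∧ A φ k = n * A φ (2 ^ (i : ℕ)) * n⁻¹ := fun i =>
    nm_mem h (A_mem (Nat.pow_lt_pow_right (n := 6) (by norm_num) i.2))
  choose f h1 h2 using this
  obtain ⟨h, e0, e1, e2, e3, e4, e5⟩ := dg_pk (h1 0) (h1 1) (h1 2) (h1 3) (h1 4) (h1 5)
  refine ⟨_, acts_of_gen h fun i hi => ?_⟩
  have := h2 ⟨i, hi⟩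
  interval_cases i <;> simp only [e0, e1, e2, e3, e4, e5] <;> exact this.symm

theorem Acts.mem [Finite G] {n : G} {L : ℕ} (h : Acts φ n L) : n ∈ NA φ :=
  nm_of (by rintro _ ⟨k, hk, rfl⟩; exact ⟨_, ap6_lt _ _, (h.2 k hk).symm⟩)

theorem Acts.mul {n m : G} {L M : ℕ} (h : Acts φ n L) (h' : Acts φ m M) :
    Acts φ (n * m) (cmp L M) :=
  ⟨(cmp_spec L M).1, fun k hk => by
    rw [(cmp_spec L M).2 k hk, ← h.2 _ (ap6_lt _ _), ← h'.2 k hk]; group⟩

theorem acts_of_mem {a : G} (h : a ∈ AS φ) : Acts φ a id6 :=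
  ⟨by decide, fun k hk => by rw [ap6_id k hk, (AS_comm h (A_mem hk)).eq, mul_inv_cancel_right]⟩

theorem Acts.uniq (h : Loc φ) {n : G} {L M : ℕ} (h1 : Acts φ n L) (h2 : Acts φ n M) : L = M := by
  have : ∀ i, i < 6 → dg L i = dg M i := fun i hi => by
    have hk : 2 ^ i < 64 := Nat.pow_lt_pow_right (n := 6) (by norm_num) hi
    rw [← ap6_pow _ hi, ← ap6_pow _ hi, ← h.A_eq (ap6_lt _ _) (ap6_lt _ _), ← h1.2 _ hk, h2.2 _ hk]
  rw [← pk_dg h1.1, ← pk_dg h2.1, this 0, this 1, this 2, this 3, this 4, this 5] <;> norm_num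

theorem Acts.inj (h : Loc φ) {n : G} {L : ℕ} (h1 : Acts φ n L) {k l : ℕ} (hk : k < 64) (hl : l < 64)
    (e : ap6 L k = ap6 L l) : k = l := by
  have := h1.2 k hk
  rw [e, ← h1.2 l hl] at this
  exact (h.A_eq hk hl).1 (by simpa using this)

theorem Acts.comm {n : G} {L k : ℕ} (h1 : Acts φ n L) (hk : k < 64) (e : ap6 L k = k) :
    Commute n (A φ k) := by
  have := h1.2 k hk
  rw [e] at this
  exact mul_inv_eq_iff_eq_mul.1 this

theorem Loc.cenA (h : Loc φ) {n : G} (h1 : ∀ k, k < 64 → Commute n (A φ k)) : n ∈ AS φ := by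
  obtain ⟨c, hc, rfl⟩ := h.ex (A_four (φ := φ) ▸ h1 4 (by norm_num))
  have := allH_spec chkCA hc
  simp only [bimp_iff, band_eq, Bool.and_eq_true] at this
  have e : ∀ k, k < 64 → Hd.cm c (a1 k) = true := fun k hk => (h.cm hc (va1 hk)).2 (h1 k hk)
  exact (h.memA hc).2 (this ⟨e _ (by norm_num), e _ (by norm_num), e _ (by norm_num),
    e _ (by norm_num), e _ (by norm_num)⟩)

theorem Acts.cen (h : Loc φ) {n : G} (h1 : Acts φ n id6) : n ∈ AS φ :=
  h.cenA fun k hk => h1.comm hk (ap6_id k hk)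

theorem mu_lt (c : ℕ) : mu c < 2 ^ 36 := by
  rw [mu, force_eq, force_eq]
  exact (dg_pk (ex1_lt _) (ex1_lt _) (ex1_lt _) (ex1_lt _) (ex1_lt _) (ex1_lt _)).1

theorem acts_mu {c : ℕ} (hc : vH c = true) (hp : inP c = true) : Acts φ (E φ c) (mu c) ∧
    mu c ∈ ylist ∧ (cm c x25 = true → mu c ∈ slist) := by
  have := allH_spec chkNA hc
  simp only [bif'_eq, hp, if_true, force_eq, band_eq, Bool.and_eq_true, allLt_iff, beq_true_iff,
    meL_iff, bimp_iff] at this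
  refine ⟨acts_of_gen (mu_lt c) fun i hi => ?_, this.2⟩
  rw [A, A, ← this.1 i hi, E_cj hc (va1 (Nat.pow_lt_pow_right (n := 6) (by norm_num) hi))]
  rfl

theorem not_inP {c : ℕ} (hc : vH c = true) (hp : inP c = false) : cm c x25 = false ∧
    cm c tc = false ∧ ¬ (inA (cj c (iv c) (a1 32)) = true ∧ inA (cj c (iv c) (a1 16)) = true) := by
  have := allH_spec chkNA hc
  simp only [bif'_eq, hp, force_eq, band_eq, bnot_eq, Bool.and_eq_true, Bool.not_eq_true',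
    Bool.false_eq_true, if_false, Bool.and_eq_false_imp] at this
  exact ⟨this.1, this.2.1, fun e => by simp [this.2.2.2.2 e.1] at e⟩

theorem Loc.memN [Finite G] (h : Loc φ) {c : ℕ} (hc : vH c = true) :
    E φ c ∈ NA φ ↔ inP c = true := by
  refine ⟨fun e => ?_, fun e => (acts_mu hc e).1.mem⟩
  by_contra hp
  have k : ∀ k, k < 64 → inA (cj c (iv c) (a1 k)) = true := fun k hk => by
    rw [← h.memA (vcj hc (viv hc) (va1 hk)), E_cj hc (va1 hk)]; exact nm_mem e (A_mem hk)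
  exact (not_inP hc (by simpa using hp)).2.2 ⟨k _ (by norm_num), k _ (by norm_num)⟩

theorem Acts.fix [Finite G] (h : Loc φ) {n : G} {L : ℕ} (h1 : Acts φ n L) (e : ap6 L 4 = 4) :
    ∃ c, vH c = true ∧ inP c = true ∧ E φ c = n ∧ mu c = L := by
  obtain ⟨c, hc, rfl⟩ := h.ex (A_four (φ := φ) ▸ h1.comm (by norm_num) e)
  have hp := (h.memN hc).1 h1.mem
  exact ⟨c, hc, hp, rfl, (acts_mu hc hp).1.uniq h h1⟩

theorem Loc.cardH (h : Loc φ) {S : Subgroup G} (hS : S ≤ φ.range) {P : ℕ → Bool}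
    (hP : ∀ c, vH c = true → (E φ c ∈ S ↔ P c = true)) : Nat.card S = cntH P := by
  have v : ∀ i, i < 21504 → vH (embH i) = true := fun i hi => vH_iff.2 ⟨i, hi, rfl⟩
  rw [cntH, ← ncard_eq_countLt 21504 _ (fun n => E φ (embH n)) S, ← Nat.card_coe_set_eq]
  · rfl
  · intro i j hi hj _ _ e
    have := (allLt_iff _ _).1 chkV1 i hi
    have h2 := (allLt_iff _ _).1 chkV1 j hj
    simp only [force_eq, band_eq, Bool.and_eq_true, beq_true_iff] at this h2
    rw [← this.1, (h.eq (v i hi) (v j hj)).1 e, h2.1]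
  · intro x
    refine ⟨fun hx => ?_, fun ⟨i, hi, h1, h2⟩ => h2 ▸ (hP _ (v i hi)).2 (by simpa using h1)⟩
    obtain ⟨c, hc, rfl⟩ := ex_E (hS hx)
    obtain ⟨n, hn, rfl⟩ := vH_iff.1 hc
    exact ⟨n, hn, by simpa using (hP _ hc).1 hx, rfl⟩

theorem Loc.ncardT (h : Loc φ) {S : Set G} {P : ℕ → Bool}
    (hP : ∀ x, x ∈ S ↔ ∃ c, inT c = true ∧ P c = true ∧ E φ c = x) : S.ncard = cntT P := by
  rw [cntT, ← ncard_eq_countLt 1024 _ (fun n => E φ (embT n)) S]
  · intro i j hi hj _ _ e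
    rw [← (sT hi).2.1, (h.eq (sT hi).1 (sT hj).1).1 e, (sT hj).2.1]
  · intro x
    rw [hP]
    refine ⟨fun ⟨c, h1, h2, h3⟩ => ?_, fun ⟨i, hi, h1, h2⟩ =>
      ⟨_, inT_iff.2 ⟨i, hi, rfl⟩, by simpa using h1, h2⟩⟩
    obtain ⟨n, hn, rfl⟩ := inT_iff.1 h1
    exact ⟨n, hn, by simpa using h2, h3⟩

/-- the Sylow subgroup -/
def TS (φ : H0 →* G) : Subgroup G := φ.range ⊓ (NA φ ⊓ NA (φ.comp τ))

theorem TS_tau : TS (φ.comp τ) = TS φ := by rw [TS, TS, tau_tau, range_tau, inf_comm (NA φ)]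

theorem Loc.memT [Finite G] (h : Loc φ) {c : ℕ} (hc : vH c = true) :
    E φ c ∈ TS φ ↔ inT c = true := by
  have e : E φ c ∈ NA (φ.comp τ) ↔ inP (Hd.tau c) = true := by
    rw [← h.tau.memN (vtau hc), E_tau' hc]
  have := allH_spec chkPT hc
  simp only [bimp_iff, bif'_eq, band_eq, bnot_eq] at this
  rw [TS, mem_inf, mem_inf, e, h.memN hc]
  refine ⟨fun k => ?_, fun k => ⟨E_mem c, (inT_spec k).2.1, by
    simpa [k] using this (inT_spec k).2.1⟩⟩
  by_contra k'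
  have := this k.2.1
  simp [k', k.2.2] at this

theorem Loc.exT [Finite G] (h : Loc φ) {g : G} (hg : g ∈ TS φ) :
    ∃ c, vH c = true ∧ inT c = true ∧ E φ c = g := by
  obtain ⟨c, hc, rfl⟩ := ex_E hg.1
  exact ⟨c, hc, (h.memT hc).1 hg, rfl⟩

theorem Loc.cardT [Finite G] (h : Loc φ) {S : Subgroup G} (hS : S ≤ TS φ) {P : ℕ → Bool}
    (hP : ∀ c, vH c = true → inT c = true → (E φ c ∈ S ↔ P c = true)) : Nat.card S = cntT P := by
  rw [← h.ncardT (S := S), ← Nat.card_coe_set_eq]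
  · rfl
  · refine fun x => ⟨fun hx => ?_, fun ⟨c, h1, h2, h3⟩ => h3 ▸ (hP c (inT_spec h1).1 h1).2 h2⟩
    obtain ⟨c, h1, h2, rfl⟩ := h.exT (hS hx)
    exact ⟨c, h2, (hP c h1 h2).1 hx, rfl⟩

theorem Loc.inT_of (h : Loc φ) {c : ℕ} (hc : vH c = true) (ht : Commute (E φ c) (E φ tc)) :
    inT c = true := by
  have e := (h.cm hc (by decide +kernel)).2 ht
  have hp : inP c = true := by
    by_contra k
    simp [(not_inP hc (by simpa using k)).2.1] at e
  have := allH_spec chkPT hc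
  simp only [bimp_iff, bif'_eq, band_eq, bnot_eq] at this
  by_contra k'
  have := this hp
  simp [k', e] at this

theorem Loc.AS_le_T [Finite G] (h : Loc φ) : AS φ ≤ TS φ := by
  rintro _ ⟨k, hk, rfl⟩; exact (h.memT (va1 hk)).2 (sA1 hk).2.2.2.1

theorem z_sq : E φ zc * E φ zc = 1 := A_four (φ := φ) ▸ A_sq (by norm_num)

theorem Loc.z_ne (h : Loc φ) : E φ zc ≠ 1 := h.ne_one vz (by decide)

theorem Loc.T_four [Finite G] (h : Loc φ) {g : G} (hg : g ∈ TS φ) :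
    g ^ 4 = 1 ∨ g ^ 4 = E φ zc := by
  obtain ⟨c, hc, h1, rfl⟩ := h.exT hg
  rw [← E_four hc]
  exact (inT_spec h1).2.2.imp (fun e => by rw [e, E_one]) fun e => by rw [e]

theorem Loc.T_two [Finite G] (h : Loc φ) : IsPGroup 2 (TS φ) := fun g => ⟨3, Subtype.ext (by
  show (g : G) ^ (4 * 2) = 1
  rcases h.T_four g.2 with e | e <;> rw [pow_mul, e]
  exacts [one_pow _, (pow_two _).trans z_sq])⟩

theorem Loc.snT [Finite G] (h : Loc φ) : SN (TS φ) ⊤ := by
  refine ⟨le_top, h.T_two, fun g _ hg => ?_⟩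
  have m : ∀ c, inT c = true → g * E φ c * g⁻¹ ∈ TS φ := fun c hc =>
    hg _ ((h.memT (inT_spec hc).1).2 hc)
  have e : E φ x0 ^ 4 = E φ zc := by
    rw [← show sqr (sqr x0) = zc by decide +kernel, E_four (by decide +kernel)]
  have := h.T_four (m x0 (by decide +kernel))
  rw [conj_pow, e] at this
  obtain ⟨c, hc, rfl⟩ := h.ex (mul_inv_eq_iff_eq_mul.1
    (this.resolve_left fun k => h.z_ne (by simpa using k)))
  have := allH_spec chkNT hc
  simp only [bor_eq, force_eq, band_eq, bnot_eq, Bool.or_eq_true, Bool.not_eq_true',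
    Bool.and_eq_false_imp] at this
  refine (h.memT hc).2 (this.resolve_right fun k => ?_)
  have m' : ∀ d, inT d = true → inT (cj c (iv c) d) = true := fun d hd => by
    rw [← h.memT (vcj hc (viv hc) (inT_spec hd).1), E_cj hc (inT_spec hd).1]; exact m d hd
  simpa [m' x34 (by decide +kernel)] using k (m' x23 (by decide +kernel))

end

end CfsgH9.Hd
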