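/-
Simple groups with an involution centraliser `2^(1+4).A₅`: the centraliser is the split model.
-/
import Cfsg.Agent.H9.J3Facts
import Cfsg.Agent.H4.ZStar
import Cfsg.Agent.H9.J1Small

set_option autoImplicit false
set_option maxRecDepth 100000

namespace CfsgH9.J3

open Subgroup CfsgH2 CfsgH9.J1
open scoped commutatorElement

variable {G : Type*} [Group G]

theorem exists_fused [Finite G] [IsSimpleGroup G] {t : G} (ht : orderOf t = 2)
    (hc : 2 < Nat.card (centralizer ({t} : Set G))) :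
    ∃ g, g⁻¹ * t * g ≠ t ∧ Commute (g⁻¹ * t * g) t := by
  by_contra hn
  push Not at hn
  have t2 := CfsgH4.orderOf_eq_two_iff.1 ht
  have hi := CfsgH4.isol_of_commute ht fun w hw hc => by
    obtain ⟨g, rfl⟩ := isConj_iff.1 hw
    by_contra e
    exact hn g⁻¹ (by rwa [inv_inv]) (by rw [inv_inv]; exact hc.symm)
  have hO : Cfsg.pPrimeCore 2 G = ⊥ := by
    refine ((inferInstance : (Cfsg.pPrimeCore 2 G).Normal).eq_bot_or_eq_top).resolve_right fun e => ?_
    have := CfsgH4.odd_card_pPrimeCore (G := G)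
    exact CfsgH4.odd_card_iff_no_involution.1 this t (e ▸ mem_top _) ht
  have hz : t ∈ center G := mem_center_iff.2 fun g => by
    have := CfsgH4.zstar t2.1 hi g
    rw [hO, mem_bot, mul_inv_eq_one, mul_inv_eq_iff_eq_mul] at this
    exact this.symm
  have : (zpowers t).Normal := normal_zpowers_of_mem_center hz
  rcases this.eq_bot_or_eq_top with e | e
  · exact t2.2 (zpowers_eq_bot.1 e)
  · have h1 := card_le_card_group (centralizer ({t} : Set G))
    rw [← card_top (G := G), ← e, Nat.card_zpowers, ht] at h1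
    omega

theorem a5_comm : ∀ x y : alternatingGroup (Fin 5), x ^ 4 = 1 → y ^ 4 = 1 → (x * y) ^ 4 = 1 →
    x * y = y * x := by decide +kernel

theorem comm_of_trivial {C : Type*} [Group C] {z : C} {E : Subgroup C} [E.Normal]
    (hs : Sympl 2 z E) (e : C ⧸ E ≃* alternatingGroup (Fin 5))
    (h : E ⊔ centralizer (E : Set C) = ⊤) {x y : C} (hx : x ^ 4 = 1) (hy : y ^ 4 = 1)
    (hxy : (x * y) ^ 4 = 1) : ⁅x, y⁆ = 1 ∨ ⁅x, y⁆ = z := by
  refine eq_or_eq_of_mem_zpowers_two hs.pow_eq (hs.nondeg ⟨?_, ?_⟩)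
  · set π := e.toMonoidHom.comp (QuotientGroup.mk' E) with hπ
    have := a5_comm (π x) (π y) (by rw [← map_pow, hx, map_one]) (by rw [← map_pow, hy, map_one])
      (by rw [← map_mul, ← map_pow, hxy, map_one])
    rw [← commutatorElement_eq_one_iff_mul_comm, ← map_commutatorElement] at this
    exact (QuotientGroup.eq_one_iff _).1 ((map_eq_one_iff _ e.injective).1 this)
  · obtain ⟨a, ha, k, hk, rfl⟩ := mem_sup_of_normal_left.1 (h ▸ mem_top x)
    obtain ⟨b, hb, l, hl, rfl⟩ := mem_sup_of_normal_left.1 (h ▸ mem_top y)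
    set ψ : C →* MulAut E := MulAut.conjNormal with hψ
    have kψ : ∀ c, ψ c = 1 ↔ c ∈ centralizer (E : Set C) := fun c => by
      refine ⟨fun h v hv => ?_, fun h => MulEquiv.ext fun v => Subtype.ext ?_⟩
      · have := congrArg Subtype.val (DFunLike.congr_fun h ⟨v, hv⟩)
        simp only [hψ, MulAut.conjNormal_apply, MulAut.one_apply] at this
        rw [mul_inv_eq_iff_eq_mul] at this
        exact this.symm
      · simp only [hψ, MulAut.conjNormal_apply, MulAut.one_apply]
        rw [← h v v.2, mul_inv_cancel_right]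
    refine (kψ _).1 ?_
    rw [map_commutatorElement, map_mul, map_mul, (kψ k).2 hk, (kψ l).2 hl, mul_one, mul_one,
      ← map_commutatorElement, kψ]
    exact fun v _ => commute_of_mem_zpowers_central hs.central (hs.comm a ha b hb) v

theorem exists_pair {C : Type*} [Group C] [Finite C] {z : C} {E : Subgroup C}
    (hs : Sympl 2 z E) (hE : Nat.card E = 32) {a : C} (ha : a ∈ E) :
    ∃ x ∈ E, ∃ y ∈ E, Commute x a ∧ Commute y a ∧ ⁅x, y⁆ = z := by
  by_cases haz : a ∈ zpowers z
  · rcases hs.eq_or_exists with e | ⟨x, hx, y, hy, e⟩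
    · have := hs.card_zpowers
      rw [← e, hE] at this; omega
    · exact ⟨x, hx, y, hy, commute_of_mem_zpowers_central hs.central haz x,
        commute_of_mem_zpowers_central hs.central haz y, e⟩
  · obtain ⟨b, hb, hab⟩ := hs.exists_comm_eq ha haz
    rcases (hs.perp ha hb hab).eq_or_exists with e | ⟨x, hx, y, hy, e⟩
    · have := hs.card_perp ha hb hab
      rw [e, hs.card_zpowers, hE] at this; omega
    · exact ⟨x, hx.1, y, hy.1, (mem_perp.1 hx).2.1, (mem_perp.1 hy).2.1, e⟩

theorem not_trivial {t g : G} [Finite G] (h1 : g⁻¹ * t * g ≠ t) (h2 : Commute (g⁻¹ * t * g) t)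
    {E : Subgroup (centralizer ({t} : Set G))} [E.Normal]
    (hs : Sympl 2 ⟨t, mem_centralizer_singleton_iff.2 rfl⟩ E) (hE : Nat.card E = 32)
    (e : centralizer ({t} : Set G) ⧸ E ≃* alternatingGroup (Fin 5)) :
    E ⊔ centralizer (E : Set (centralizer ({t} : Set G))) ≠ ⊤ := by
  intro h
  obtain ⟨a, ha, k, hk, hv⟩ := mem_sup_of_normal_left.1
    (h ▸ mem_top (⟨_, mem_centralizer_singleton_iff.2 h2⟩ : centralizer ({t} : Set G)))
  obtain ⟨x, hx, y, hy, xa, ya, hxy⟩ := exists_pair hs hE ha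
  have four : ∀ x ∈ E, (x : G) ^ 4 = 1 := fun x hx => by
    have : x ^ 4 = 1 := by
      rw [show 4 = 2 * 2 by rfl, pow_mul]
      rcases hs.sq_eq_or hx with e | e <;> rw [e]
      exacts [one_pow 2, hs.pow_eq]
    exact congrArg Subtype.val this
  have mem : ∀ x ∈ E, Commute x a → g * x * g⁻¹ ∈ centralizer ({t} : Set G) := fun x hx hxa => by
    have h3 : Commute x (a * k) := hxa.mul_right (hk x hx)
    rw [hv] at h3
    have h4 : Commute (x : G) (g⁻¹ * t * g) := congrArg Subtype.val h3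
    have := h4.conj g
    rwa [show g * (g⁻¹ * t * g) * g⁻¹ = t by group, Commute, SemiconjBy,
      ← mem_centralizer_singleton_iff] at this
  have := comm_of_trivial hs e h (x := ⟨_, mem x hx xa⟩) (y := ⟨_, mem y hy ya⟩)
    (Subtype.ext (by simp [four x hx])) (Subtype.ext (by simp [four y hy]))
    (Subtype.ext (by
      have := four _ (E.mul_mem hx hy)
      simp only [Subgroup.coe_mul] at this
      simp [this]))
  have h5 : ⁅(x : G), (y : G)⁆ = t := congrArg Subtype.val hxy
  have h6 : ⁅g * x * g⁻¹, g * y * g⁻¹⁆ = g * t * g⁻¹ :=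
    Eq.trans (by group) (congrArg (g * · * g⁻¹) h5)
  rcases this with e | e
  · have : g * t * g⁻¹ = 1 := h6.symm.trans (congrArg Subtype.val e)
    exact hs.ne_one (Subtype.ext (by simpa using this))
  · have : g * t * g⁻¹ = t := h6.symm.trans (congrArg Subtype.val e)
    exact h1 (by nth_rewrite 1 [← this]; group)

theorem not_nonsplit {t g : G} (h1 : g⁻¹ * t * g ≠ t) (h2 : Commute (g⁻¹ * t * g) t)
    (f : MM C1 ≃* centralizer ({t} : Set G)) (hf : (f (MM.mk 16) : G) = t) : False := by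
  set φ : MM C1 →* G := (centralizer {t}).subtype.comp f.toMonoidHom with hφ
  have inj : Function.Injective φ := Subtype.val_injective.comp f.injective
  have hT : φ (MM.mk 16) = t := hf
  have cent : ∀ v, Commute v t → ∃ m, v = φ m := fun v hv =>
    ⟨f.symm ⟨v, mem_centralizer_singleton_iff.2 hv⟩, by simp [hφ]⟩
  have cT : ∀ m, Commute (φ m) t := fun m => by
    rw [← hT, Commute, SemiconjBy, ← map_mul, ← map_mul, n_T]
  have t2 : t * t = 1 := by rw [← hT, ← map_mul, show (MM.mk 16 : MM C1) * MM.mk 16 = 1 by decide +kernel, map_one]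
  have t1 : t ≠ 1 := fun e => absurd (inj (hT.trans (e.trans (map_one φ).symm))) (by decide +kernel)
  have key : ∀ g, g⁻¹ * t * g ≠ t → Commute (g⁻¹ * t * g) t →
      ∃ m, (g * φ m)⁻¹ * t * (g * φ m) = φ (MM.mk 1) := fun g h1 h2 => by
    obtain ⟨m, hm⟩ := cent _ h2
    rcases n_cls m (inj (by rw [map_mul, ← hm, cmul', t2, map_one]; group)) with e | e | e
    · rw [e, map_one] at hm; exact absurd (conj_eq_one hm) t1
    · rw [e, hT] at hm; exact absurd hm h1
    · generalize (MM.mk _ : MM C1) = p at e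
      refine ⟨p⁻¹, ?_⟩
      rw [show (g * φ p⁻¹)⁻¹ * t * (g * φ p⁻¹) = (φ p⁻¹)⁻¹ * (g⁻¹ * t * g) * φ p⁻¹ by group, hm, e]
      simp only [map_mul, map_inv]; group
  obtain ⟨m, hm⟩ := key g h1 h2
  generalize g * φ m = g at hm
  have ut : φ (MM.mk 1) ≠ t := fun e => absurd (inj (e.trans hT.symm)) (by decide +kernel)
  obtain ⟨m', hm'⟩ := key g⁻¹ (fun e => ut (by rw [← hm]; nth_rewrite 1 [← e]; group)) (by
    have := (cT (MM.mk 1)).symm.conj g
    rwa [← hm, show g * (g⁻¹ * t * g) * g⁻¹ = t by group, ← inv_inv g, inv_inv g⁻¹] at this)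
  have hm2 : (g⁻¹ * φ m')⁻¹ * φ (MM.mk 1) * (g⁻¹ * φ m') = t := by
    rw [← hm, show (g⁻¹ * φ m')⁻¹ * (g⁻¹ * t * g) * (g⁻¹ * φ m') = (φ m')⁻¹ * t * φ m' by group,
      mul_assoc, ← (cT m').eq, inv_mul_cancel_left]
  generalize g⁻¹ * φ m' = y at hm' hm2
  have := Set.ncard_le_ncard_of_injOn (fun v => y⁻¹ * v * y)
    (s := φ '' {m : MM C1 | m * MM.mk 1 = MM.mk 1 * m ∧ m * m = MM.mk 16})
    (t := φ '' {m : MM C1 | m * MM.mk 1 = MM.mk 1 * m ∧ m * m = MM.mk 1})
    (by
      rintro _ ⟨a, ⟨ha1, ha2⟩, rfl⟩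
      have h3 : Commute (φ a) (φ (MM.mk 1)) := by
        rw [Commute, SemiconjBy, ← map_mul, ← map_mul, ha1]
      obtain ⟨b, hb⟩ := cent (y⁻¹ * φ a * y) (hm2 ▸ comm_conj.2 h3)
      refine ⟨b, ⟨inj ?_, inj ?_⟩, hb.symm⟩
      · rw [map_mul, map_mul, ← hb, ← hm']
        exact comm_conj.2 (cT a)
      · rw [map_mul, ← hb, cmul', ← map_mul, ha2, hT, hm'])
    (fun a _ b _ e => by simpa using e) (Set.toFinite _)
  rw [Set.ncard_image_of_injective _ inj, Set.ncard_image_of_injective _ inj, n_36, n_12] at this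
  omega

/-- the local hypothesis -/
structure Loc (φ : M →* G) : Prop where
  inj : Function.Injective φ
  cent : ∀ g, Commute g (φ mT) → ∃ m, g = φ m
  syl : ¬ 256 ∣ Nat.card G

theorem exists_loc [Finite G] [IsSimpleGroup G] {t : G} (ht : Cfsg.IsTwoCentralInvolution t)
    (E : Subgroup (centralizer ({t} : Set G))) [hn : E.Normal] (hE : Nat.card E = 32)
    (hX : Cfsg.IsExtraspecial 2 E) (e : centralizer ({t} : Set G) ⧸ E ≃* alternatingGroup (Fin 5)) :
    ∃ φ : M →* G, Loc φ ∧ φ mT = t := by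
  obtain ⟨h2, P, hP, hc⟩ := ht
  have hC := card_C hE e
  set z : centralizer ({t} : Set G) := ⟨t, mem_centralizer_singleton_iff.2 rfl⟩ with hz
  have zc : z ∈ center (centralizer ({t} : Set G)) :=
    mem_center_iff.2 fun g => Subtype.ext (mem_centralizer_singleton_iff.1 g.2)
  have zE : z ∈ E := by
    set π := e.toMonoidHom.comp (QuotientGroup.mk' E) with hπ
    have h1 : ∀ a, a * π z = π z * a := fun a => by
      obtain ⟨b, rfl⟩ := (e.surjective.comp (QuotientGroup.mk'_surjective E)) a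
      show π b * π z = π z * π b
      rw [← map_mul, ← map_mul, mem_center_iff.1 zc]
    have h3 := (by decide +kernel : ∀ x : alternatingGroup (Fin 5), (∀ a, a * x = x * a) → x = 1)
      _ h1
    exact (QuotientGroup.eq_one_iff _).1 ((map_eq_one_iff _ e.injective).1 h3)
  obtain ⟨z0, hz0, hs0⟩ := IsExtraspecial.exists_sympl hX
  have e0 : (⟨z, zE⟩ : E) = z0 := by
    refine (eq_or_eq_of_mem_zpowers_two hs0.pow_eq (hz0 ▸ mem_center_iff.2 fun g =>
      Subtype.ext (mem_center_iff.1 zc g))).resolve_left fun e => ?_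
    exact CfsgH4.ne_one_of_orderOf h2 (congrArg (fun x : E => (x.1 : G)) e)
  have hs : Sympl 2 z E := (e0 ▸ hs0).map_subtype zc
  obtain ⟨g, g1, g2⟩ := exists_fused h2 (by omega)
  have hle : centralizer (E : Set (centralizer ({t} : Set G))) ≤ E := by
    have := e.isSimpleGroup
    rcases (((inferInstance : (E ⊔ centralizer (E : Set (centralizer ({t} : Set G)))).Normal).map
      _ (QuotientGroup.mk'_surjective E))).eq_bot_or_eq_top with h | h
    · rw [Subgroup.map_eq_bot_iff, QuotientGroup.ker_mk'] at h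
      exact le_sup_right.trans h
    · refine absurd ?_ (not_trivial g1 g2 hs hE e)
      have := congrArg (comap (QuotientGroup.mk' E)) h
      rwa [comap_map_eq, QuotientGroup.ker_mk', sup_eq_left.2 le_sup_left, comap_top] at this
  rcases exists_model hs hE hC hle with ⟨f, hf⟩ | ⟨f, hf⟩
  · have hT : ((centralizer {t}).subtype.comp f.toMonoidHom) mT = t := congrArg Subtype.val hf
    refine ⟨_, ⟨Subtype.val_injective.comp f.injective, fun g hg => ?_, fun h => ?_⟩, hT⟩
    · rw [hT] at hg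
      exact ⟨f.symm ⟨g, mem_centralizer_singleton_iff.2 hg⟩, by simp⟩
    · have h1 := (P.pow_dvd_card_of_pow_dvd_card (n := 8) h).trans
        (card_dvd_of_le (K := centralizer {t}) fun x hx =>
          mem_centralizer_singleton_iff.2 (hc x hx))
      rw [hC] at h1
      exact absurd h1 (by norm_num)
  · exact (not_nonsplit g1 g2 f (congrArg Subtype.val hf)).elim

end CfsgH9.J3
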