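/-
Weak closure of the groups of order 64 and fusion of involutions.
-/
import Cfsg.Agent.H9.HdC
import Cfsg.Agent.H9.J3Cent

set_option autoImplicit false
set_option maxRecDepth 100000
set_option linter.style.haveILetI false

namespace CfsgH9.Hd

open CfsgH5 CfsgH6 CfsgH4 Subgroup

noncomputable section

variable {G : Type*} [Group G] [Finite G] {φ : H0 →* G}

theorem conj_surj {X Y : Subgroup G} {g : G} (h : ∀ a ∈ X, g * a * g⁻¹ ∈ Y)
    (hc : Nat.card Y ≤ Nat.card X) : ∀ b ∈ Y, g⁻¹ * b * g ∈ X := by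
  have := (show Function.Injective fun x : X => (⟨g * x * g⁻¹, h x x.2⟩ : Y) from fun a b e =>
    Subtype.ext (by simpa using e)).bijective_of_nat_card_le hc
  intro b hb
  obtain ⟨a, e⟩ := this.2 ⟨b, hb⟩
  have e' : g * a * g⁻¹ = b := congrArg Subtype.val e
  rw [← e']; simp [mul_assoc]

omit [Finite G] in
theorem mem_cj {X : Subgroup G} {g b : G} :
    b ∈ X.map (MulAut.conj g).toMonoidHom ↔ ∃ a ∈ X, g * a * g⁻¹ = b := Iff.rfl

omit [Finite G] in
theorem card_cj (X : Subgroup G) (g : G) :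
    Nat.card (X.map (MulAut.conj g).toMonoidHom) = Nat.card X :=
  card_map_of_injective (MulAut.conj g).injective

theorem exists_common {X P Q : Subgroup G} (hP : P ≤ X) (hQ : Q ≤ X) (p2 : IsPGroup 2 P)
    (q2 : IsPGroup 2 Q) : ∃ c ∈ X, ∃ R ≤ X, IsPGroup 2 R ∧ P ≤ R ∧ ∀ x ∈ Q, c * x * c⁻¹ ∈ R := by
  obtain ⟨S, hS⟩ := (p2.comap_of_injective _ X.subtype_injective).exists_le_sylow
  obtain ⟨c, hc⟩ := exists_conj_le_sylow S (q2.comap_of_injective _ X.subtype_injective)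
  exact ⟨c, c.2, (S : Subgroup X).map X.subtype, map_subtype_le _, S.isPGroup'.map _,
    fun x hx => ⟨⟨x, hP hx⟩, hS hx, rfl⟩, fun x hx => ⟨_, hc ⟨x, hQ hx⟩ hx, rfl⟩⟩

omit [Finite G] in
theorem AS_two : IsPGroup 2 (AS φ) := fun g => ⟨1, Subtype.ext (by
  show (g : G) ^ 2 = 1
  rw [pow_two, AS_sq g.2])⟩

theorem Loc.e64 (h : Loc φ) {g : G} (hg : ∀ a ∈ AS φ, g * a * g⁻¹ ∈ TS φ) :
    (∀ a ∈ AS φ, g * a * g⁻¹ ∈ AS φ) ∨ ∀ a ∈ AS φ, g * a * g⁻¹ ∈ AS (φ.comp τ) := by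
  have key : ∀ a ∈ AS φ, g * a * g⁻¹ ∈ AS φ ∨ g * a * g⁻¹ ∈ AS (φ.comp τ) := fun a ha => by
    obtain ⟨c, hc, h1, e⟩ := h.exT (hg a ha)
    have := allT_spec chkE64 h1
    simp only [bimp_iff, bor_eq, Bool.or_eq_true, blt_true_iff] at this
    rw [← e, h.memA hc, h.memB hc, or_iff_not_imp_left]
    intro k1
    by_contra k2
    have h2 := this ((h.sq1 hc).2 (by rw [e, conj_mul, AS_sq ha]; simp))
    rw [or_iff_right k1, or_iff_right k2, ← h.ncardT (S := {x | ∃ c', inT c' = true ∧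
      band (Hd.sq1 c') (Hd.cm c' c) = true ∧ E φ c' = x}) fun _ => Iff.rfl] at h2
    refine absurd (Set.ncard_le_ncard (s := (AS φ).map (MulAut.conj g).toMonoidHom) ?_
      (Set.toFinite _)) (not_le.2 (h2.trans_eq
        ((h.cardA.symm.trans (card_cj _ g).symm).trans (Nat.card_coe_set_eq _))))
    rintro _ ⟨b, hb, rfl⟩
    obtain ⟨d, hd, h3, e'⟩ := h.exT (hg b hb)
    refine ⟨d, h3, ?_, e'⟩
    rw [band_eq, Bool.and_eq_true, h.sq1 hd, h.cm hd hc, e, e', conj_mul, AS_sq hb]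
    exact ⟨by simp, conj_commute g (AS_comm hb ha)⟩
  by_contra hn
  push Not at hn
  obtain ⟨⟨a, ha, a1⟩, b, hb, b1⟩ := hn
  rcases key _ (mul_mem ha hb) with k | k <;> rw [← conj_mul] at k
  · exact a1 ((mul_mem_cancel_right ((key b hb).resolve_right b1)).1 k)
  · exact b1 ((mul_mem_cancel_left ((key a ha).resolve_left a1)).1 k)

theorem Loc.notAB (h : Loc φ) {g : G} : ¬ ∀ a ∈ AS φ, g * a * g⁻¹ ∈ AS (φ.comp τ) := fun hg => by
  have hs := conj_surj hg (by rw [h.cardA, h.tau.cardA])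
  obtain ⟨m, hm, e⟩ := (h.snT.mono (M' := NA (φ.comp τ)) (fun x hx => hx.2.2) le_top).conj
    (P := (TS φ).map (MulAut.conj g).toMonoidHom) (by
      rintro _ ⟨t, ht, rfl⟩
      refine nm_of fun b hb => ?_
      have := hg _ (nm_mem ht.2.1 (hs b hb))
      simpa [mul_assoc] using this) (h.T_two.map _)
  have h1 : m * g ∈ TS φ := h.snT.norm _ trivial fun x hx => by
    simpa [mul_assoc] using e _ ⟨x, hx, rfl⟩
  have h2 := nm_mem hm (hg _ (nm_mem (inv_mem h1.2.1) (A_mem (φ := φ) (k := 1) (by norm_num))))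
  rw [show m * (g * ((m * g)⁻¹ * A φ 1 * (m * g)⁻¹⁻¹) * g⁻¹) * m⁻¹ = A φ 1 by group, A,
    h.memB (va1 (by norm_num))] at h2
  exact absurd h2 (by decide +kernel)

theorem Loc.wc (h : Loc φ) {g : G} (hg : ∀ a ∈ AS φ, g * a * g⁻¹ ∈ TS φ) : g ∈ NA φ :=
  nm_of ((h.e64 hg).resolve_right h.notAB)

theorem Loc.ctrl0 (h : Loc φ) {X : Subgroup G} (hX : AS φ ≤ X) {g : G}
    (hg : ∀ a ∈ AS φ, g * a * g⁻¹ ∈ X) : ∃ c ∈ X, c * g ∈ NA φ := by
  obtain ⟨c, hc, R, -, r2, h1, h2⟩ := exists_common hX (Q := (AS φ).map (MulAut.conj g).toMonoidHom)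
    (by rintro _ ⟨a, ha, rfl⟩; exact hg a ha) AS_two (AS_two.map _)
  obtain ⟨m, -, e⟩ := h.snT.conj le_top r2
  refine ⟨c, hc, (mul_mem_cancel_left (h.wc fun a ha => e a (h1 ha))).1 (h.wc fun a ha => ?_)⟩
  simpa [mul_assoc] using e _ (h2 _ ⟨a, ha, rfl⟩)

theorem Loc.ctrl (h : Loc φ) {M : Subgroup G} (hM : AS φ ≤ M) {g x : G} (hg : g ∈ M)
    (hx : x ∈ AS φ) (hy : g * x * g⁻¹ ∈ AS φ) :
    ∃ n ∈ M, n ∈ NA φ ∧ n * x * n⁻¹ = g * x * g⁻¹ := by
  obtain ⟨c, hc, e⟩ := h.ctrl0 (X := M ⊓ centralizer {g * x * g⁻¹}) (g := g)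
    (fun a ha => ⟨hM ha, mem_centralizer_singleton_iff.2 (AS_comm ha hy)⟩) fun a ha =>
      ⟨M.mul_mem (M.mul_mem hg (hM ha)) (M.inv_mem hg),
        mem_centralizer_singleton_iff.2 (conj_commute g (AS_comm ha hx))⟩
  refine ⟨c * g, mul_mem hc.1 hg, e, ?_⟩
  rw [show c * g * x * (c * g)⁻¹ = c * (g * x * g⁻¹) * c⁻¹ by group,
    mem_centralizer_singleton_iff.1 hc.2, mul_inv_cancel_right]

theorem Loc.ctrlA (h : Loc φ) {k l : ℕ} (hk : k < 64) (hl : l < 64) (e : IsConj (A φ k) (A φ l)) :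
    ∃ n L, Acts φ n L ∧ ap6 L k = l := by
  obtain ⟨g, hg⟩ := isConj_iff.1 e
  obtain ⟨n, -, h1, h2⟩ := h.ctrl le_top (mem_top g) (A_mem hk) (hg ▸ A_mem hl)
  obtain ⟨L, hL⟩ := exists_acts h1
  exact ⟨n, L, hL, (h.A_eq (ap6_lt _ _) hl).1 (by rw [← hL.2 k hk, h2, hg])⟩

theorem vt : vH tc = true := by decide +kernel

theorem vy : vH yc = true := by decide +kernel

omit [Finite G] in
theorem t_eq : E φ tc = A φ 34 := by rw [A, show a1 34 = tc by decide +kernel]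

omit [Finite G] in
theorem t_tau : E (φ.comp τ) tc = E φ tc := by rw [E_tau vt, show tau tc = tc by decide +kernel]

omit [Finite G] in
theorem y_sq : E φ yc * E φ yc = 1 := by
  rw [← E_mul vy vy, show m5 yc yc = one5 by decide +kernel, E_one]

/-- the centraliser of the second involution -/
def CT (φ : H0 →* G) : Subgroup G := centralizer {E φ tc}

omit [Finite G] in
theorem mem_CT {g : G} : g ∈ CT φ ↔ Commute g (E φ tc) := mem_centralizer_singleton_iff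

omit [Finite G] in
theorem CT_tau : CT (φ.comp τ) = CT φ := by rw [CT, t_tau, CT]

omit [Finite G] in
theorem AS_le_CT : AS φ ≤ CT φ := fun _ ha =>
  mem_CT.2 (t_eq (φ := φ) ▸ AS_comm ha (A_mem (by norm_num)))

theorem sT1 {c : ℕ} (h1 : inT c = true) (h2 : cm c tc = true) :
    inB (cmt c (iv c) x13) = true ∧ inA (cmt c (iv c) x35) = true ∧
    (cm c yc = true → sqr c = one5 ∨ sqr c = zc) ∧
    (cm c tc' = true → (sq1 c = true → inA c = true ∨ inB c = true) ∧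
      (inW (sqr c) = true → sq1 c = true) ∧ inB (m5 (a1 (ex1 c &&& 9)) c) = true) ∧
    (cm c tc' = false → cm (m5 yc c) tc' = true) := by
  have := allT_spec chkT1 h1
  simp only [bimp_iff, bor_eq, band_eq, force_eq, bif'_eq, Bool.or_eq_true, Bool.and_eq_true,
    beq_true_iff] at this
  obtain ⟨a, b, c, d⟩ := this h2
  refine ⟨a, b, c, fun e => ?_, fun e => by simpa [e] using d⟩
  rw [if_pos e] at d
  simp only [bimp_iff, Bool.or_eq_true, Bool.and_eq_true] at d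
  exact d

theorem Loc.snT1 (h : Loc φ) : SN (TS φ ⊓ CT φ) (CT φ) := by
  refine ⟨inf_le_right, h.T_two.to_inf_left, fun g hg hn => ?_⟩
  have n1 : g ∈ NA φ := h.wc fun a ha => (hn a ⟨h.AS_le_T ha, AS_le_CT ha⟩).1
  have n2 : g ∈ NA (φ.comp τ) := h.tau.wc fun a ha => TS_tau (φ := φ) ▸
    (hn a ⟨TS_tau (φ := φ) ▸ h.tau.AS_le_T ha, CT_tau (φ := φ) ▸ AS_le_CT ha⟩).1
  obtain ⟨c, hc, h1, e⟩ := h.exT (nm_mem (inv_mem (nm_of hn)) (a := E φ yc)
    ⟨(h.memT vy).2 (by decide +kernel), mem_CT.2 (E_comm vy vt (by decide +kernel))⟩).1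
  obtain ⟨s1, s2, -⟩ := sT1 h1 ((h.cm hc vt).2 (by
    rw [e]
    simpa using ((mem_CT.1 hg).inv_left.mul_left
      (E_comm vy vt (by decide +kernel))).mul_left (mem_CT.1 hg)))
  have v1 : vH x13 = true := by decide +kernel
  have v2 : vH x35 = true := by decide +kernel
  obtain ⟨k, hk, ek⟩ := nm_mem n1 ((h.memA v1).2 (by decide +kernel))
  obtain ⟨l, hl, el⟩ := nm_mem n2 ((h.memB v2).2 (by decide +kernel))
  rw [A_tau hl] at el
  have yi : (E φ yc)⁻¹ = E φ yc := inv_eq_of_mul_eq_one_left y_sq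
  have := (allLt_iff _ _).1 chkUV k hk
  simp only [bimp_iff, allLt_iff, bor_eq, force_eq, Bool.or_eq_true, beq_true_iff] at this
  have h2 := this (by
    rw [← h.memB (vcmt hc (viv hc) v1), E_cmt hc (viv hc) v1, E_iv hc, e] at s1
    rw [← h.memB (vcmt vy vy (va1 hk)), E_cmt vy vy (va1 hk), ← A, ek]
    convert nm_mem n2 s1 using 1
    nth_rewrite 2 [← yi]; group) l hl (by
    rw [← h.memA (vcmt hc (viv hc) v2), E_cmt hc (viv hc) v2, E_iv hc, e] at s2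
    rw [← h.memA (vcmt vy vy (va2 hl)), E_cmt vy vy (va2 hl), el]
    convert nm_mem n1 s2 using 1
    nth_rewrite 2 [← yi]; group)
  have v := vcmt (va1 hk) (va1 hk) (va2 hl)
  have e3 : E φ (cmt (a1 k) (a1 k) (a2 l)) = g * E φ zc * g⁻¹ := by
    rw [E_cmt (va1 hk) (va1 hk) (va2 hl), ← A, ek, el, ← show cmt x13 x13 x35 = zc by decide +kernel,
      E_cmt v1 v1 v2]
    group
  rw [← h.eq v vone, ← h.eq v vz, e3, E_one] at h2
  obtain ⟨d, hd, rfl⟩ := h.ex (mul_inv_eq_iff_eq_mul.1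
    (h2.resolve_left fun k => h.z_ne (by simpa using k)))
  exact ⟨(h.memT hd).2 (h.inT_of hd (mem_CT.1 hg)), hg⟩

theorem Loc.cardT0 (h : Loc φ) : Nat.card (TS φ) = 1024 :=
  (h.cardT le_rfl fun _ h1 h2 => by simp [h.memT h1, h2]).trans cntT0

theorem Loc.cardT1 (h : Loc φ) : Nat.card (TS φ ⊓ CT φ : Subgroup G) = 512 :=
  (h.cardT inf_le_left fun c h1 h2 => by
    rw [mem_inf, h.memT h1, mem_CT, ← h.cm h1 vt]; simp [h2]).trans cntT1

theorem Loc.zt (h : Loc φ) : ¬ IsConj (E φ zc) (E φ tc) := fun e => by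
  obtain ⟨g, hg⟩ := isConj_iff.1 e
  have := h.snT1.card_le (P := (TS φ).map (MulAut.conj g).toMonoidHom) (by
    rintro _ ⟨a, ha, rfl⟩
    exact mem_CT.2 (hg ▸ conj_commute g (comm_z ha.1))) (h.T_two.map _)
  rw [card_cj, h.cardT0, h.cardT1] at this
  omega

/-- the conjugates of the central involution -/
def Om (φ : H0 →* G) (O : ℕ) : Prop := ∀ k, k < 64 → (tb O k = true ↔ IsConj (E φ zc) (A φ k))

omit [Finite G] in
theorem Om.inv {O L : ℕ} {n : G} (ho : Om φ O) (h1 : Acts φ n L) {k : ℕ} (hk : k < 64) :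
    tb O (ap6 L k) = tb O k := by
  rw [Bool.eq_iff_iff, ho k hk, ho _ (ap6_lt _ _), ← h1.2 k hk]
  exact ⟨fun e => by simpa [mul_assoc] using isConj_conj n⁻¹ e, isConj_conj n⟩

omit [Finite G] in
theorem Acts.sum (h : Loc φ) {L : ℕ} {n : G} (h1 : Acts φ n L) (f : ℕ → ℕ) :
    sumLt 64 f = sumLt 64 fun k => f (ap6 L k) := by
  rw [sumLt_eq, sumLt_eq]
  have hi : Set.InjOn (ap6 L) (Finset.range 64 : Finset ℕ) := fun a ha b hb e =>
    h1.inj h (by simpa using ha) (by simpa using hb) e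
  rw [← Finset.sum_image hi, Finset.eq_of_subset_of_card_le (s := Finset.image _ _)
    (t := Finset.range 64) (fun x hx => by
      obtain ⟨a, -, rfl⟩ := Finset.mem_image.1 hx
      exact Finset.mem_range.2 (ap6_lt _ _)) (Finset.card_image_of_injOn hi).ge]

theorem sumLt_congr {f g : ℕ → ℕ} (h : ∀ k, k < 64 → f k = g k) : sumLt 64 f = sumLt 64 g := by
  rw [sumLt_eq, sumLt_eq]; exact Finset.sum_congr rfl fun k hk => h k (Finset.mem_range.1 hk)

omit [Finite G] in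
theorem Om.bit {O L : ℕ} {n : G} (ho : Om φ O) (h1 : Acts φ n L) {k : ℕ} (hk : k < 64) :
    bit O (ap6 L k) = bit O k := by
  have := ho.inv h1 hk
  rw [tb_eq, tb_eq] at this
  rw [bit_eq, bit_eq, this]

theorem xor_def (a b : ℕ) : Nat.xor a b = a ^^^ b := rfl

omit [Finite G] in
theorem Om.g3 (h : Loc φ) {O L : ℕ} {n : G} (ho : Om φ O) (h1 : Acts φ n L) {k : ℕ} (hk : k < 64) :
    g3 O (ap6 L k) = g3 O k := by
  simp only [Hd.g3, force_eq, xor_def]
  rw [h1.sum h]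
  refine sumLt_congr fun y hy => ?_
  rw [ho.inv h1 hy, h1.sum h]
  congr 1
  refine sumLt_congr fun v hv => ?_
  rw [← ap6_xor, ← ap6_xor, ho.bit h1 hv, ho.bit h1 (xor_lt (xor_lt hk hy) hv)]

omit [Finite G] in
theorem Om.h3 (h : Loc φ) {O L : ℕ} {n : G} (ho : Om φ O) (h1 : Acts φ n L) (e : ap6 L 34 = 34)
    {k : ℕ} (hk : k < 64) : h3 O (ap6 L k) = h3 O k := by
  simp only [Hd.h3, force_eq, xor_def]
  rw [h1.sum h]
  refine sumLt_congr fun y hy => ?_
  nth_rewrite 1 [← e]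
  rw [← ap6_xor, ← ap6_xor, ho.bit h1 hy, ho.bit h1 (xor_lt hk hy),
    ho.bit h1 (xor_lt (by norm_num) hy)]

theorem vrep : ∀ i, i < 8 → vH (rep i) = true := by decide +kernel

omit [Finite G] in
theorem E_conj {h c d : ℕ} (h1 : vH h = true) (h2 : vH c = true) (h3 : vH d = true)
    (e : m5 h c = m5 d h) : E φ h * E φ c * (E φ h)⁻¹ = E φ d := by
  rw [← E_mul h1 h2, e, E_mul h3 h1, mul_inv_cancel_right]

/-- the fusion pattern -/
def Pz (φ : H0 →* G) (i : ℕ) : Prop := IsConj (E φ zc) (E φ (rep i))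

theorem Loc.p6 (h : Loc φ) : ¬ Pz φ 6 := by
  rw [Pz, show rep 6 = tc by decide +kernel]; exact h.zt

theorem Loc.exJ (h : Loc φ) : ∃ J, (∀ i, i < 6 → (tb J i = true ↔ Pz φ i)) ∧ Om φ (omask J) ∧
    J ∈ [1, 3, 5, 15, 47] := by
  classical
  obtain ⟨J, hJ, e⟩ : ∃ J, J < 64 ∧ ∀ i, i < 6 → (tb J i = true ↔ Pz φ i) :=
    ⟨Nat.ofBits fun i : Fin 6 => decide (Pz φ i), Nat.ofBits_lt_two_pow _, fun i hi => by
      rw [tb_eq, Nat.testBit_ofBits_lt _ _ hi, decide_eq_true_iff]⟩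
  have ho : Om φ (omask J) := fun k hk => by
    have := (allLt_iff _ _).1 chkOm J hJ
    simp only [force_eq, allLt_iff] at this
    have h1 : tb (omask J) k = true ↔ k ≠ 0 ∧ tb J (cl1 k) = true := by
      have := this k hk
      revert this
      rw [ne_eq, ← beq_true_iff k 0]
      generalize tb (omask J) k = a; generalize Nat.beq k 0 = b; generalize tb J (cl1 k) = c
      revert a b c; decide
    rw [h1]
    obtain ⟨-, -, -, -, -, -, -, s1, s2, -, rfl | ⟨s3, s4⟩⟩ := sA1 hk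
    · simpa [A_zero] using h.z_ne
    have s5 : IsConj (A φ k) (E φ (rep (cl1 k))) :=
      isConj_iff.2 ⟨_, E_conj s1 (va1 hk) (vrep _ s2) s4⟩
    have s6 : k ≠ 0 := by rintro rfl; exact absurd s3 (by decide +kernel)
    rw [and_iff_right s6, show IsConj (E φ zc) (A φ k) ↔ Pz φ (cl1 k) from
      ⟨fun e => e.trans s5, fun e => e.trans s5.symm⟩]
    rcases Nat.lt_succ_iff_lt_or_eq.1 s3 with s7 | s7
    · exact e _ s7
    · rw [s7, tb_eq, Nat.testBit_eq_false_of_lt hJ]; simpa using h.p6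
  refine ⟨J, e, ho, ?_⟩
  have := (allLt_iff _ _).1 chkG3 J hJ
  simp only [bimp_iff, force_eq, allL_iff, beq_true_iff, meL_iff] at this
  refine this ((e 0 (by norm_num)).2 (by rw [Pz, show rep 0 = zc by decide +kernel])) fun k hk ht => ?_
  have hk' : k < 64 := by simp at hk; omega
  obtain ⟨n, L, h1, rfl⟩ := h.ctrlA (k := 4) (by norm_num) hk' (A_four (φ := φ) ▸ (ho k hk').1 ht)
  exact ho.g3 h h1 (by norm_num)

theorem Loc.pat (h : Loc φ) : (Pz φ 3 ↔ Pz φ 1 ∧ Pz φ 2) ∧ ¬ Pz φ 4 ∧ (Pz φ 5 → Pz φ 3) ∧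
    (Pz φ 3 → Om φ o21 ∨ Om φ o45) := by
  obtain ⟨J, e, ho, hJ⟩ := h.exJ
  rw [← e 1 (by norm_num), ← e 2 (by norm_num), ← e 3 (by norm_num), ← e 4 (by norm_num),
    ← e 5 (by norm_num)]
  simp only [List.mem_cons, List.not_mem_nil, or_false] at hJ
  rcases hJ with rfl | rfl | rfl | rfl | rfl
  exacts [⟨by decide, by decide, by decide, fun k => absurd k (by decide)⟩,
    ⟨by decide, by decide, by decide, fun k => absurd k (by decide)⟩,
    ⟨by decide, by decide, by decide, fun k => absurd k (by decide)⟩,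
    ⟨by decide, by decide, by decide, fun _ => .inl ((by decide +kernel : omask 15 = o21) ▸ ho)⟩,
    ⟨by decide, by decide, by decide, fun _ => .inr ((by decide +kernel : omask 47 = o45) ▸ ho)⟩]

omit [Finite G] in
theorem Pz_tau {i j : ℕ} (hi : i < 8) (e : tau (rep i) = rep j) : Pz (φ.comp τ) i ↔ Pz φ j := by
  rw [Pz, Pz, z_tau, E_tau (vrep i hi), e]

omit [Finite G] in
theorem Loc.cls (h : Loc φ) {c : ℕ} (hc : vH c = true) (h1 : E φ c * E φ c = 1) (h2 : E φ c ≠ 1) :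
    ∃ g ∈ φ.range, ∃ i, i < 8 ∧ g * E φ c * g⁻¹ = E φ (rep i) ∧
      (inR c = true ↔ i = 0 ∨ i = 2) := by
  have := allH_spec chkCls hc
  simp only [bimp_iff, bor_eq, band_eq, force_eq, anyL_iff, Bool.or_eq_true, Bool.and_eq_true,
    beq_true_iff, blt_true_iff] at this
  rcases this ((h.sq1 hc).2 h1) with rfl | ⟨e, -, -, a, b, d, f⟩
  · exact absurd E_one h2
  refine ⟨_, E_mem _, _, b, E_conj a hc (vrep _ b) d, ?_⟩
  revert f
  rw [← beq_true_iff _ 0, ← beq_true_iff _ 2]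
  generalize inR c = a; generalize Nat.beq _ 0 = b; generalize Nat.beq _ 2 = c
  revert a b c; decide

theorem rep_zero : rep 0 = zc := by decide +kernel

theorem Loc.not_b [IsSimpleGroup G] (h : Loc φ) (h1 : ¬ Pz φ 1) : ¬ Pz φ 2 := fun h2 => by
  obtain ⟨p1, p2, p3, -⟩ := h.pat
  have p4 := h.tau.pat.2.2.1
  rw [Pz_tau (j := 7) (by norm_num) (by decide +kernel),
    Pz_tau (j := 3) (by norm_num) (by decide +kernel)] at p4
  have n3 : ¬ Pz φ 3 := fun k => h1 (p1.1 k).1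
  have k1 : ∀ c, vH c = true → E φ c * E φ c = 1 → E φ c ≠ 1 →
      (inR c = true ↔ IsConj (E φ zc) (E φ c)) := fun c hc a b => by
    obtain ⟨g, -, i, hi, e, f⟩ := h.cls hc a b
    have : IsConj (E φ zc) (E φ c) ↔ Pz φ i := by
      rw [Pz, ← e]; exact ⟨isConj_conj g, fun e => by simpa [mul_assoc] using isConj_conj g⁻¹ e⟩
    rw [f, this]
    have p0 : Pz φ 0 := by rw [Pz, rep_zero]
    have := h.p6
    interval_cases i <;> simp [*] <;> tauto
  have k2 : ∀ u, IsConj (E φ zc) u → Commute (E φ zc) u →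
      ∃ i, i < 16 ∧ vH (Nat.lor one5 (Nat.shiftLeft i 24)) = true ∧
        E φ (Nat.lor one5 (Nat.shiftLeft i 24)) = u := fun u a b => by
    obtain ⟨c, hc, rfl⟩ := h.ex b.symm
    have := allH_spec chkR' hc
    simp only [bimp_iff, anyLt_iff, beq_true_iff] at this
    obtain ⟨i, hi, rfl⟩ := this ((k1 c hc (mul_self_of_isConj z_sq a) fun e =>
      h.z_ne (isConj_one_right.1 (e ▸ a).symm)).2 a)
    exact ⟨i, hi, hc, rfl⟩
  have k3 := fun i hi j hj => (allLt_iff _ _).1 ((allLt_iff _ _).1 chkR i hi) j hj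
  simp only [bimp_iff, bor_eq, band_eq, force_eq, Bool.or_eq_true, Bool.and_eq_true,
    beq_true_iff] at k3
  have k4 : ∀ c, band (vH c) (band (Hd.sq1 c) (band (inR c) (band (bnot (Nat.beq c one5))
      (bnot (Nat.beq c zc))))) = true →
      IsConj (E φ zc) (E φ c) ∧ Commute (E φ zc) (E φ c) ∧ E φ c ≠ E φ zc := fun c hc => by
    simp only [band_eq, bnot_eq, Bool.and_eq_true, Bool.not_eq_true', ← Bool.not_eq_true,
      beq_true_iff] at hc
    exact ⟨(k1 c hc.1 ((h.sq1 hc.1).1 hc.2.1) (h.ne_one hc.1 hc.2.2.2.1)).1 hc.2.2.1,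
      (comm_z (E_mem c)).symm, fun e => hc.2.2.2.2 ((h.eq hc.1 vz).1 e)⟩
  have v1 : vH x14 = true := by decide +kernel
  have ui : (E φ x14)⁻¹ = E φ x14 := by rw [← E_iv v1, show iv x14 = x14 by decide +kernel]
  have hb : Blk (E φ zc) := by
    refine ⟨z_sq, h.z_ne, fun u v a b c d => ?_, ?_⟩
    · obtain ⟨i, hi, vi, rfl⟩ := k2 u a c
      obtain ⟨j, hj, vj, rfl⟩ := k2 v b d
      obtain ⟨l1, l2, l3, l4, -⟩ := k3 i hi j hj
      refine ⟨E_comm vi vj l1, or_iff_not_imp_left.2 fun ne => ?_⟩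
      rw [← E_mul vi vj]
      exact (k1 _ (vmul vi vj) ((h.sq1 (vmul vi vj)).1 l3)
        (h.ne_one (vmul vi vj) fun e => ne (by rw [l4 e]))).1 l2
    · obtain ⟨a1, a2, a3⟩ := k4 x25 (by decide +kernel)
      obtain ⟨b1, b2, b3⟩ := k4 x35 (by decide +kernel)
      obtain ⟨c1, -, c3⟩ := k4 (m5 x25 x35) (by decide +kernel)
      rw [E_mul (by decide +kernel) (by decide +kernel)] at c1 c3
      exact ⟨_, _, a1, b1, c1, a2, b2, a3, b3, c3⟩
  have ht : Tv (E φ zc) (E φ x14) (E φ zc) := by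
    refine ⟨mul_eq_one_iff_inv_eq.2 ui, fun r a b => ?_, _, (k4 x45 (by decide +kernel)).1,
      (k4 x45 (by decide +kernel)).2.1, ?_⟩
    · obtain ⟨i, hi, vi, rfl⟩ := k2 r a b
      rw [ui, ← E_cj' v1 v1 vi, ← E_mul vi vz]
      exact (k3 i hi i hi).2.2.2.2.imp (congrArg _) (congrArg _)
    · rw [ui, ← E_cj' v1 v1 (by decide +kernel), ← E_mul (by decide +kernel) vz]
      exact congrArg _ (by decide +kernel)
  have ha := fun w => hb.all ht (by rwa [Pz, show rep 1 = x14 by decide +kernel] at h1) (w := w)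
  have hn : (centralizer {w | IsConj (E φ zc) w}).Normal := ⟨fun n hn g w hw => by
    have := conj_commute g (show Commute _ _ from hn _ (isConj_conj g⁻¹ hw))
    simpa [mul_assoc] using this.eq⟩
  rcases hn.eq_bot_or_eq_top with e | e
  · exact h.z_ne (mem_bot.1 (e ▸ fun w hw => (ha w hw).symm.eq))
  · obtain ⟨g, hg⟩ := isConj_iff.1 (k4 x25 (by decide +kernel)).1
    have : g ∈ centralizer {w | IsConj (E φ zc) w} := e ▸ mem_top g
    exact (k4 x25 (by decide +kernel)).2.2 (by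
      rw [← hg, ← this _ (IsConj.refl _), mul_inv_cancel_right])

theorem Loc.fus [IsSimpleGroup G] (h : Loc φ) : Pz φ 1 ∧ Pz φ 2 ∧ (Om φ o21 ∨ Om φ o45) := by
  obtain ⟨p1, p2, p3, p5⟩ := h.pat
  have t1 : Pz (φ.comp τ) 1 ↔ Pz φ 2 := Pz_tau (by norm_num) (by decide +kernel)
  have t2 : Pz (φ.comp τ) 2 ↔ Pz φ 1 := Pz_tau (by norm_num) (by decide +kernel)
  suffices Pz φ 1 ∧ Pz φ 2 from ⟨this.1, this.2, p5 (p1.2 this)⟩
  by_contra hn
  have n1 : ¬ Pz φ 1 := fun k => h.tau.not_b (fun l => hn ⟨k, t1.1 l⟩) (t2.2 k)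
  have n2 := h.not_b n1
  have p4 := h.tau.pat.2.2.1
  rw [Pz_tau (j := 7) (by norm_num) (by decide +kernel),
    Pz_tau (j := 3) (by norm_num) (by decide +kernel)] at p4
  obtain ⟨g, g1, g2⟩ := J3.exists_fused (t := E φ zc) (orderOf_eq_two_iff.2 ⟨z_sq, h.z_ne⟩) (by
    refine lt_of_lt_of_le ?_ (card_le_of_le (show TS φ ≤ _ from fun x hx =>
      mem_centralizer_singleton_iff.2 (comm_z hx.1)))
    rw [h.cardT0]; norm_num)
  obtain ⟨c, hc, e⟩ := h.ex g2
  have e1 : IsConj (E φ zc) (E φ c) := e ▸ isConj_iff.2 ⟨g⁻¹, by rw [inv_inv]⟩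
  obtain ⟨k, hk, i, hi, e2, -⟩ := h.cls hc (mul_self_of_isConj z_sq e1) fun e =>
    h.z_ne (isConj_one_right.1 (e ▸ e1).symm)
  have e3 : Pz φ i := by rw [Pz, ← e2]; exact isConj_conj k e1
  have := h.p6
  interval_cases i
  · rw [rep_zero, mul_inv_eq_iff_eq_mul, ← (comm_z hk).eq, mul_right_inj] at e2
    exact g1 (e ▸ e2)
  exacts [n1 e3, n2 e3, n1 (p1.1 e3).1, p2 e3, n1 (p1.1 (p3 e3)).1, this e3, n1 (p1.1 (p4 e3)).1]

end

end CfsgH9.Hd
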