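/-
The normalisers of the groups of order 64.
-/
import Cfsg.Agent.H9.HdD
import Cfsg.Agent.H9.HdG

set_option autoImplicit false
set_option maxRecDepth 100000
set_option linter.style.haveILetI false

namespace CfsgH9.Hd

open CfsgH5 CfsgH6 CfsgH4 CfsgH5.KT Subgroup

noncomputable section

variable {G : Type*} [Group G] {φ : H0 →* G}

theorem v25 : vH x25 = true := by decide +kernel

theorem b_eq : E φ x25 = A φ 32 := by rw [A, show a1 32 = x25 by decide +kernel]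

theorem Loc.exists_g [Finite G] (h : Loc φ) (h2 : Pz φ 2) : ∃ g L, Acts φ g L ∧ ap6 L 32 = 32 ∧
    ap6 L 4 ≠ 4 ∧ ∀ c, vH c = true → Hd.cm c x25 = true →
      ∃ d, mu d ∈ slist ∧ cmp L (mu c) = cmp (mu d) L := by
  rw [Pz, show rep 2 = x25 by decide +kernel, b_eq, ← A_four] at h2
  obtain ⟨n, L, h1, e⟩ := h.ctrlA (by norm_num) (by norm_num) h2
  have e1 := h1.2 4 (by norm_num)
  rw [e, A_four] at e1
  set X := NA φ ⊓ centralizer {A φ 32} with hX
  set D := φ.range ⊓ centralizer {A φ 32} with hD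
  have hP : ∀ c, vH c = true → Hd.cm c x25 = true → inP c = true := fun c hc k => by
    by_contra k'
    simp [(not_inP hc (by simpa using k')).1] at k
  have mD : ∀ c, vH c = true → (E φ c ∈ D ↔ Hd.cm c x25 = true) := fun c hc => by
    rw [hD, mem_inf, mem_centralizer_singleton_iff, h.cm hc v25, b_eq]
    exact and_iff_right (E_mem c)
  have DX : D ≤ X := fun x hx => by
    obtain ⟨c, hc, rfl⟩ := ex_E hx.1
    exact ⟨(h.memN hc).2 (hP c hc ((mD c hc).1 hx)), hx.2⟩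
  have c1 : Nat.card D = 1536 := (h.cardH inf_le_left mD).trans cntD
  have c2 : Nat.card (φ.range ⊓ NA φ : Subgroup G) = 3072 :=
    (h.cardH inf_le_left fun c hc => by
      rw [mem_inf, h.memN hc]; exact and_iff_right (E_mem c)).trans cntP
  have c3 : Nat.card X = 3072 := by
    rw [← c2]
    refine le_antisymm (card_le_of_conj (m := n⁻¹) fun x hx => ⟨h.cen _ ?_,
      (NA φ).mul_mem ((NA φ).mul_mem ((NA φ).inv_mem h1.mem) hx.1)
        ((NA φ).inv_mem ((NA φ).inv_mem h1.mem))⟩)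
      (card_le_of_conj (m := n) fun x hx => ⟨(NA φ).mul_mem ((NA φ).mul_mem h1.mem hx.2)
        ((NA φ).inv_mem h1.mem),
        mem_centralizer_singleton_iff.2 (e1 ▸ conj_commute n (comm_z hx.1))⟩)
    have := conj_commute n⁻¹ (show Commute x _ from mem_centralizer_singleton_iff.1 hx.2)
    rw [← e1] at this
    simpa [mul_assoc] using this
  have c4 : (D.subgroupOf X).index = 2 := by
    have := (D.subgroupOf X).index_mul_card
    rw [Nat.card_congr (subgroupOfEquivOfLe DX).toEquiv, c1, c3] at this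
    omega
  obtain ⟨g, hg⟩ : ∃ g : X, g ∉ D.subgroupOf X := by
    by_contra k
    push Not at k
    rw [(eq_top_iff' _).2 k, index_top] at c4
    omega
  obtain ⟨M, hM⟩ := exists_acts g.2.1
  have g2 : Commute (g : G) (A φ 32) := mem_centralizer_singleton_iff.1 g.2.2
  refine ⟨g, M, hM, (h.A_eq (ap6_lt _ _) (by norm_num)).1 (by
    rw [← hM.2 32 (by norm_num), g2.eq, mul_inv_cancel_right]), fun k => ?_, fun c hc k => ?_⟩
  · exact hg ⟨h.cen _ (A_four (φ := φ) ▸ hM.comm (by norm_num) k), g.2.2⟩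
  · have k1 : (g : G) * E φ c * (g : G)⁻¹ ∈ D :=
      (normal_of_index_eq_two c4).conj_mem ⟨_, DX ((mD c hc).2 k)⟩ ((mD c hc).2 k) g
    obtain ⟨d, hd, e⟩ := ex_E k1.1
    have k2 := (mD d hd).1 (e ▸ k1)
    obtain ⟨a, -, b⟩ := acts_mu (φ := φ) hd (hP d hd k2)
    refine ⟨d, b k2, (hM.mul (acts_mu hc (hP c hc k)).1).uniq h ?_⟩
    rw [show (g : G) * E φ c = E φ d * g by rw [e]; group]
    exact a.mul hM

theorem ap6_1 (L : ℕ) : ap6 L 1 = dg L 0 := ap6_pow L (i := 0) (by norm_num)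
theorem ap6_2 (L : ℕ) : ap6 L 2 = dg L 1 := ap6_pow L (i := 1) (by norm_num)
theorem ap6_4 (L : ℕ) : ap6 L 4 = dg L 2 := ap6_pow L (i := 2) (by norm_num)
theorem ap6_8 (L : ℕ) : ap6 L 8 = dg L 3 := ap6_pow L (i := 3) (by norm_num)
theorem ap6_16 (L : ℕ) : ap6 L 16 = dg L 4 := ap6_pow L (i := 4) (by norm_num)
theorem ap6_32 (L : ℕ) : ap6 L 32 = dg L 5 := ap6_pow L (i := 5) (by norm_num)

theorem Loc.exists_rho [Finite G] (h : Loc φ) (h2 : Pz φ 2) : ∃ ρ, Acts φ ρ rr ∧ ρ ^ 3 = 1 := by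
  obtain ⟨g, L, h1, e1, e2, e3⟩ := h.exists_g h2
  obtain ⟨s, s1, s2⟩ := e3 w3 (by decide +kernel) (by decide +kernel)
  obtain ⟨t, t1, t2⟩ := e3 (m5 x34 x45) (by decide +kernel) (by decide +kernel)
  rw [show mu w3 = mw by decide +kernel] at s2
  rw [show mu (m5 x34 x45) = mu4 by decide +kernel] at t2
  generalize mu s = s at s1 s2
  generalize mu t = t at t1 t2
  have ks : ∀ k, k < 64 → ap6 L (ap6 mw k) = ap6 s (ap6 L k) := fun k hk => by
    rw [← (cmp_spec _ _).2 k hk, s2, (cmp_spec _ _).2 k hk]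
  have kt : ∀ k, k < 64 → ap6 L (ap6 mu4 k) = ap6 t (ap6 L k) := fun k hk => by
    rw [← (cmp_spec _ _).2 k hk, t2, (cmp_spec _ _).2 k hk]
  have a1 := ks 1 (by norm_num)
  have a4 := ks 8 (by norm_num)
  have a2 := kt 2 (by norm_num)
  have a5 := kt 16 (by norm_num)
  rw [show ap6 mw 1 = 2 by decide +kernel, ap6_1, ap6_2] at a1
  rw [show ap6 mw 8 = 16 by decide +kernel, ap6_8, ap6_16] at a4
  rw [show ap6 mu4 2 = 4 ^^^ 2 by decide +kernel, ap6_xor, ap6_2, ap6_4] at a2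
  rw [show ap6 mu4 16 = 32 ^^^ 16 by decide +kernel, ap6_xor, ap6_16, ap6_32] at a5
  rw [ap6_32] at e1
  rw [ap6_4] at e2
  have := (allL_iff _ _).1 ((allL_iff _ _).1 chkL s s1) t t1
  simp only [allLt_iff, force_eq, bimp_iff, bor_eq, band_eq, bnot_eq, Bool.or_eq_true,
    Bool.and_eq_true, beq_true_iff, anyL_iff, xor_def] at this
  have := this _ (dg_lt L 3) (by rw [← a4, ← a5, Nat.xor_xor_cancel_right, e1]) _ (dg_lt L 0)
  rw [← a4, ← a1, ← a2, Nat.xor_xor_cancel_right, ← e1, pk_dg h1.1] at this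
  obtain ⟨c, -, c1, c2, c3⟩ := this.resolve_left e2 ⟨s2, t2, fun k hk => by
    rw [or_iff_not_imp_left, Bool.not_eq_true', ← Bool.not_eq_true, beq_true_iff]
    exact fun k0 k1 => k0 (h1.inj h hk (by norm_num) (k1.trans (ap6_zero L).symm))⟩
  have r1 := (acts_mu (φ := φ) c2 c3).1.mul h1
  rw [c1] at r1
  generalize E φ c * g = r at r1
  have r2 := (r1.mul r1).mul r1
  rw [show cmp (cmp rr rr) rr = id6 by decide +kernel] at r2
  have r3 := r2.mul r1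
  rw [show cmp id6 rr = rr by decide +kernel] at r3
  refine ⟨_, r3, ?_⟩
  have := AS_sq (r2.cen h)
  rw [show (r * r * r * r) ^ 3 = (r * r * r * (r * r * r)) ^ 2 by simp [pow_succ, mul_assoc], this,
    one_pow]

/-- the normaliser of a group of order three -/
def Nr (ρ : G) : Subgroup G where
  carrier := {l | l * ρ * l⁻¹ = ρ ∨ l * ρ * l⁻¹ = ρ⁻¹}
  one_mem' := .inl (by simp)
  mul_mem' := by
    intro a b ha hb
    show _ ∨ _
    rw [show a * b * ρ * (a * b)⁻¹ = a * (b * ρ * b⁻¹) * a⁻¹ by group]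
    rcases hb with e | e <;> rw [e]
    · exact ha
    · rw [← conj_inv]; rcases ha with f | f <;> simp [f]
  inv_mem' := by
    intro a ha
    rcases ha with e | e
    · left; nth_rewrite 1 [← e]; group
    · right
      have : a * ρ⁻¹ * a⁻¹ = ρ := by rw [← conj_inv, e, inv_inv]
      nth_rewrite 1 [← this]; group

theorem Acts.same [Finite G] (h : Loc φ) {a b : G} {L : ℕ} (h1 : Acts φ a L) (h2 : Acts φ b L) :
    ∃ k, k < 64 ∧ a = A φ k * b := by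
  obtain ⟨k, hk, e⟩ := nm_mem h2.mem (h.cenA (n := b⁻¹ * a) fun k hk => by
    have := (h1.2 k hk).trans (h2.2 k hk).symm
    rw [Commute, SemiconjBy, show b⁻¹ * a * A φ k = b⁻¹ * (a * A φ k * a⁻¹) * a by group, this]
    group)
  exact ⟨k, hk, by rw [e]; group⟩

theorem Acts.mul_A {a : G} {L k : ℕ} (h1 : Acts φ a L) (hk : k < 64) :
    a * A φ k = A φ (ap6 L k) * a := by rw [← h1.2 k hk]; group

theorem Loc.nr (h : Loc φ) {ρ : G} (h1 : Acts φ ρ rr) (h3 : ρ ^ 3 = 1) {l : G} (hl : l ∈ Nr ρ)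
    (ha : l ∈ AS φ) : l = 1 := by
  obtain ⟨k, hk, rfl⟩ := ha
  have e : A φ k * ρ * (A φ k)⁻¹ = A φ (k ^^^ ap6 rr k) * ρ := by
    rw [A_inv hk, mul_assoc, h1.mul_A hk, ← mul_assoc, A_mul hk (ap6_lt _ _)]
  have hk' := xor_lt hk (ap6_lt rr k)
  rcases hl with f | f <;> rw [e] at f
  · rw [(by decide +kernel : ∀ k, k < 64 → k ^^^ ap6 rr k = 0 → k = 0) k hk
      ((h.A_eq hk' (by norm_num)).1 (by rw [A_zero]; simpa using f)), A_zero]
  · have : A φ (k ^^^ ap6 rr k) = ρ := by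
      rw [eq_mul_inv_of_mul_eq f, ← mul_inv_rev, inv_eq_iff_mul_eq_one, ← h3]
      simp [pow_succ]
    exact absurd (h1.uniq h (this ▸ acts_of_mem (A_mem hk'))) (by decide)

theorem Loc.hat [Finite G] (h : Loc φ) {ρ σ n : G} {r s L : ℕ} (h1 : Acts φ ρ r) (h2 : Acts φ σ s)
    (h3 : Acts φ n L) (e : cmp L r = cmp s L)
    (hs : ∀ k, k < 64 → ∃ j, j < 64 ∧ j ^^^ k ^^^ ap6 s j = 0) :
    ∃ j, j < 64 ∧ A φ j * n * ρ * (A φ j * n)⁻¹ = σ := by
  obtain ⟨k, hk, f⟩ := (h3.mul h1).same h (e ▸ h2.mul h3)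
  obtain ⟨j, hj, f'⟩ := hs k hk
  refine ⟨j, hj, ?_⟩
  rw [mul_assoc _ n, f, show A φ j * (A φ k * (σ * n)) * (A φ j * n)⁻¹ =
    A φ j * A φ k * (σ * (A φ j)⁻¹) by group, A_inv hj, h2.mul_A hj, ← mul_assoc, A_mul hj hk,
    A_mul (xor_lt hj hk) (ap6_lt _ _), f', A_zero, one_mul]

theorem Acts.inv3 {ρ : G} (h1 : Acts φ ρ rr) (h3 : ρ ^ 3 = 1) : Acts φ ρ⁻¹ rr2 := by
  rw [show ρ⁻¹ = ρ * ρ from inv_eq_of_mul_eq_one_left (by rw [← h3]; simp [pow_succ]),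
    ← show cmp rr rr = rr2 by decide +kernel]
  exact h1.mul h1

/-- the extension of the normaliser -/
structure Side (φ : H0 →* G) (ρ : G) (c : ℕ) : Prop where
  act : Acts φ ρ rr
  cube : ρ ^ 3 = 1
  lt : c < 4
  inv : E φ x12 * ρ * (E φ x12)⁻¹ = ρ⁻¹
  cen : ∀ i, i < 3 → E φ (kx c i) * ρ * (E φ (kx c i))⁻¹ = ρ

theorem Loc.side [Finite G] (h : Loc φ) (h2 : Pz φ 2) : ∃ ρ c, Side φ ρ c := by
  obtain ⟨ρ, h1, h3⟩ := h.exists_rho h2
  have v1 : vH x12 = true := by decide +kernel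
  have v2 : vH x34 = true := by decide +kernel
  have v3 : vH x45 = true := by decide +kernel
  have v4 : vH w3 = true := by decide +kernel
  have hs : ∀ k, k < 64 → ∃ j, j < 64 ∧ j ^^^ k ^^^ ap6 rr j = 0 := by decide +kernel
  obtain ⟨j1, l1, e1⟩ := h.hat h1 (h1.inv3 h3) (acts_mu v1 (by decide +kernel)).1
    (by decide +kernel) (by decide +kernel)
  obtain ⟨j2, l2, e2⟩ := h.hat h1 h1 (acts_mu v2 (by decide +kernel)).1 (by decide +kernel) hs
  obtain ⟨j3, l3, e3⟩ := h.hat h1 h1 (acts_mu v3 (by decide +kernel)).1 (by decide +kernel) hs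
  obtain ⟨j4, l4, e4⟩ := h.hat h1 h1 (acts_mu v4 (by decide +kernel)).1 (by decide +kernel) hs
  rw [A, ← E_mul (va1 l1) v1] at e1
  rw [A, ← E_mul (va1 l2) v2] at e2
  rw [A, ← E_mul (va1 l3) v3] at e3
  rw [A, ← E_mul (va1 l4) v4] at e4
  have := chkCoc
  simp only [allLt_iff, force_eq, bimp_iff, band_eq, Bool.and_eq_true, beq_true_iff,
    anyLt_iff] at this
  let N : ℕ → Prop := fun c => vH c = true ∧ E φ c ∈ Nr ρ
  have ok : ∀ {c}, N c → okw c = true := fun hc => by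
    rw [okw, force_eq, bimp_iff, beq_true_iff, ← h.memA hc.1, ← h.eq hc.1 vone, E_one]
    exact h.nr h1 h3 hc.2
  have ml : ∀ {a b}, N a → N b → N (m5 a b) := fun ha hb =>
    ⟨vmul ha.1 hb.1, by rw [E_mul ha.1 hb.1]; exact mul_mem ha.2 hb.2⟩
  have sq : ∀ {a}, N a → N (sqr a) := fun ha => by rw [sqr, force_eq]; exact ml ha ha
  have n1 : N _ := ⟨vmul (va1 l1) v1, .inr e1⟩
  have n2 : N _ := ⟨vmul (va1 l2) v2, .inl e2⟩
  have n3 : N _ := ⟨vmul (va1 l3) v3, .inl e3⟩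
  have n4 : N _ := ⟨vmul (va1 l4) v4, .inl e4⟩
  obtain ⟨k, hk, f1, c, hc, f2, f3, f4⟩ := this j1 l1 (ok (sq n1)) j2 l2
    ⟨ok (sq n2), ok (sq (ml n1 n2))⟩ j3 l3 ⟨ok (sq n3), ok (sq (ml n1 n3)), ok (sq (sq (ml n2 n3)))⟩
    j4 l4 ⟨ok (sq n4), ok (sq (ml n1 n4)), ok (ml (ml n2 n4) (sq (ml n2 n4))),
      ok (ml (ml (ml n4 n3) n4) (sq (ml n2 n3)))⟩
  have cv : ∀ {a b} {σ : G}, N a → cj (a1 k) (a1 k) a = b → E φ a * ρ * (E φ a)⁻¹ = σ →
      E φ b * (A φ k * ρ * (A φ k)⁻¹) * (E φ b)⁻¹ = A φ k * σ * (A φ k)⁻¹ := fun ha e f => by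
    rw [← e, E_cj' (va1 hk) (va1 hk) ha.1, ← A, ← f]
    nth_rewrite 2 6 [← A_inv hk]
    group
  refine ⟨A φ k * ρ * (A φ k)⁻¹, c, ?_, by rw [conj_pow, h3]; group, hc,
    by rw [cv n1 f1 e1, conj_inv], fun i hi => ?_⟩
  · have := ((acts_of_mem (A_mem (φ := φ) hk)).mul h1).mul (acts_of_mem (inv_mem (A_mem hk)))
    rwa [show cmp (cmp id6 rr) id6 = rr by decide +kernel] at this
  · interval_cases i
    exacts [cv n2 f2 e2, cv n3 f3 e3, cv n4 f4 e4]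

/-- decomposition with respect to the complement -/
def Rep (φ : H0 →* G) (ρ n : G) (k L : ℕ) : Prop :=
  k < 64 ∧ ∃ l ∈ Nr ρ, n = A φ k * l ∧ Acts φ l L

theorem Rep.mul {ρ n n' : G} {k L k' L' : ℕ} (h1 : Rep φ ρ n k L) (h2 : Rep φ ρ n' k' L') :
    Rep φ ρ (n * n') (k ^^^ ap6 L k') (cmp L L') := by
  obtain ⟨hk, l, a, rfl, b⟩ := h1
  obtain ⟨hk', l', a', rfl, b'⟩ := h2
  refine ⟨xor_lt hk (ap6_lt _ _), l * l', mul_mem a a', ?_, b.mul b'⟩
  rw [← A_mul hk (ap6_lt _ _), mul_assoc, ← mul_assoc l, b.mul_A hk']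
  group

theorem rep_one (ρ : G) : Rep φ ρ 1 0 id6 :=
  ⟨by norm_num, 1, one_mem _, by rw [A_zero, one_mul], acts_of_mem (one_mem _)⟩

theorem cmp_id {L : ℕ} (h : L < 2 ^ 36) : cmp id6 L = L := by
  rw [cmp, force_eq, force_eq]
  simp only [ap6_id _ (dg_lt _ _)]
  exact pk_dg h

theorem Rep.acts {ρ n : G} {k L : ℕ} (h1 : Rep φ ρ n k L) : Acts φ n L := by
  obtain ⟨hk, l, -, rfl, b⟩ := h1
  exact cmp_id b.1 ▸ (acts_of_mem (A_mem hk)).mul b

theorem Rep.eq_one (h : Loc φ) {ρ n : G} {k L : ℕ} (h1 : Acts φ ρ rr) (h3 : ρ ^ 3 = 1)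
    (h2 : Rep φ ρ n k L) : n = 1 ↔ k = 0 ∧ L = id6 := by
  refine ⟨fun e => ?_, ?_⟩
  · refine ⟨?_, h2.acts.uniq h (e ▸ acts_of_mem (one_mem _))⟩
    obtain ⟨hk, l, a, f, -⟩ := h2
    rw [e, eq_comm, mul_eq_one_iff_inv_eq] at f
    rw [← h.A_eq hk (by norm_num), A_zero, ← inv_eq_one, f]
    exact h.nr h1 h3 a (f ▸ inv_mem (A_mem hk))
  · rintro ⟨rfl, rfl⟩
    obtain ⟨-, l, a, f, b⟩ := h2
    rw [f, A_zero, one_mul, h.nr h1 h3 a (b.cen h)]

theorem evR_spec {ρ : G} {g : ℕ → G} {K L : ℕ → ℕ} {l : List ℕ}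
    (h : ∀ x ∈ l, Rep φ ρ (g x) (K x) (L x)) :
    ∃ k M, Rep φ ρ (wl g l) k M ∧ ∀ f, evR K L l f = f k M := by
  induction l with
  | nil => exact ⟨0, id6, rep_one ρ, fun _ => rfl⟩
  | cons x l ih =>
    obtain ⟨k, M, a, b⟩ := ih fun y hy => h y (List.mem_cons_of_mem _ hy)
    refine ⟨_, _, wl_cons g x l ▸ a.mul (h x List.mem_cons_self), fun f => ?_⟩
    refine (b _).trans ?_
    rw [force_eq, force_eq]; rfl

theorem triv_iff (h : Loc φ) {ρ : G} (h1 : Acts φ ρ rr) (h3 : ρ ^ 3 = 1) {g : ℕ → G} {K L : ℕ → ℕ}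
    {X : ℕ} (h2 : ∀ x, tb X x = true → Rep φ ρ (g x) (K x) (L x)) {l : List ℕ}
    (hl : av X l = true) : triv K L l = true ↔ wl g l = 1 := by
  obtain ⟨k, M, a, b⟩ := evR_spec fun x hx => h2 x ((allL_iff _ _).1 hl x hx)
  rw [triv, b, a.eq_one h h1 h3, band_eq, Bool.and_eq_true, beq_true_iff, beq_true_iff]

/-- the letters -/
def ltr (φ : H0 →* G) (p s : G) (x : ℕ) : G := if x = 12 then p else if x = 13 then s else E φ (lc x)

theorem lc_big {x : ℕ} (h : 15 ≤ x) : lc x = one5 := by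
  rw [lc, nthD_eq, List.getD_eq_default]; exact h

theorem vlc (x : ℕ) : vH (lc x) = true ∧ m5 (lc x) (lc x) = one5 := by
  rcases Nat.lt_or_ge x 15 with h | h
  · revert x; decide +kernel
  · rw [lc_big h]; decide +kernel

theorem ltr_pi (p s : G) (x : ℕ) : ltr (φ.comp τ) s p (pi x) = ltr φ p s x := by
  rcases Nat.lt_or_ge x 15 with h | h
  · obtain ⟨a, b, c⟩ := (by decide +kernel : ∀ x, x < 15 → (pi x = 12 ↔ x = 13) ∧ (pi x = 13 ↔ x = 12) ∧
      tau (lc (pi x)) = lc x) x h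
    simp only [ltr, a, b, E_tau (vlc _).1, c]
    split_ifs <;> first | rfl | omega
  · rw [show pi x = x by rw [pi, nthD_eq, List.getD_eq_default]; exact h, ltr, ltr, lc_big h, E_one, E_one,
      if_neg (by omega), if_neg (by omega), if_neg (by omega), if_neg (by omega)]

theorem wl_pi (p s : G) (l : List ℕ) : wl (ltr (φ.comp τ) s p) (l.map pi) = wl (ltr φ p s) l := by
  induction l with
  | nil => exact (wl_nil _).trans (wl_nil _).symm
  | cons x l ih => rw [List.map_cons, wl_cons, wl_cons, ih, ltr_pi]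

theorem evH_spec {l : List ℕ} : vH (evH l) = true ∧ E φ (evH l) = wl (fun x => E φ (lc x)) l := by
  induction l with
  | nil => exact ⟨vone, E_one⟩
  | cons x l ih =>
    exact ⟨vmul ih.1 (vlc x).1, (E_mul ih.1 (vlc x).1).trans (by rw [wl_cons, ← ih.2])⟩

theorem wl_H (p s : G) {X : ℕ} (hX : tb X 12 = false ∧ tb X 13 = false) {l : List ℕ}
    (hl : av X l = true) : wl (ltr φ p s) l = E φ (evH l) := by
  rw [evH_spec.2, wl, wl]
  refine congrArg _ (List.map_congr_left fun x hx => ?_)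
  have := (allL_iff _ _).1 hl x (List.mem_reverse.1 hx)
  rw [ltr, if_neg (by rintro rfl; rw [hX.1] at this; cases this),
    if_neg (by rintro rfl; rw [hX.2] at this; cases this)]

theorem wl_aw (p s : G) {k : ℕ} (hk : k < 64) : wl (ltr φ p s) (aw k) = A φ k := by
  have := (allLt_iff _ _).1 chkAw k hk
  rw [band_eq, Bool.and_eq_true, beq_true_iff] at this
  rw [wl_H p s (by decide) this.1, this.2, A]

theorem tb_lt {X n x : ℕ} (hX : X < 2 ^ n) (h : tb X x = true) : x < n := by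
  by_contra k
  rw [tb_eq, Nat.testBit_eq_false_of_lt
    (hX.trans_le (Nat.pow_le_pow_right (by norm_num) (not_lt.1 k)))] at h
  cases h

theorem Side.rep {ρ : G} {c : ℕ} (S : Side φ ρ c) (s : G) (m L x : ℕ) (hx : tb 0x1ffe x = true) :
    Rep φ ρ (ltr φ (E φ x12 * ρ⁻¹) s x) (rk c m x) (rl L x) := by
  have h13 : x < 13 := tb_lt (by norm_num) hx
  have e1 : rk c m x = rk c 0 x := by simp [rk, bif'_eq, h13.ne]
  have e2 : rl L x = rl 0 x := by simp [rl, bif'_eq, h13.ne]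
  have v1 : vH x12 = true := by decide +kernel
  rw [e1, e2]
  by_cases h12 : x = 12
  · subst h12
    refine ⟨dg_lt _ _, _, mul_mem (.inr S.inv) (inv_mem (.inl (mul_inv_cancel_right ρ ρ))), ?_, ?_⟩
    · rw [(by decide +kernel : ∀ c, c < 4 → rk c 0 12 = 0) c S.lt, A_zero, one_mul]; rfl
    · rw [← show cmp (mu x12) rr2 = rl 0 12 by decide +kernel]
      exact (acts_mu v1 (by decide +kernel)).1.mul (S.act.inv3 S.cube)
  have := (allIco_iff _ _ _).1 ((allLt_iff _ _).1 chkHat c S.lt) x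
    (Nat.pos_of_ne_zero (by rintro rfl; cases hx)) (by omega)
  simp only [force_eq, band_eq, Bool.and_eq_true, beq_true_iff, meL_iff] at this
  obtain ⟨a, b, d, f⟩ := this
  have hk : rk c 0 x < 64 := by simp [rk, bif'_eq, h13.ne, dg_lt]
  have v := vmul (va1 hk) a
  refine ⟨hk, E φ (m5 (a1 (rk c 0 x)) (lc x)), ?_, ?_, d ▸ (acts_mu v b).1⟩
  · have vk : ∀ c, c < 4 → vH (kx c 0) = true ∧ vH (kx c 1) = true := by decide +kernel
    simp only [List.mem_cons, List.not_mem_nil, or_false] at f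
    rcases f with f | f | f | f | f | f <;> rw [f]
    exacts [E_one (φ := φ) ▸ one_mem _, .inr S.inv, .inl (S.cen 0 (by norm_num)),
      .inl (S.cen 1 (by norm_num)), .inl (S.cen 2 (by norm_num)), by
        rw [E_sqr (vmul (vk c S.lt).1 (vk c S.lt).2), E_mul (vk c S.lt).1 (vk c S.lt).2]
        have : _ ∈ Nr ρ := mul_mem (.inl (S.cen 0 (by norm_num))) (.inl (S.cen 1 (by norm_num)))
        exact mul_mem this this]
  · rw [ltr, if_neg h12, if_neg h13.ne, E_mul (va1 hk) a, ← A, ← mul_assoc, A_sq hk, one_mul]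

theorem Side.p_sq {ρ : G} {c : ℕ} (S : Side φ ρ c) : E φ x12 * ρ⁻¹ * (E φ x12 * ρ⁻¹) = 1 := by
  have v1 : vH x12 = true := by decide +kernel
  have : (E φ x12)⁻¹ = E φ x12 := by rw [← E_iv v1, show iv x12 = x12 by decide +kernel]
  nth_rewrite 2 [← this]
  rw [← mul_assoc, ← conj_inv, S.inv]; group

theorem Side.act4 (h : Loc φ) {ρ : G} {c : ℕ} (S : Side (φ.comp τ) ρ c) :
    Acts φ (E (φ.comp τ) x12 * ρ⁻¹) (l4 c) := by
  refine acts_of_gen ((by decide +kernel : ∀ c, c < 4 → l4 c < 2 ^ 36) c S.lt) fun i hi => ?_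
  have := (allLt_iff _ _).1 ((allLt_iff _ _).1 chkL4 c S.lt) i hi
  rw [force_eq, band_eq, Bool.and_eq_true, triv_iff h.tau S.act S.cube (S.rep 1 0 0) this.1, wl_pi,
    wl_append, wl_append, wl_append, wl_aw _ _ (dg_lt _ _),
    wl_aw _ _ (Nat.pow_lt_pow_right (n := 6) (by norm_num) hi), wl_single] at this
  rw [inv_eq_of_mul_eq_one_left S.p_sq, ← A_inv (dg_lt _ _), eq_inv_iff_mul_eq_one, mul_eq_one_comm,
    mul_assoc]
  exact this.2

theorem Side.cls [Finite G] (h : Loc φ) {ρ σ : G} {c d : ℕ} (S : Side φ ρ c)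
    (S' : Side (φ.comp τ) σ d) : d ∈ [0, 3] := by
  have h1 := (S.rep 1 0 0 12 (by decide)).acts.mul (S'.act4 h)
  have h2 := h1.mul h1
  rcases (by decide +kernel : ∀ d, d < 4 → d ∈ [0, 3] ∨
    (ap6 (cmp (cmp (rl 0 12) (l4 d)) (cmp (rl 0 12) (l4 d))) 4 = 4 ∧
      cmp (cmp (rl 0 12) (l4 d)) (cmp (rl 0 12) (l4 d)) ∉ ylist)) d S'.lt with k | ⟨k1, k2⟩
  · exact k
  · obtain ⟨e, a, b, -, f⟩ := h2.fix h k1
    exact absurd (f ▸ (acts_mu (φ := φ) a b).2.1) k2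

/-- the relations in the normaliser of the first group -/
def Half (φ : H0 →* G) (p s : G) (c m L : ℕ) : Prop := ∃ ρ, Acts φ ρ rr ∧ ρ ^ 3 = 1 ∧
  ∀ x, tb 0x3ffe x = true → Rep φ ρ (ltr φ p s x) (rk c m x) (rl L x)

theorem Side.half {ρ s : G} {c m L : ℕ} (S : Side φ ρ c) (h : Rep φ ρ s m L) :
    Half φ (E φ x12 * ρ⁻¹) s c m L := ⟨ρ, S.act, S.cube, fun x hx => by
  by_cases e : x = 13
  · subst e; exact h
  · exact S.rep s m L x ((by decide : ∀ x, x < 14 → x ≠ 13 → tb 0x3ffe x = true → tb 0x1ffe x = true)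
      x (tb_lt (by norm_num) hx) e hx)⟩

theorem Half.triv (h : Loc φ) {p s : G} {c m L : ℕ} (H : Half φ p s c m L) {l : List ℕ}
    (hl : av 0x3ffe l = true) : triv (rk c m) (rl L) l = true ↔ wl (ltr φ p s) l = 1 :=
  let ⟨_, a, b, c⟩ := H
  triv_iff h a b c hl

theorem Side.exm [Finite G] (h : Loc φ) {ρ σ : G} {c d : ℕ} (S : Side φ ρ c)
    (S' : Side (φ.comp τ) σ d) (hc : c ∈ [0, 3]) (hd : d ∈ [0, 3]) :
    Rep φ ρ (E (φ.comp τ) x12 * σ⁻¹) (m0 c d) (l4 d) ∨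
      Rep φ ρ (E (φ.comp τ) x12 * σ⁻¹) (m0 c d ^^^ 6) (l4 d) := by
  obtain ⟨m, hm, e⟩ := h.hat S.act S.act (S'.act4 h)
    ((by decide +kernel : ∀ d ∈ [0, 3], cmp (l4 d) rr = cmp rr (l4 d)) d hd) (by decide +kernel)
  have r : Rep φ ρ (E (φ.comp τ) x12 * σ⁻¹) m (l4 d) :=
    ⟨hm, _, .inl e, by rw [← mul_assoc, A_sq hm, one_mul],
      cmp_id (S'.act4 h).1 ▸ (acts_of_mem (A_mem hm)).mul (S'.act4 h)⟩
  have := (allL_iff _ _).1 chkM d hd
  simp only [allL_iff, allLt_iff, band_eq, bor_eq, Bool.and_eq_true, Bool.or_eq_true, bimp_iff,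
    beq_true_iff] at this
  refine (this.2 c hc m hm fun l hl => ?_).imp (fun e => by rwa [← e]) fun e => by
    rwa [← xor_def, ← e]
  obtain ⟨a, b, f⟩ := this.1 l hl
  rw [(S.half r).triv h a, ← wl_pi, ← triv_iff h.tau S'.act S'.cube (S'.rep _ 0 0) b, f]

theorem Side.conj {ρ : G} {c : ℕ} (S : Side φ ρ c) : Side φ (A φ 4 * ρ * (A φ 4)⁻¹) c := by
  have k : ∀ c, ∀ σ : G, E φ c * ρ * (E φ c)⁻¹ = σ →
      E φ c * (A φ 4 * ρ * (A φ 4)⁻¹) * (E φ c)⁻¹ = A φ 4 * σ * (A φ 4)⁻¹ := fun c σ e => by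
    rw [← e, A_four, show E φ c * (E φ zc * ρ * (E φ zc)⁻¹) * (E φ c)⁻¹ =
      E φ c * E φ zc * ρ * (E φ c * E φ zc)⁻¹ by group, (comm_z (E_mem c)).eq]
    group
  refine ⟨?_, by rw [conj_pow, S.cube]; group, S.lt, by rw [k _ _ S.inv, conj_inv],
    fun i hi => k _ _ (S.cen i hi)⟩
  have := ((acts_of_mem (A_mem (φ := φ) (k := 4) (by norm_num))).mul S.act).mul
    (acts_of_mem (inv_mem (A_mem (k := 4) (by norm_num))))
  rwa [show cmp (cmp id6 rr) id6 = rr by decide +kernel] at this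

theorem Rep.conj {ρ n : G} {k L : ℕ} (h : Rep φ ρ n k L) :
    Rep φ (A φ 4 * ρ * (A φ 4)⁻¹) n (k ^^^ (4 ^^^ ap6 L 4)) L := by
  have h4 : 4 < 64 := by norm_num
  obtain ⟨hk, l, a, rfl, b⟩ := h
  have e : A φ 4 * l * (A φ 4)⁻¹ = A φ (4 ^^^ ap6 L 4) * l := by
    rw [A_inv h4, mul_assoc, b.mul_A h4, ← mul_assoc, A_mul h4 (ap6_lt _ _)]
  have hj := xor_lt h4 (ap6_lt L 4)
  refine ⟨xor_lt hk hj, A φ 4 * l * (A φ 4)⁻¹, ?_, ?_, ?_⟩
  · refine a.imp (fun f => ?_) fun f => ?_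
    · nth_rewrite 2 [← f]; group
    · rw [conj_inv (a := ρ), ← f]; group
  · rw [e, ← mul_assoc, A_mul (xor_lt hk hj) hj, Nat.xor_xor_cancel_right]
  · have := (acts_of_mem (A_mem hj)).mul b
    rwa [cmp_id b.1, ← e] at this

/-- the configuration -/
structure Conf (φ : H0 →* G) (p s : G) (c d : ℕ) : Prop where
  loc : Loc φ
  hc : c ∈ [0, 3]
  hd : d ∈ [0, 3]
  h1 : Half φ p s c (m0 c d) (l4 d)
  h2 : Half (φ.comp τ) s p d (m0 d c) (l4 c)

theorem Conf.symm {p s : G} {c d : ℕ} (C : Conf φ p s c d) : Conf (φ.comp τ) s p d c :=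
  ⟨C.loc.tau, C.hd, C.hc, C.h2, by rw [tau_tau]; exact C.h1⟩

theorem Loc.conf [Finite G] (h : Loc φ) (h1 : Pz φ 1) (h2 : Pz φ 2) :
    ∃ p s c d, Conf φ p s c d := by
  obtain ⟨ρ, c, S⟩ := h.side h2
  obtain ⟨σ, d, S'⟩ := h.tau.side ((Pz_tau (by norm_num) (by decide +kernel)).2 h1)
  have hd := S.cls h S'
  have hc := S'.cls h.tau (by rw [tau_tau]; exact S)
  obtain ⟨ρ, S, r⟩ : ∃ ρ, Side φ ρ c ∧ Rep φ ρ (E (φ.comp τ) x12 * σ⁻¹) (m0 c d) (l4 d) := by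
    rcases S.exm h S' hc hd with r | r
    · exact ⟨ρ, S, r⟩
    · refine ⟨_, S.conj, ?_⟩
      have := r.conj
      rwa [(by decide +kernel : ∀ d ∈ [0, 3], 4 ^^^ ap6 (l4 d) 4 = 6) d hd,
        Nat.xor_xor_cancel_right] at this
  have r' := S'.exm h.tau (σ := ρ) (by rw [tau_tau]; exact S) hd hc
  rw [tau_tau] at r'
  refine ⟨_, _, c, d, h, hc, hd, S.half r, S'.half (r'.resolve_right fun r' => ?_)⟩
  have := (allL_iff _ _).1 ((allL_iff _ _).1 chkP c hc) d hd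
  simp only [band_eq, bnot_eq, Bool.and_eq_true, Bool.not_eq_true', ← Bool.not_eq_true] at this
  obtain ⟨a, b, e, f⟩ := this
  rw [(S.half r).triv h a, ← wl_pi] at e
  exact f (((S'.half r').triv h.tau b).2 e)

theorem Conf.rel {p s : G} {c d : ℕ} (C : Conf φ p s c d) {l : List ℕ} (h : relb c d l = true) :
    wl (ltr φ p s) l = 1 := by
  simp only [relb, bif'_eq, band_eq] at h
  split_ifs at h with a b
  · rw [wl_H p s (by decide) a, (beq_true_iff _ _).1 h, E_one]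
  · exact (C.h1.triv C.loc b).1 h
  · rw [Bool.and_eq_true] at h
    rw [← wl_pi]; exact (C.h2.triv C.loc.tau h.1).1 h.2

theorem Conf.sq {p s : G} {c d : ℕ} (C : Conf φ p s c d) (x : ℕ) : ltr φ p s x * ltr φ p s x = 1 := by
  by_cases h : x = 12 ∨ x = 13
  · have := C.rel ((by decide +kernel : ∀ c ∈ [0, 3], ∀ d ∈ [0, 3], ∀ x ∈ [12, 13],
      relb c d [x, x] = true) c C.hc d C.hd x (by simpa using h))
    simpa [wl] using this
  · push Not at h
    rw [ltr, if_neg h.1, if_neg h.2, ← E_mul (vlc x).1 (vlc x).1, (vlc x).2, E_one]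

theorem Conf.acts {p s : G} {c d : ℕ} (C : Conf φ p s c d) {x : ℕ} (hx : tb 0x3ffe x = true) :
    Acts φ (ltr φ p s x) (rl (l4 d) x) :=
  let ⟨_, _, _, h⟩ := C.h1
  (h x hx).acts

theorem range_le {K : Subgroup G} (h : ∀ x, E φ (lc x) ∈ K) : φ.range ≤ K := by
  have k1 : ∀ l, E φ (evH l) ∈ K := fun l => evH_spec (φ := φ).2 ▸ wl_mem_of fun x _ => h x
  intro g hg
  obtain ⟨c, hc, rfl⟩ := ex_E hg
  obtain ⟨e, he, h1⟩ := (anyL_iff _ _).1 (allH_spec chkRc hc)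
  obtain ⟨l, -, h2⟩ := (anyL_iff _ _).1 ((allL_iff _ _).1 chkRw e he)
  rw [beq_true_iff] at h2
  subst h2
  have h3 := allT_spec chkTw h1
  rw [force_eq, beq_true_iff] at h3
  have := k1 (bw [9, 5, 7, 2, 4, 8, 1, 3, 6, 10] (exT (m5 c (evH l))))
  rw [h3, E_mul hc (evH_spec (φ := φ)).1] at this
  exact (mul_mem_cancel_right (k1 l)).1 this

end

end CfsgH9.Hd
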