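/-
The centraliser of the second involution.
-/
import Cfsg.Agent.H9.HdE

set_option autoImplicit false
set_option maxRecDepth 100000
set_option linter.style.haveILetI false

namespace CfsgH9.Hd

open CfsgH5 CfsgH6 CfsgH4 CfsgH5.KT Subgroup

noncomputable section

variable {G : Type*} [Group G] {φ : H0 →* G}

theorem vt' : vH tc' = true := by decide +kernel

theorem t'_eq : E φ tc' = A φ 52 := by rw [A, show a1 52 = tc' by decide +kernel]

/-- the four-group -/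
def WS (φ : H0 →* G) : Subgroup G where
  carrier := {g | ∃ k ∈ [0, 34, 52, 22], A φ k = g}
  one_mem' := ⟨0, by simp, A_zero⟩
  mul_mem' := by
    rintro _ _ ⟨k, hk, rfl⟩ ⟨l, hl, rfl⟩
    obtain ⟨a, b, c⟩ := (by decide : ∀ k ∈ [0, 34, 52, 22], ∀ l ∈ [0, 34, 52, 22],
      k < 64 ∧ l < 64 ∧ k ^^^ l ∈ [0, 34, 52, 22]) k hk l hl
    exact ⟨_, c, (A_mul a b).symm⟩
  inv_mem' := by
    rintro _ ⟨k, hk, rfl⟩
    exact ⟨k, hk, (A_inv ((by decide : ∀ k ∈ [0, 34, 52, 22], k < 64) k hk)).symm⟩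

theorem W_lt : ∀ k ∈ [0, 34, 52, 22], k < 64 := by decide

theorem WS_le : WS φ ≤ AS φ := fun _ ⟨k, hk, e⟩ => ⟨k, W_lt k hk, e⟩

theorem WS_tau_le : WS (φ.comp τ) ≤ WS φ := by
  rintro _ ⟨k, hk, rfl⟩
  obtain ⟨l, hl, e⟩ := (by decide +kernel : ∀ k ∈ [0, 34, 52, 22], ∃ l ∈ [0, 34, 52, 22],
    a1 l = a2 k) k hk
  exact ⟨l, hl, by rw [A_tau (W_lt k hk), A, e]⟩

theorem WS_tau : WS (φ.comp τ) = WS φ :=
  le_antisymm WS_tau_le (by simpa only [tau_tau] using WS_tau_le (φ := φ.comp τ))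

theorem Loc.memW (h : Loc φ) {c : ℕ} (hc : vH c = true) (hw : E φ c ∈ WS φ) : inW c = true := by
  obtain ⟨k, hk, e⟩ := hw
  rw [← (h.eq (va1 (W_lt k hk)) hc).1 e]
  exact (by decide +kernel : ∀ k ∈ [0, 34, 52, 22], inW (a1 k) = true) k hk

/-- the centraliser of the four-group -/
def BS (φ : H0 →* G) : Subgroup G := centralizer (WS φ : Set G)

theorem mem_BS {g : G} : g ∈ BS φ ↔ Commute g (E φ tc) ∧ Commute g (E φ tc') := by
  rw [t_eq, t'_eq]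
  refine ⟨fun h => ⟨(h _ ⟨34, by simp, rfl⟩).symm, (h _ ⟨52, by simp, rfl⟩).symm⟩, fun h => ?_⟩
  rintro _ ⟨k, hk, rfl⟩
  simp only [List.mem_cons, List.not_mem_nil, or_false] at hk
  rcases hk with rfl | rfl | rfl | rfl
  exacts [by simp [A_zero], h.1.symm, h.2.symm, by
    rw [show 22 = 34 ^^^ 52 by decide, ← A_mul (by norm_num) (by norm_num)]
    exact (h.1.mul_right h.2).symm]

theorem BS_comm {g w : G} (hg : g ∈ BS φ) (hw : w ∈ WS φ) : Commute g w := (hg w hw).symm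

theorem BS_le : BS φ ≤ CT φ := fun _ h => mem_CT.2 (mem_BS.1 h).1

theorem AS_le_BS : AS φ ≤ BS φ := fun _ ha _ hw => AS_comm (WS_le hw) ha

theorem AS_le_BS' : AS (φ.comp τ) ≤ BS φ := fun _ ha _ hw =>
  AS_comm (WS_le (WS_tau (φ := φ) ▸ hw)) ha

theorem vo : ∀ O ∈ [o21, o45], tb O 52 = false ∧ tb O 22 = false := by decide +kernel

variable [Finite G]

theorem Loc.iso (h : Loc φ) {O : ℕ} (ho : Om φ O) (hO : O ∈ [o21, o45]) {g a : G} (hg : g ∈ CT φ)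
    (ha : a ∈ WS φ) (h1 : g * a * g⁻¹ ∈ AS φ) : g * a * g⁻¹ ∈ WS φ := by
  obtain ⟨n, hn, h2, e⟩ := h.ctrl AS_le_CT hg (WS_le ha) h1
  obtain ⟨L, hL⟩ := exists_acts h2
  have e1 : ap6 L 34 = 34 := (h.A_eq (ap6_lt _ _) (by norm_num)).1 (by
    rw [← hL.2 34 (by norm_num), ← t_eq, (mem_CT.1 hn).eq, mul_inv_cancel_right])
  obtain ⟨k, hk, rfl⟩ := ha
  have hk' := W_lt k hk
  rw [← e, hL.2 k hk']
  refine ⟨_, ?_, rfl⟩
  have := (allLt_iff _ _).1 ((allL_iff _ _).1 chkH3 O hO) _ (ap6_lt L k)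
  simp only [bor_eq, band_eq, bnot_eq, Bool.or_eq_true, Bool.and_eq_true, meL_iff, xor_def,
    Bool.not_eq_true', ← Bool.not_eq_true, beq_true_iff] at this
  nth_rewrite 1 [← e1] at this
  rw [← ap6_xor, ho.inv hL hk', ho.inv hL (xor_lt (by norm_num) hk'), ho.h3 h hL e1 hk'] at this
  simp only [List.mem_cons, List.not_mem_nil, or_false] at hk
  have v := vo O hO
  rcases hk with rfl | rfl | rfl | rfl
  · simp [ap6_zero]
  · simp [e1]
  · rw [show 34 ^^^ 52 = 22 by decide, v.1, v.2] at this; simpa using this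
  · rw [show 34 ^^^ 22 = 52 by decide, v.1, v.2] at this; simpa using this

/-- the Sylow subgroup of the centraliser of the four-group -/
def SS (φ : H0 →* G) : Subgroup G := TS φ ⊓ BS φ

theorem Loc.memS (h : Loc φ) {c : ℕ} (hc : vH c = true) :
    E φ c ∈ SS φ ↔ inT c = true ∧ Hd.cm c tc = true ∧ Hd.cm c tc' = true := by
  rw [SS, mem_inf, h.memT hc, mem_BS, h.cm hc vt, h.cm hc vt']

theorem Loc.cardS (h : Loc φ) : Nat.card (SS φ) = 256 :=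
  (h.cardT inf_le_left fun c h1 h2 => (h.memS h1).trans (by simp [h2])).trans cntS

theorem Loc.invS (h : Loc φ) {u : G} (hu : u ∈ SS φ) (h2 : u * u = 1) :
    u ∈ AS φ ∨ u ∈ AS (φ.comp τ) := by
  obtain ⟨c, hc, h1, rfl⟩ := h.exT hu.1
  obtain ⟨-, a, b⟩ := (h.memS hc).1 hu
  rw [h.memA hc, h.memB hc]
  exact ((sT1 h1 a).2.2.2.1 b).1 ((h.sq1 hc).2 h2)

theorem Loc.y_mem (h : Loc φ) : E φ yc ∈ TS φ ⊓ CT φ :=
  ⟨(h.memT vy).2 (by decide +kernel), mem_CT.2 (E_comm vy vt (by decide +kernel))⟩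

omit [Finite G] in
theorem Loc.y_out (h : Loc φ) : E φ yc ∉ BS φ := fun k =>
  absurd ((h.cm vy vt').2 (mem_BS.1 k).2) (by decide +kernel)

theorem Loc.snR (h : Loc φ) : SN (TS φ ⊓ CT φ ⊓ centralizer {E φ yc})
    (CT φ ⊓ centralizer {E φ yc}) := by
  refine ⟨fun x hx => ⟨hx.1.2, hx.2⟩, h.T_two.to_inf_left.to_inf_left, fun g hg hn => ?_⟩
  have v : vH r0 = true := by decide +kernel
  have h1 := hn (E φ r0) ⟨⟨(h.memT v).2 (by decide +kernel),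
    mem_CT.2 (E_comm v vt (by decide +kernel))⟩,
    mem_centralizer_singleton_iff.2 (E_comm v vy (by decide +kernel))⟩
  obtain ⟨c, hc, h2, e⟩ := h.exT h1.1.1
  rw [← e] at h1
  have := (sT1 h2 ((h.cm hc vt).2 (mem_CT.1 h1.1.2))).2.2.1
    ((h.cm hc vy).2 (mem_centralizer_singleton_iff.1 h1.2))
  rw [← h.eq (vsqr hc) vone, ← h.eq (vsqr hc) vz, E_sqr hc, e, conj_mul, ← E_sqr v,
    show sqr r0 = zc by decide +kernel, E_one] at this
  obtain ⟨d, hd, rfl⟩ := h.ex (mul_inv_eq_iff_eq_mul.1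
    (this.resolve_left fun k => h.z_ne (by simpa using k)))
  exact ⟨⟨(h.memT hd).2 (h.inT_of hd (mem_CT.1 hg.1)), hg.1⟩, hg.2⟩

theorem Loc.exM0 (h : Loc φ) : ∃ M0 ≤ CT φ, E φ yc ∉ M0 ∧
    ∀ a ∈ CT φ, ∀ b ∈ CT φ, (a * b ∈ M0 ↔ (a ∈ M0 ↔ b ∈ M0)) := by
  have le : SS φ ≤ TS φ ⊓ CT φ := inf_le_inf_left _ BS_le
  refine h.snT1.transfer le ?_ h.y_mem (fun k => h.y_out k.2) y_sq fun m hm k => ?_
  · have := ((SS φ).subgroupOf (TS φ ⊓ CT φ)).index_mul_card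
    rw [Nat.card_congr (subgroupOfEquivOfLe le).toEquiv, h.cardS, h.cardT1] at this
    rw [relIndex]; omega
  · have c : Nat.card (TS φ ⊓ CT φ ⊓ centralizer {E φ yc} : Subgroup G) = 32 :=
      (h.cardT (inf_le_left.trans inf_le_left) fun c h1 h2 => by
        rw [mem_inf, mem_inf, h.memT h1, mem_CT, mem_centralizer_singleton_iff, band_eq,
          Bool.and_eq_true, h.cm h1 vt, h.cm h1 vy]
        simp only [h2, true_and]; rfl).trans cntR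
    have key : ∀ ψ : H0 →* G, Loc ψ → CT ψ = CT φ → m * E φ yc * m⁻¹ ∉ AS ψ := fun ψ l e k => by
      have := h.snR.card_le (P := (AS ψ).map (MulAut.conj m⁻¹).toMonoidHom) (by
        rintro _ ⟨a, ha, rfl⟩
        refine ⟨(CT φ).mul_mem ((CT φ).mul_mem ((CT φ).inv_mem hm) (e ▸ AS_le_CT ha))
          ((CT φ).inv_mem ((CT φ).inv_mem hm)), mem_centralizer_singleton_iff.2 ?_⟩
        simpa [mul_assoc] using (conj_commute m⁻¹ (AS_comm ha k)).eq) (AS_two.map _)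
      rw [card_cj, l.cardA, c] at this
      omega
    exact (h.invS k (by rw [conj_mul, y_sq]; group)).elim (key φ h rfl) (key _ h.tau CT_tau)

variable {p s : G} {c d : ℕ}

section M0

variable {M0 : Subgroup G} (hM : ∀ a ∈ CT φ, ∀ b ∈ CT φ, (a * b ∈ M0 ↔ (a ∈ M0 ↔ b ∈ M0)))
include hM

omit [Finite G] in
theorem cjM0 {a g : G} (ha : a ∈ CT φ) (hg : g ∈ CT φ) : g * a * g⁻¹ ∈ M0 ↔ a ∈ M0 := by
  rw [hM _ (mul_mem hg ha) _ (inv_mem hg), hM _ hg _ ha, inv_mem_iff]; tauto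

omit [Finite G] in
theorem Conf.AS_le (C : Conf φ p s c d) : AS φ ≤ M0 := by
  have k1 : ∀ {g L}, Acts φ g L → ap6 L 34 = 34 → ∀ j, j < 64 → A φ (j ^^^ ap6 L j) ∈ M0 :=
    fun {g L} a e j hj => by
      have hg : g ∈ CT φ := mem_CT.2 (t_eq (φ := φ) ▸ a.comm (by norm_num) e)
      have ha := AS_le_CT (A_mem (φ := φ) hj)
      rw [← A_mul hj (ap6_lt _ _), ← a.2 j hj, hM _ ha _ (mul_mem (mul_mem hg ha) (inv_mem hg)),
        cjM0 hM ha hg]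
  have a8 := k1 (acts_mu (c := x34) (by decide +kernel) (by decide +kernel)).1 (by decide +kernel)
  have a6 := k1 (acts_mu (c := x35) (by decide +kernel) (by decide +kernel)).1 (by decide +kernel)
  have kx : ∀ k l, k < 64 → l < 64 → A φ k ∈ M0 → A φ l ∈ M0 → A φ (k ^^^ l) ∈ M0 :=
    fun k l hk hl a b => A_mul (φ := φ) hk hl ▸ mul_mem a b
  have k0 : A φ 0 ∈ M0 := A_zero (φ := φ) ▸ one_mem _
  have q2 : A φ 2 ∈ M0 := (by decide +kernel : 1 ^^^ ap6 (mu x34) 1 = 2) ▸ a8 1 (by norm_num)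
  have q16 : A φ 16 ∈ M0 := (by decide +kernel : 8 ^^^ ap6 (mu x34) 8 = 16) ▸ a8 8 (by norm_num)
  have q4 : A φ 4 ∈ M0 := (by decide +kernel : 1 ^^^ ap6 (mu x35) 1 = 4) ▸ a6 1 (by norm_num)
  have q32 : A φ 32 ∈ M0 := (by decide +kernel : 8 ^^^ ap6 (mu x35) 8 = 32) ▸ a6 8 (by norm_num)
  have lt : ∀ k, k &&& 54 < 64 := fun k => lt_of_le_of_lt Nat.and_le_right (by norm_num)
  have k2 : ∀ k, k < 64 → A φ (k &&& 54) ∈ M0 := ind64 k0 (fun i hi => by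
    interval_cases i <;> assumption) fun k l _ _ a b => by
      rw [Nat.and_xor_distrib_right]; exact kx _ _ (lt _) (lt _) a b
  have σ := (((C.acts (x := 13) (by decide)).mul (C.acts (x := 10) (by decide))).mul
    (C.acts (x := 12) (by decide))).mul (C.acts (x := 9) (by decide))
  obtain ⟨e1, e2, e3⟩ := (by decide +kernel : ∀ d ∈ [0, 3], ∀ L ∈ [cmp (cmp (cmp (rl (l4 d) 13)
    (rl (l4 d) 10)) (rl (l4 d) 12)) (rl (l4 d) 9)], ap6 L 34 = 34 ∧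
      (8 ^^^ ap6 L 8) ^^^ ((8 ^^^ ap6 L 8) &&& 54) = 1 ∧
      (9 ^^^ ap6 L 9) ^^^ ((9 ^^^ ap6 L 9) &&& 54) = 8) d C.hd _ (List.mem_singleton_self _)
  generalize cmp (cmp (cmp (rl (l4 d) 13) (rl (l4 d) 10)) (rl (l4 d) 12)) (rl (l4 d) 9) = L
    at σ e1 e2 e3
  have k3 := fun j hj => kx _ _ (xor_lt hj (ap6_lt L j)) (lt _) (k1 σ e1 j hj)
    (k2 _ (xor_lt hj (ap6_lt L j)))
  have q1 := k3 8 (by norm_num)
  have q8 := k3 9 (by norm_num)
  rw [e2] at q1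
  rw [e3] at q8
  rintro _ ⟨k, hk, rfl⟩
  exact ind64 (P := fun k => A φ k ∈ M0) k0 (fun i hi => by interval_cases i <;> assumption) kx k hk

theorem Conf.S_le (C : Conf φ p s c d) : SS φ ≤ M0 := fun x hx => by
  obtain ⟨e, he, h1, rfl⟩ := C.loc.exT hx.1
  obtain ⟨-, a, b⟩ := (C.loc.memS he).1 hx
  have lt : ex1 e &&& 9 < 64 := lt_of_le_of_lt Nat.and_le_right (by norm_num)
  have := C.symm.AS_le (M0 := M0) (by rw [CT_tau]; exact hM)
    ((C.loc.memB (vmul (va1 lt) he)).2 ((sT1 h1 a).2.2.2.1 b).2.2)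
  rw [E_mul (va1 lt) he] at this
  exact (mul_mem_cancel_left (C.AS_le hM (A_mem lt))).1 this

variable (hle : M0 ≤ CT φ) (hy : E φ yc ∉ M0)
include hle hy

theorem Conf.syl (C : Conf φ p s c d) {X Q : Subgroup G} (h1 : SS φ ≤ X) (h2 : X ≤ M0) (hQ : Q ≤ X)
    (q2 : IsPGroup 2 Q) : ∃ x ∈ X, ∀ a ∈ Q, x * a * x⁻¹ ∈ SS φ := by
  have h := C.loc
  obtain ⟨x, hx, R, r1, r2, r3, r4⟩ := exists_common h1 hQ h.T_two.to_inf_left q2
  obtain ⟨m, hm, e⟩ := h.snT1.conj (r1.trans (h2.trans hle)) r2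
  refine ⟨x, hx, eq_of_le_of_card_ge r3 (card_le_of_conj (m := m) fun a ha => ?_) ▸ r4⟩
  have k1 := (cjM0 hM (hle (h2 (r1 ha))) hm).2 (h2 (r1 ha))
  have k2 := e a ha
  obtain ⟨f, hf, k3, k4⟩ := h.exT k2.1
  rw [← k4] at k1 k2 ⊢
  have k5 := (h.cm hf vt).2 (mem_CT.1 k2.2)
  refine (h.memS hf).2 ⟨k3, k5, ?_⟩
  by_contra k6
  have k7 : E φ yc * E φ f ∈ TS φ ⊓ CT φ := mul_mem h.y_mem k2
  refine hy ((mul_mem_cancel_right k1).1 (C.S_le hM ⟨k7.1, mem_BS.2 ⟨mem_CT.1 k7.2, ?_⟩⟩))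
  rw [← E_mul vy hf, ← h.cm (vmul vy hf) vt']
  exact (sT1 k3 k5).2.2.2.2 (by simpa using k6)

theorem Conf.noswap (C : Conf φ p s c d) {n : G} (hn : n ∈ M0) :
    n * E φ tc' * n⁻¹ ≠ E φ tc * E φ tc' := fun e => by
  have ct := mem_CT.1 (hle hn)
  have t2 : E φ tc * E φ tc = 1 := by rw [t_eq, A_sq (by norm_num)]
  have e2 : Commute (n ^ 2) (E φ tc') := by
    rw [Commute, SemiconjBy, ← mul_inv_eq_iff_eq_mul, show n ^ 2 * E φ tc' * (n ^ 2)⁻¹ =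
      n * (n * E φ tc' * n⁻¹) * n⁻¹ by simp [pow_two, mul_assoc], e, ← conj_mul, e, ct.eq,
      mul_inv_cancel_right, ← mul_assoc, t2, one_mul]
  have nW : n ∈ normalizer (WS φ : Set G) := nm_of (by
    have k1 : n * A φ 34 * n⁻¹ ∈ WS φ := by
      rw [← t_eq, ct.eq, mul_inv_cancel_right]; exact ⟨34, by simp, t_eq.symm⟩
    have k2 : n * A φ 52 * n⁻¹ ∈ WS φ := by
      rw [← t'_eq, e]; exact mul_mem ⟨34, by simp, t_eq.symm⟩ ⟨52, by simp, t'_eq.symm⟩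
    rintro _ ⟨k, hk, rfl⟩
    simp only [List.mem_cons, List.not_mem_nil, or_false] at hk
    rcases hk with rfl | rfl | rfl | rfl
    exacts [by simp [A_zero], k1, k2, by
      rw [show 22 = 34 ^^^ 52 by decide, ← A_mul (by norm_num) (by norm_num), ← conj_mul]
      exact mul_mem k1 k2])
  obtain ⟨m, k, ⟨j, rfl⟩, h2⟩ := exists_odd_pow n
  obtain ⟨x, hx, h3⟩ := C.syl hM hle hy (X := M0 ⊓ normalizer (WS φ : Set G))
    (fun a ha => ⟨C.S_le hM ha, nm_of fun w hw => by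
      rwa [(BS_comm ha.2 hw).eq, mul_inv_cancel_right]⟩) inf_le_left
    (zpowers_le.2 (pow_mem (mem_inf.2 ⟨hn, nW⟩) _)) (isPGroup_zpowers_of_pow h2)
  have h4 := conj_commute x⁻¹ (BS_comm (h3 _ (mem_zpowers _)).2
    (nm_mem hx.2 ⟨52, by simp, t'_eq.symm⟩))
  have h5 : n ^ (2 * j + 1) * E φ tc' = E φ tc' * n ^ (2 * j + 1) := by simpa [mul_assoc] using h4.eq
  rw [pow_succ', pow_mul, mul_assoc, (e2.pow_left j).eq, ← mul_assoc, ← mul_assoc, mul_left_inj,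
    ← mul_inv_eq_iff_eq_mul, e, mul_eq_right] at h5
  exact C.loc.ne_one vt (by decide) h5

omit hM hle hy [Finite G] in
theorem Loc.odd (h : Loc φ) {O : Subgroup G} (h4 : ∀ x ∈ O, x ^ 4 = 1 → x = 1)
    (hO : ∀ a, a ∈ AS φ ∨ a ∈ AS (φ.comp τ) → ∀ x ∈ O, a * x * a⁻¹ ∈ O) {n v : G} (n1 : n ∈ NA φ)
    (n2 : n ∈ NA (φ.comp τ)) (e : n * v * n⁻¹ = E φ zc) : ∀ x ∈ O, v * x * v⁻¹ = x → x = 1 := by
  intro x hx k
  obtain ⟨f, hf, e1⟩ := h.ex (e ▸ conj_commute n (Commute.symm (mul_inv_eq_iff_eq_mul.1 k)))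
  have := allH_spec chkOdd hf
  simp only [bor_eq, band_eq, bnot_eq, force_eq, anyL_iff, Bool.or_eq_true, Bool.and_eq_true,
    Bool.not_eq_true', ← Bool.not_eq_true, beq_true_iff] at this
  rcases this with k | ⟨a, ha, k1, k2⟩
  · rw [← h.eq (vsqr (vsqr hf)) vone, E_four hf, e1, conj_pow, E_one] at k
    exact h4 x hx (by simpa using k)
  obtain ⟨va, a1⟩ := (by decide +kernel : ∀ a ∈ [x13, x35, x14, x25], vH a = true ∧
    (inA a = true ∨ inB a = true)) a ha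
  have v := vcmt hf (viv hf) va
  rw [← h.memA va, ← h.memB va] at a1
  rw [← h.eq v vone, E_cmt hf (viv hf) va, E_iv hf, e1, E_one] at k1
  rw [← h.eq (vsqr (vsqr v)) vone, E_four v, E_cmt hf (viv hf) va, E_iv hf, e1, E_one] at k2
  have ai : (E φ a)⁻¹ = E φ a := inv_eq_of_mul_eq_one_left (a1.elim AS_sq AS_sq)
  have k3 : n * x * n⁻¹ * E φ a * (n * x * n⁻¹)⁻¹ * E φ a =
      n * (x * (n⁻¹ * E φ a * n⁻¹⁻¹ * x⁻¹ * (n⁻¹ * E φ a * n⁻¹⁻¹)⁻¹)) * n⁻¹ := by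
    nth_rewrite 2 [← ai]; group
  rw [k3] at k1 k2
  rw [conj_pow] at k2
  rw [h4 _ (mul_mem hx (hO _ (a1.imp (nm_mem (inv_mem n1)) (nm_mem (inv_mem n2))) _ (inv_mem hx)))
    (by simpa using k2)] at k1
  exact absurd (by simp) k1

variable {O O' : ℕ} (ho : Om φ O) (hO : O ∈ [o21, o45]) (ho' : Om (φ.comp τ) O')
  (hO' : O' ∈ [o21, o45])
include ho hO ho' hO'

theorem Conf.M0_le (C : Conf φ p s c d) : M0 ≤ BS φ := by
  have h := C.loc
  have tW : E φ tc' ∈ WS φ := ⟨52, by simp, t'_eq.symm⟩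
  have tM : E φ tc' ∈ M0 := C.AS_le hM (WS_le tW)
  have t2 : E φ tc' * E φ tc' = 1 := AS_sq (WS_le tW)
  have t1 : E φ tc' ≠ 1 := h.ne_one vt' (by decide)
  have hi : Isol (⟨_, tM⟩ : M0) := isol_of_commute
    (orderOf_eq_two_iff.2 ⟨Subtype.ext t2, fun e => t1 (congrArg Subtype.val e)⟩) fun w hw hc => by
      obtain ⟨g, rfl⟩ := isConj_iff.1 hw
      have hc' : E φ tc' * (g * E φ tc' * (g : G)⁻¹) = g * E φ tc' * (g : G)⁻¹ * E φ tc' :=
        congrArg Subtype.val hc.eq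
      refine Subtype.ext (show g * E φ tc' * (g : G)⁻¹ = E φ tc' from ?_)
      have wM : g * E φ tc' * (g : G)⁻¹ ∈ M0 := mul_mem (mul_mem g.2 tM) (inv_mem g.2)
      have w2 : g * E φ tc' * (g : G)⁻¹ * (g * E φ tc' * (g : G)⁻¹) = 1 := by
        rw [conj_mul, t2]; group
      obtain ⟨x, hx, h3⟩ := C.syl hM hle hy (X := M0 ⊓ BS φ) (fun a ha => ⟨C.S_le hM ha, ha.2⟩)
        inf_le_left (zpowers_le.2 ⟨wM, mem_BS.2 ⟨mem_CT.1 (hle wM), hc'.symm⟩⟩)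
        (isPGroup_zpowers_of_pow (k := 1) (by rw [pow_one, pow_two, w2]))
      have h4 := h.invS (h3 _ (mem_zpowers _)) (by rw [conj_mul, w2]; group)
      rw [show x * (g * E φ tc' * (g : G)⁻¹) * x⁻¹ = x * g * E φ tc' * (x * g)⁻¹ by group] at h4
      have hn : x * g ∈ M0 := mul_mem hx.1 g.2
      obtain ⟨k, hk, e⟩ : x * g * E φ tc' * (x * g)⁻¹ ∈ WS φ := h4.elim (h.iso ho hO (hle hn) tW)
        fun k => WS_tau (φ := φ) ▸ h.tau.iso ho' hO' (CT_tau (φ := φ) ▸ hle hn)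
          (WS_tau (φ := φ) ▸ tW) k
      simp only [List.mem_cons, List.not_mem_nil, or_false] at hk
      rcases hk with rfl | rfl | rfl | rfl
      · rw [A_zero] at e; exact absurd (conj_eq_one_iff.1 e.symm) t1
      · rw [← t_eq, eq_mul_inv_iff_mul_eq, ← (mem_CT.1 (hle hn)).eq, mul_right_inj,
          h.eq vt vt'] at e
        exact absurd e (by decide)
      · rw [← t'_eq] at e
        rw [show g * E φ tc' * (g : G)⁻¹ = x⁻¹ * (x * g * E φ tc' * (x * g)⁻¹) * x by group, ← e,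
          mul_assoc, ← (BS_comm hx.2 tW).eq, inv_mul_cancel_left]
      · refine absurd e.symm ?_
        rw [show 22 = 34 ^^^ 52 by decide, ← A_mul (by norm_num) (by norm_num), ← t_eq, ← t'_eq]
        exact C.noswap hM hle hy hn
  set Q := (Cfsg.pPrimeCore 2 M0).map M0.subtype with hQ
  have h4 : ∀ x ∈ Q, x ^ 4 = 1 → x = 1 := by
    rintro _ ⟨x, hx, rfl⟩ e
    refine eq_one_of_odd_of_two_pow (a := 2) (odd_card_pPrimeCore (G := M0)) ?_ e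
    exact congrArg (fun y : Cfsg.pPrimeCore 2 M0 => ((y : M0) : G))
      (pow_card_eq_one' (x := (⟨x, hx⟩ : Cfsg.pPrimeCore 2 M0)))
  have hn : ∀ a, a ∈ AS φ ∨ a ∈ AS (φ.comp τ) → ∀ x ∈ Q, a * x * a⁻¹ ∈ Q := by
    rintro a ha _ ⟨x, hx, rfl⟩
    have : a ∈ M0 := ha.elim (fun k => C.AS_le hM k) fun k =>
      C.symm.AS_le (M0 := M0) (by rw [CT_tau]; exact hM) k
    exact ⟨_, (inferInstance : (Cfsg.pPrimeCore 2 M0).Normal).conj_mem x hx ⟨a, this⟩, rfl⟩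
  have p1 := C.acts (x := 12) (by decide)
  rw [show rl (l4 d) 12 = rl 0 12 by simp [rl, bif'_eq]] at p1
  have p2 := (C.symm.acts (x := pi 12) (by decide)).mem
  rw [ltr_pi] at p2
  have v1 : vH x12 = true := by decide +kernel
  have p3 := p1.mul (acts_mu (φ := φ) v1 (by decide +kernel)).1
  have h5 := eq_one_of_four (O := Q) (A_sq (φ := φ) (k := 4) (by norm_num))
    (A_sq (φ := φ) (k := 32) (by norm_num)) (hn _ (.inl (A_mem (by norm_num))))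
    (hn _ (.inl (A_mem (by norm_num))))
    (h.odd h4 hn (one_mem _) (one_mem _) (by rw [A_four]; group))
    (h.odd h4 hn p1.mem p2 (by
      rw [p1.2 32 (by norm_num), show ap6 (rl 0 12) 32 = 4 by decide +kernel, A_four]))
    (h.odd h4 hn p3.mem (mul_mem p2 ((h.memT v1).2 (by decide +kernel)).2.2) (by
      rw [A_mul (by norm_num) (by norm_num), p3.2 _ (by decide),
        show ap6 (cmp (rl 0 12) (mu x12)) (4 ^^^ 32) = 4 by decide +kernel, A_four]))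
  intro g hg
  have := h5 _ ⟨_, zstar (Subtype.ext t2) hi ⟨g, hg⟩, rfl⟩
  refine mem_BS.2 ⟨mem_CT.1 (hle hg), Commute.symm ?_⟩
  have e : E φ tc' * g * (E φ tc')⁻¹ * g⁻¹ = 1 := this
  exact mul_inv_eq_iff_eq_mul.1 (mul_inv_eq_one.1 e)

end M0

theorem Conf.sylB (C : Conf φ p s c d) {O O' : ℕ} (ho : Om φ O) (hO : O ∈ [o21, o45])
    (ho' : Om (φ.comp τ) O') (hO' : O' ∈ [o21, o45]) :
    (∀ g ∈ CT φ, g ∈ BS φ ∨ E φ yc * g ∈ BS φ) ∧
      ∀ f ∈ BS φ, f ^ 4 = 1 → ∃ x ∈ BS φ, x * f * x⁻¹ ∈ SS φ := by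
  obtain ⟨M0, hle, hy, hM⟩ := C.loc.exM0
  have h1 := C.M0_le hM hle hy ho hO ho' hO'
  have h2 : ∀ g ∈ CT φ, g ∈ M0 ∨ E φ yc * g ∈ M0 := fun g hg => by
    rw [hM _ C.loc.y_mem.2 _ hg]; tauto
  refine ⟨fun g hg => (h2 g hg).imp (fun k => h1 k) fun k => h1 k, fun f hf e => ?_⟩
  obtain ⟨x, hx, k⟩ := C.syl hM hle hy (X := BS φ) inf_le_right (fun g hg =>
    (h2 g (BS_le hg)).resolve_right fun k => C.loc.y_out ((mul_mem_cancel_right hg).1 (h1 k)))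
    (zpowers_le.2 hf) (isPGroup_zpowers_of_pow (k := 2) e)
  exact ⟨x, hx, k _ (mem_zpowers _)⟩

end

end CfsgH9.Hd
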