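/-
The group is generated by the three local subgroups.
-/
import Cfsg.Agent.H9.HdH

set_option autoImplicit false
set_option maxRecDepth 100000
set_option linter.style.haveILetI false

namespace CfsgH9.Hd

open CfsgH5 CfsgH6 CfsgH4 CfsgH5.KT CfsgH9.J1 Subgroup

noncomputable section

variable {G : Type*} [Group G] {φ : H0 →* G} {p s : G} {c d : ℕ} {K : Subgroup G}

/-- conjugate in `K` to one of the two involutions -/
def Fu (K : Subgroup G) (φ : H0 →* G) (g : G) : Prop :=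
  ∃ k ∈ K, k * g * k⁻¹ = E φ zc ∨ k * g * k⁻¹ = E φ tc

theorem Fu.conj {k g g' : G} (h : Fu K φ g') (hk : k ∈ K) (e : k * g * k⁻¹ = g') : Fu K φ g := by
  obtain ⟨l, hl, f⟩ := h
  refine ⟨l * k, mul_mem hl hk, ?_⟩
  rwa [show l * k * g * (l * k)⁻¹ = l * (k * g * k⁻¹) * l⁻¹ by group, e]

theorem ltr_mem (hH : φ.range ≤ K) (hp : p ∈ K) (hs : s ∈ K) (x : ℕ) : ltr φ p s x ∈ K := by
  rw [ltr]; split_ifs
  exacts [hp, hs, hH (E_mem _)]

theorem Conf.fuA (C : Conf φ p s c d) (hH : φ.range ≤ K) (hp : p ∈ K) (hs : s ∈ K) {k : ℕ}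
    (hk : k < 64) (k0 : k ≠ 0) : Fu K φ (A φ k) := by
  have m := ltr_mem hH hp hs
  have st : ∀ {x k l : ℕ}, tb 0x3ffe x = true → k < 64 → (∀ d ∈ [0, 3], ap6 (rl (l4 d) x) k = l) →
      Fu K φ (A φ l) → Fu K φ (A φ k) := fun hx hk e f =>
    f.conj (m _) (by rw [(C.acts hx).2 _ hk, e d C.hd])
  have f4 : Fu K φ (A φ 4) := ⟨1, one_mem _, .inl (by rw [A_four]; group)⟩
  have f34 : Fu K φ (A φ 34) := ⟨1, one_mem _, .inr (by rw [t_eq]; group)⟩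
  have f2 := st (x := 13) (k := 2) (by decide) (by norm_num) (by decide +kernel) f4
  have f32 := st (x := 12) (k := 32) (by decide) (by norm_num) (by decide +kernel) f4
  have f16 := st (x := 12) (k := 16) (by decide) (by norm_num) (by decide +kernel) f2
  have f20 := st (x := 12) (k := 20) (by decide) (by norm_num) (by decide +kernel) f34
  have g : ∀ k, k < 64 → k ≠ 0 → (cl1 k = 5 → Fu K φ (A φ 17)) → Fu K φ (A φ k) :=
    fun k hk k0 k5 => by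
      obtain ⟨-, -, -, -, -, -, -, s1, s2, -, e | ⟨s3, s4⟩⟩ := sA1 hk
      · exact absurd e k0
      refine Fu.conj ?_ (hH (E_mem _)) (E_conj s1 (va1 hk) (vrep _ s2) s4)
      rw [(by decide +kernel : ∀ i, i < 7 → rep i = a1 (nthD [4, 2, 32, 16, 20, 17, 34] 0 i)) _ s3]
      generalize cl1 k = i at s3 k5
      interval_cases i
      exacts [f4, f2, f32, f16, f20, k5 rfl, f34]
  refine g k hk k0 fun _ => ?_
  have a := C.acts (x := 13) (by decide)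
  have b := a.mul (C.acts (x := 10) (by decide))
  rcases (by decide +kernel : ∀ d ∈ [0, 3], ∃ L ∈ [rl (l4 d) 13, cmp (rl (l4 d) 13) (rl (l4 d) 10)],
    ap6 L 17 ≠ 0 ∧ cl1 (ap6 L 17) ≠ 5) d C.hd with ⟨L, hL, e1, e2⟩
  have := g _ (ap6_lt L 17) e1 fun e => absurd e e2
  simp only [List.mem_cons, List.not_mem_nil, or_false] at hL
  rcases hL with rfl | rfl
  exacts [this.conj (m _) (a.2 17 (by norm_num)),
    this.conj (mul_mem (m _) (m _)) (b.2 17 (by norm_num))]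

variable [Finite G]

theorem Conf.fu (C : Conf φ p s c d) (hH : φ.range ≤ K) (hp : p ∈ K) (hs : s ∈ K) {g : G}
    (hg : g ∈ K) (h2 : g * g = 1) (h1 : g ≠ 1) : Fu K φ g := by
  obtain ⟨m, hm, e⟩ := (C.loc.snT.mono (fun x hx => hH hx.1) le_top).conj_elt hg (k := 1)
    (by rw [pow_one, pow_two, h2])
  obtain ⟨f, hf, e1⟩ := ex_E e.1
  obtain ⟨k, hk, i, hi, e2, -⟩ := C.loc.cls hf (by rw [e1, conj_mul, h2]; group)
    (by rw [e1]; exact fun e => h1 (conj_eq_one_iff.1 e))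
  refine Fu.conj (Fu.conj ?_ (hH hk) e2) hm e1.symm
  rcases (by decide +kernel : ∀ i, i < 8 → (∃ k, k < 64 ∧ k ≠ 0 ∧ rep i = a1 k) ∨ rep i = a2 17) i hi
    with ⟨k, k1, k2, e⟩ | e <;> rw [e]
  · exact C.fuA hH hp hs k1 k2
  · have := C.symm.fuA (K := K) (by rwa [range_tau]) hs hp (k := 17) (by norm_num) (by norm_num)
    rwa [Fu, z_tau, t_tau, A_tau (by norm_num)] at this

theorem Conf.zc (C : Conf φ p s c d) (hH : φ.range ≤ K) (hp : p ∈ K) (hs : s ∈ K) (g : G)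
    (hg : g * E φ zc * g⁻¹ ∈ K) : g ∈ K := by
  obtain ⟨k, hk, e | e⟩ := C.fu hH hp hs hg (by rw [conj_mul, z_sq]; group)
    fun e => C.loc.z_ne (conj_eq_one_iff.1 e)
  · refine (mul_mem_cancel_left hk).1 (hH (C.loc.cen _ (mul_inv_eq_iff_eq_mul.1 ?_)))
    rw [← e]; nth_rewrite 2 [← e]; group
  · exact absurd (e ▸ isConj_conj k (isConj_iff.2 ⟨g, rfl⟩)) C.loc.zt

section B

variable (hB : ∀ f ∈ BS φ, f ^ 4 = 1 → ∃ x ∈ BS φ, x * f * x⁻¹ ∈ SS φ)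
include hB

theorem Loc.sqW (h : Loc φ) {f : G} (hf : f ∈ BS φ) (h2 : f * f ∈ WS φ) : f * f = 1 := by
  obtain ⟨x, hx, e⟩ := hB f hf (by
    rw [← AS_sq (WS_le h2)]; simp [pow_succ, mul_assoc])
  obtain ⟨c, hc, h1, e1⟩ := h.exT e.1
  obtain ⟨-, a, b⟩ := (h.memS hc).1 (e1 ▸ e)
  have := (h.sq1 hc).1 (((sT1 h1 a).2.2.2.1 b).2.1 (h.memW (vsqr hc) (by
    rwa [E_sqr hc, e1, conj_mul, (BS_comm hx h2).eq, mul_inv_cancel_right])))
  rwa [e1, conj_mul, conj_eq_one_iff] at this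

theorem Loc.exq (h : Loc φ) (k : ℕ) : ∀ f ∈ BS φ, f ^ 2 ^ k = 1 → f ∉ WS φ →
    ∃ j : ℕ, f ^ j ∉ WS φ ∧ f ^ j * f ^ j = 1 := by
  induction k with
  | zero => intro f _ e h1; exact absurd ((by simpa using e : f = 1) ▸ one_mem _) h1
  | succ k ih =>
    intro f hf e h1
    by_cases h2 : f * f ∈ WS φ
    · exact ⟨1, by simpa using h1, by simpa using h.sqW hB hf h2⟩
    · obtain ⟨j, a, b⟩ := ih (f ^ 2) (pow_mem hf 2) (by rwa [← pow_mul, ← pow_succ']) (by rwa [pow_two])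
      exact ⟨2 * j, by rwa [pow_mul], by rwa [pow_mul]⟩

omit hB [Finite G] in
theorem Om.cos {O : ℕ} (ho : Om φ O) (hO : O ∈ [o21, o45]) {u : G} (hu : u ∈ AS φ) (h1 : u ∉ WS φ) :
    ∃ w ∈ WS φ, IsConj (E φ zc) (u * w) := by
  obtain ⟨k, hk, rfl⟩ := hu
  have := (allLt_iff _ _).1 ((allL_iff _ _).1 chkCos O hO) k hk
  simp only [bor_eq, Bool.or_eq_true, meL_iff, anyL_iff] at this
  obtain ⟨w, hw, e⟩ := this.resolve_left fun e => h1 ⟨k, e, rfl⟩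
  exact ⟨_, ⟨w, hw, rfl⟩, A_mul (φ := φ) hk (W_lt w hw) ▸ (ho _ (xor_lt hk (W_lt w hw))).1 e⟩

variable {O O' : ℕ} (ho : Om φ O) (hO : O ∈ [o21, o45]) (ho' : Om (φ.comp τ) O')
  (hO' : O' ∈ [o21, o45])
include ho hO ho' hO'

theorem Loc.cosz (h : Loc φ) {f : G} (hf : f ∈ BS φ) (h2 : f * f = 1) (h1 : f ∉ WS φ) :
    ∃ w ∈ WS φ, IsConj (E φ zc) (f * w) := by
  obtain ⟨x, hx, e⟩ := hB f hf (by rw [show 4 = 2 * 2 from rfl, pow_mul, pow_two f, h2, one_pow])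
  have n : x * f * x⁻¹ ∉ WS φ := fun k => h1 (by
    have := (BS_comm hx k).eq
    rw [show x * f * x⁻¹ * x = x * f by group, mul_right_inj] at this
    rwa [← this])
  obtain ⟨w, hw, e1⟩ : ∃ w ∈ WS φ, IsConj (E φ zc) (x * f * x⁻¹ * w) :=
    (h.invS e (by rw [conj_mul, h2]; group)).elim (fun k => ho.cos hO k n) fun k => by
      have := ho'.cos hO' k (by rwa [WS_tau])
      rwa [WS_tau, z_tau] at this
  refine ⟨w, hw, ?_⟩
  have := isConj_conj x⁻¹ e1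
  rwa [show x⁻¹ * (x * f * x⁻¹ * w) * x⁻¹⁻¹ = f * (x⁻¹ * (w * x)) by group, ← (BS_comm hx hw).eq,
    inv_mul_cancel_left] at this

variable (hH : φ.range ≤ K) (hz : ∀ g, g * E φ zc * g⁻¹ ∈ K → g ∈ K)
include hH hz

theorem Loc.cb (h : Loc φ) {f g : G} (hf : f ∈ BS φ) (hK : f ∈ K) (h2 : f * f = 1) (h1 : f ∉ WS φ)
    (hg : g ∈ BS φ) (e : g * f * g⁻¹ ∈ K) : g ∈ K := by
  obtain ⟨w, hw, e1⟩ := h.cosz hB ho hO ho' hO' hf h2 h1
  obtain ⟨k, e2⟩ := isConj_iff.1 e1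
  have wK := hH (AS_le (WS_le hw))
  refine (mul_mem_cancel_right (hz k (e2 ▸ mul_mem hK wK))).1 (hz _ ?_)
  rw [show g * k * E φ zc * (g * k)⁻¹ = g * (k * E φ zc * k⁻¹) * g⁻¹ by group, e2, ← conj_mul,
    (BS_comm hg hw).eq, mul_inv_cancel_right]
  exact mul_mem e wK

theorem Loc.dih (h : Loc φ) {u v : G} (hu : u ∈ BS φ) (uK : u ∈ K) (u2 : u * u = 1) (u1 : u ∉ WS φ)
    (hv : v ∈ BS φ) (vK : v ∉ K) (v2 : v * v = 1) :
    ∃ e ∈ WS φ, ∃ w ∈ BS φ, w * w = 1 ∧ w * (u * e) = v * w := by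
  obtain ⟨m, k, hm, e⟩ := exists_odd_pow (u * v)
  have hf : (u * v) ^ m ∈ WS φ := by
    by_contra n
    obtain ⟨j, a, b⟩ := h.exq hB k _ (pow_mem (mul_mem hu hv) m) e n
    have j1 : ((u * v) ^ m) ^ j ∈ zpowers (u * v) := pow_mem (pow_mem (mem_zpowers _) m) j
    have j2 : ((u * v) ^ m) ^ j ∈ BS φ := pow_mem (pow_mem (mul_mem hu hv) m) j
    refine vK (h.cb hB ho hO ho' hO' hH hz j2 ?_ b a hv ?_) <;>
      [skip; rw [← (dih_commute_right u2 v2 j1 b).eq, mul_inv_cancel_right]] <;>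
      exact h.cb hB ho hO ho' hO' hH hz hu uK u2 u1 j2
        (by rwa [(dih_commute_left u2 v2 j1 b).eq, mul_inv_cancel_right])
  have f2 := AS_sq (WS_le hf)
  have c1 := BS_comm hu hf
  have c2 := BS_comm hv hf
  have h1 : (u * (u * v) ^ m * v) ^ m = 1 := by
    rw [c1.eq, mul_assoc, (c1.mul_left c2).symm.mul_pow]
    generalize (u * v) ^ m = f at f2
    obtain ⟨j, rfl⟩ := hm
    rw [← pow_succ, show 2 * j + 1 + 1 = 2 * (j + 1) by ring, pow_mul, pow_two, f2, one_pow]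
  have hB' : u * (u * v) ^ m ∈ BS φ := mul_mem hu (pow_mem (mul_mem hu hv) m)
  obtain ⟨j, -, a, b⟩ := exists_mid (a := u * (u * v) ^ m) (b := v) (by
    rw [mul_assoc, ← mul_assoc _ u, ← c1.eq, mul_assoc, f2, mul_one, u2]) v2
    (hm.of_dvd_nat (orderOf_dvd_of_pow_eq_one h1))
  exact ⟨_, hf, _, mul_mem (pow_mem (mul_mem hB' hv) j) hB', a, b⟩

theorem Loc.BS_le_K (h : Loc φ) : BS φ ≤ K := fun b hb => by
  by_contra bK
  have zB : E φ zc ∈ BS φ := AS_le_BS (A_four (φ := φ) ▸ A_mem (by norm_num))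
  have vK : b * E φ zc * b⁻¹ ∉ K := fun k => bK (hz b k)
  have vB : b * E φ zc * b⁻¹ ∈ BS φ := mul_mem (mul_mem hb zB) (inv_mem hb)
  have v2 : b * E φ zc * b⁻¹ * (b * E φ zc * b⁻¹) = 1 := by rw [conj_mul, z_sq]; group
  generalize b * E φ zc * b⁻¹ = v at vK vB v2
  have vi : v⁻¹ = v := inv_eq_of_mul_eq_one_left v2
  set D := K ⊓ BS φ ⊓ K.comap (MulAut.conj v).toMonoidHom
  have k1 : ∀ k, k < 64 → k ∉ [0, 34, 52, 22] → ∃ e ∈ [0, 34, 52, 22], ∃ g ∈ D, ∃ L, Acts φ g L ∧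
      ap6 L 34 = 34 ∧ ap6 L 52 = 52 ∧ ap6 L (k ^^^ e) = 4 := fun k hk k0 => by
    obtain ⟨_, ⟨e, he, rfl⟩, w, hw, w2, e1⟩ := h.dih hB ho hO ho' hO' hH hz (AS_le_BS (A_mem hk))
      (hH (AS_le (A_mem hk))) (A_sq hk)
      (fun ⟨l, hl, e⟩ => k0 ((h.A_eq (W_lt l hl) hk).1 e ▸ hl))
      (v := v * E φ zc * v⁻¹) (mul_mem (mul_mem vB zB) (inv_mem vB)) (fun k => vK (hz v k))
      (by rw [conj_mul, z_sq]; group)
    have hk' := xor_lt hk (W_lt e he)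
    rw [A_mul hk (W_lt e he)] at e1
    have e2 : v⁻¹ * w * A φ (k ^^^ e) * (v⁻¹ * w)⁻¹ = E φ zc := by rw [mul_assoc v⁻¹, e1]; group
    have gB : v⁻¹ * w ∈ BS φ := mul_mem (inv_mem vB) hw
    have gK : (v⁻¹ * w)⁻¹ ∈ K := hz _ (by
      rw [← e2, show (v⁻¹ * w)⁻¹ * (v⁻¹ * w * A φ (k ^^^ e) * (v⁻¹ * w)⁻¹) * (v⁻¹ * w)⁻¹⁻¹ =
        A φ (k ^^^ e) by group]
      exact hH (AS_le (A_mem hk')))
    obtain ⟨n, hn, n1, n2⟩ := h.ctrl AS_le_BS gB (A_mem hk') (e2 ▸ A_four (φ := φ) ▸ A_mem (by norm_num))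
    obtain ⟨f, hf, e3⟩ := h.ex (g := v⁻¹ * w * n⁻¹) (mul_inv_eq_iff_eq_mul.1 (by
      nth_rewrite 1 [← e2, ← n2]; rw [← e2]; group))
    have gN : v⁻¹ * w ∈ NA φ := (mul_mem_cancel_right (inv_mem n1)).1 (e3 ▸ ((h.memT hf).2
      (h.inT_of hf (e3 ▸ mem_CT.1 (BS_le (mul_mem gB (inv_mem hn)))))).2.1)
    obtain ⟨L, hL⟩ := exists_acts gN
    have fx : ∀ l ∈ [0, 34, 52, 22], ap6 L l = l := fun l hl => (h.A_eq (ap6_lt _ _) (W_lt l hl)).1 (by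
      rw [← hL.2 l (W_lt l hl), (BS_comm gB ⟨l, hl, rfl⟩).eq, mul_inv_cancel_right])
    refine ⟨e, he, _, ⟨⟨(inv_mem_iff.1 gK :), gB⟩, ?_⟩, L, hL, fx _ (by simp), fx _ (by simp),
      (h.A_eq (ap6_lt _ _) (by norm_num)).1 (by rw [← hL.2 _ hk', e2, A_four])⟩
    show v * (v⁻¹ * w) * v⁻¹ ∈ K
    rwa [mul_inv_rev, inv_inv, inv_eq_of_mul_eq_one_left w2, ← vi, ← mul_inv_cancel_left v w] at gK
  have k2 : ∀ {g L}, Acts φ g L → ap6 L 34 = 34 → ap6 L 52 = 52 → ∀ k, k < 64 →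
      Hd.pat O (ap6 L k) k = true := fun {g L} a e1 e2 k hk => by
    have e3 : ap6 L 22 = 22 := by rw [show 22 = 34 ^^^ 52 by decide, ap6_xor, e1, e2]
    rw [Hd.pat, force_eq, allL_iff]
    intro w hw
    have : ap6 L w = w := by
      simp only [List.mem_cons, List.not_mem_nil, or_false] at hw
      rcases hw with rfl | rfl | rfl | rfl
      exacts [ap6_zero L, e1, e2, e3]
    rw [beq_true_iff, xor_def, xor_def, ← ho.bit a (xor_lt hk (W_lt w hw)), ap6_xor, this]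
  obtain ⟨e, he, g, hg, M, a, a1, a2, a3⟩ := k1 1 (by norm_num) (by decide)
  simp only [List.mem_cons (b := o21), List.mem_singleton] at hO
  rcases hO with rfl | rfl
  · have := k2 a a1 a2 _ (xor_lt (k := 1) (by norm_num) (W_lt e he))
    rw [a3, (by decide +kernel : ∀ e ∈ [0, 34, 52, 22], Hd.pat o21 4 (1 ^^^ e) = false) e he] at this
    cases this
  obtain ⟨e', he', g', hg', L, b, b1, b2, b3⟩ := k1 2 (by norm_num) (by decide)
  have k3 : ∀ {g L}, Acts φ g L → ap6 L 34 = 34 → ap6 L 52 = 52 → L ∈ gam := fun {g L} a e1 e2 => by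
    have := chkGam
    simp only [allLt_iff, bimp_iff, band_eq, Bool.and_eq_true, meL_iff, xor_def] at this
    have q := k2 a e1 e2
    have := this _ (ap6_lt L 4) (q 4 (by norm_num)) _ (ap6_lt L 2)
      ⟨q 2 (by norm_num), ap6_xor L 2 4 ▸ q (2 ^^^ 4) (by decide)⟩ _ (ap6_lt L 1)
      ⟨q 1 (by norm_num), ap6_xor L 1 4 ▸ q (1 ^^^ 4) (by decide), ap6_xor L 1 2 ▸ q (1 ^^^ 2) (by decide)⟩ _
      (ap6_lt L 8) ⟨q 8 (by norm_num), ap6_xor L 1 8 ▸ q (1 ^^^ 8) (by decide),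
        ap6_xor L 4 8 ▸ q (4 ^^^ 8) (by decide), ap6_xor L 2 8 ▸ q (2 ^^^ 8) (by decide)⟩
    have e3 : ap6 L 22 = 22 := by rw [show 22 = 34 ^^^ 52 by decide, ap6_xor, e1, e2]
    nth_rewrite 1 [← e3, ← e1] at this
    rwa [← ap6_xor, ← ap6_xor, ← ap6_xor, show 22 ^^^ 2 ^^^ 4 = 16 by decide,
      show 34 ^^^ 2 = 32 by decide, ap6_1, ap6_2, ap6_4, ap6_8, ap6_16, ap6_32, pk_dg a.1] at this
  have k4 : ∀ {g L}, g ∈ D → Acts φ g L → ord2 L = true → False := fun {g L} hg a e => by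
    simp only [ord2, force_eq, band_eq, bnot_eq, Bool.and_eq_true, Bool.not_eq_true',
      ← Bool.not_eq_true, beq_true_iff] at e
    have := AS_sq ((e.2 ▸ a.mul a).cen h)
    obtain ⟨j, j1, j2⟩ := h.exq hB 2 g hg.1.2 (by rw [← this]; simp [pow_succ, mul_assoc])
      fun k => by simpa [a.uniq h (acts_of_mem (WS_le k))] using e.1
    have := pow_mem hg j
    exact vK (h.cb hB ho (by simp) ho' hO' hH hz this.1.2 this.1.1 j2 j1 vB this.2)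
  have := chkPair
  simp only [allL_iff, bimp_iff, anyL_iff, force_eq, bor_eq, Bool.or_eq_true, beq_true_iff] at this
  have g1 := mul_mem hg' hg
  have g2 := mul_mem hg' g1
  rcases this L (k3 b b1 b2) ⟨e', he', b3⟩ M (k3 a a1 a2) ⟨e, he, a3⟩ with k | k | k | k | k | k
  exacts [k4 hg a k, k4 g1 (b.mul a) k, k4 g2 (b.mul (b.mul a)) k,
    k4 (mul_mem g1 hg) ((b.mul a).mul a) k, k4 (mul_mem g2 hg) ((b.mul (b.mul a)).mul a) k,
    k4 (mul_mem g2 g1) ((b.mul (b.mul a)).mul (b.mul a)) k]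

end B

theorem Conf.top [IsSimpleGroup G] (C : Conf φ p s c d) (hH : φ.range ≤ K) (hp : p ∈ K)
    (hs : s ∈ K) : K = ⊤ := by
  have h := C.loc
  obtain ⟨O, hO, ho⟩ : ∃ O ∈ [o21, o45], Om φ O :=
    h.fus.2.2.elim (fun k => ⟨_, by simp, k⟩) fun k => ⟨_, by simp, k⟩
  obtain ⟨O', hO', ho'⟩ : ∃ O ∈ [o21, o45], Om (φ.comp τ) O :=
    h.tau.fus.2.2.elim (fun k => ⟨_, by simp, k⟩) fun k => ⟨_, by simp, k⟩
  obtain ⟨h1, h2⟩ := C.sylB ho hO ho' hO'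
  have h3 := h.BS_le_K h2 ho hO ho' hO' hH (C.zc hH hp hs)
  have h4 : ∀ g, Commute g (E φ tc) → g ∈ K := fun g hg => (h1 g (mem_CT.2 hg)).elim (fun k => h3 k)
    fun k => (mul_mem_cancel_left (hH (E_mem _))).1 (h3 k)
  refine eq_top_of_two z_sq (by rw [t_eq, A_sq (by norm_num)]) h.zt h4 (fun e he e2 e1 g hg => ?_)
    (C.zc hH hp hs)
  obtain ⟨k, hk, f⟩ := C.fu hH hp hs he e2 e1
  have := conj_commute k hg
  have : k * g * k⁻¹ ∈ K := f.elim (fun f => hH (h.cen _ (f ▸ this))) fun f => h4 _ (f ▸ this)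
  exact (mul_mem_cancel_left hk).1 ((mul_mem_cancel_right (inv_mem hk)).1 this)

end

end CfsgH9.Hd
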