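/-
Relator tables given by explicit lists.
-/
import Cfsg.Agent.H5.KQ

set_option autoImplicit false

namespace CfsgH9.Hd

open CfsgH5 CfsgH5.KT

noncomputable section

/-- entry of a list -/
def nthL {α : Type} (l : List α) (d : α) : ℕ → α :=
  List.rec (motive := fun _ => ℕ → α) (fun _ => d)
    (fun a _ ih i => Nat.rec (motive := fun _ => α) a (fun j _ => ih j) i) l

theorem nthL_mem {α : Type} (l : List α) (d : α) : ∀ i, nthL l d i = d ∨ nthL l d i ∈ l := by
  induction l with
  | nil => intro i; left; rfl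
  | cons a l ih =>
    intro i
    cases i with
    | zero => right; exact List.mem_cons_self
    | succ i => exact (ih i).imp_right (List.mem_cons_of_mem _)

/-- the relator table -/
def rtD (D : List (List (List ℕ))) (x c : ℕ) : List ℕ := nthL (nthL D [] x) [x] c

/-- the relators of a table -/
def relsD (D : List (List (List ℕ))) : List (List ℕ) :=
  (List.range 16).flatMap fun x => (nthL D [] x).map (x :: ·)

variable {G : Type*} [Group G] {g : ℕ → G}

theorem let_D {D : List (List (List ℕ))} {L : ℕ} (hL : L < 16) (hs : ∀ x, g x * g x = 1)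
    (hr : ∀ l ∈ relsD D, wl g l = 1) (hw : allL (relsD D) (wdb L) = true) : Let g (rtD D) L := by
  refine ⟨hs, fun x c h1 h2 => ?_⟩
  rcases nthL_mem (nthL D [] x) [x] c with e | e
  · rw [rtD, e]; exact ⟨by simpa [Wd] using ⟨h1, h2⟩, by simpa [wl] using hs x⟩
  · have : x :: rtD D x c ∈ relsD D :=
      List.mem_flatMap.2 ⟨x, List.mem_range.2 (by omega), List.mem_map.2 ⟨_, e, rfl⟩⟩
    exact ⟨fun y hy => wd_of ((allL_iff _ _).1 hw _ this) y (List.mem_cons_of_mem _ hy),
      by rw [← wl_cons, hr _ this]⟩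

theorem cox_zero (hs : ∀ x, g x * g x = 1) : Cox g 0 :=
  ⟨hs, fun x c _ _ => by simp [ap]⟩

end

end CfsgH9.Hd
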