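/-
Checks of coset tables (generated).
-/
import Cfsg.Agent.H9.HdTb

set_option autoImplicit false
set_option maxRecDepth 100000
set_option linter.all false
set_option Elab.async false

namespace CfsgH9.Hd

open CfsgH5 CfsgH5.KT

noncomputable section

theorem kkB2_0 : allIco 0 600 kcB2 = true := by decide +kernel
theorem kkB2_600 : allIco 600 1200 kcB2 = true := by decide +kernel
theorem kkB2_1200 : allIco 1200 1800 kcB2 = true := by decide +kernel
theorem kkB2_1800 : allIco 1800 2400 kcB2 = true := by decide +kernel
theorem kkB2_2400 : allIco 2400 3000 kcB2 = true := by decide +kernel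
theorem kkB2_3000 : allIco 3000 3600 kcB2 = true := by decide +kernel
theorem kkB2_3600 : allIco 3600 4200 kcB2 = true := by decide +kernel
theorem kkB2_4200 : allIco 4200 4800 kcB2 = true := by decide +kernel
theorem kkB2_4800 : allIco 4800 5400 kcB2 = true := by decide +kernel
theorem kkB2_5400 : allIco 5400 6000 kcB2 = true := by decide +kernel
theorem kkB2_6000 : allIco 6000 6600 kcB2 = true := by decide +kernel
theorem kkB2_6600 : allIco 6600 7200 kcB2 = true := by decide +kernel

end

end CfsgH9.Hd
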