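/-
Checks of coset tables (generated).
-/
import Cfsg.Agent.H9.HdTb

set_option autoImplicit false
set_option maxRecDepth 100000
set_option linter.all false
set_option Elab.async false

namespace CfsgH9.Hd

open CfsgH5 CfsgH5.KT

noncomputable section

theorem kkB2_7200 : allIco 7200 7800 kcB2 = true := by decide +kernel
theorem kkB2_7800 : allIco 7800 8400 kcB2 = true := by decide +kernel
theorem kkB2_8400 : allIco 8400 9000 kcB2 = true := by decide +kernel
theorem kkB2_9000 : allIco 9000 9600 kcB2 = true := by decide +kernel
theorem kkB2_9600 : allIco 9600 10200 kcB2 = true := by decide +kernel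
theorem kkB2_10200 : allIco 10200 10800 kcB2 = true := by decide +kernel
theorem kkB2_10800 : allIco 10800 11400 kcB2 = true := by decide +kernel
theorem kkB2_11400 : allIco 11400 12000 kcB2 = true := by decide +kernel
theorem kkB2_12000 : allIco 12000 12600 kcB2 = true := by decide +kernel
theorem kkB2_12600 : allIco 12600 13200 kcB2 = true := by decide +kernel
theorem kkB2_13200 : allIco 13200 13800 kcB2 = true := by decide +kernel
theorem kkB2_13800 : allIco 13800 14400 kcB2 = true := by decide +kernel

end

end CfsgH9.Hd
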