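/-
Checks of coset tables (generated).
-/
import Cfsg.Agent.H9.HdTb

set_option autoImplicit false
set_option maxRecDepth 100000
set_option linter.all false
set_option Elab.async false

namespace CfsgH9.Hd

open CfsgH5 CfsgH5.KT

noncomputable section

theorem kkB2_14400 : allIco 14400 15000 kcB2 = true := by decide +kernel
theorem kkB2_15000 : allIco 15000 15600 kcB2 = true := by decide +kernel
theorem kkB2_15600 : allIco 15600 16200 kcB2 = true := by decide +kernel
theorem kkB2_16200 : allIco 16200 16800 kcB2 = true := by decide +kernel
theorem kkB2_16800 : allIco 16800 17400 kcB2 = true := by decide +kernel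
theorem kkB2_17400 : allIco 17400 18000 kcB2 = true := by decide +kernel
theorem kkB2_18000 : allIco 18000 18600 kcB2 = true := by decide +kernel
theorem kkB2_18600 : allIco 18600 19200 kcB2 = true := by decide +kernel
theorem kkB2_19200 : allIco 19200 19800 kcB2 = true := by decide +kernel
theorem kkB2_19800 : allIco 19800 20400 kcB2 = true := by decide +kernel
theorem kkB2_20400 : allIco 20400 21000 kcB2 = true := by decide +kernel
theorem kkB2_21000 : allIco 21000 21600 kcB2 = true := by decide +kernel

end

end CfsgH9.Hd
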