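/-
Checks of coset tables (generated).
-/
import Cfsg.Agent.H9.HdTb

set_option autoImplicit false
set_option maxRecDepth 100000
set_option linter.all false
set_option Elab.async false

namespace CfsgH9.Hd

open CfsgH5 CfsgH5.KT

noncomputable section

theorem kkB2_21600 : allIco 21600 22200 kcB2 = true := by decide +kernel
theorem kkB2_22200 : allIco 22200 22800 kcB2 = true := by decide +kernel
theorem kkB2_22800 : allIco 22800 23400 kcB2 = true := by decide +kernel
theorem kkB2_23400 : allIco 23400 24000 kcB2 = true := by decide +kernel
theorem kkB2_24000 : allIco 24000 24600 kcB2 = true := by decide +kernel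
theorem kkB2_24600 : allIco 24600 25200 kcB2 = true := by decide +kernel
theorem kkB2_25200 : allIco 25200 25800 kcB2 = true := by decide +kernel
theorem kkB2_25800 : allIco 25800 26400 kcB2 = true := by decide +kernel
theorem kkB2_26400 : allIco 26400 27000 kcB2 = true := by decide +kernel
theorem kkB2_27000 : allIco 27000 27600 kcB2 = true := by decide +kernel
theorem kkB2_27600 : allIco 27600 28200 kcB2 = true := by decide +kernel
theorem kkB2_28200 : allIco 28200 28800 kcB2 = true := by decide +kernel
theorem kkB2_28800 : allIco 28800 29155 kcB2 = true := by decide +kernel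

end

end CfsgH9.Hd
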