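/-
Checks of coset tables (generated).
-/
import Cfsg.Agent.H9.HdTa
import Cfsg.Agent.H9.HdTc0
import Cfsg.Agent.H9.HdTc1
import Cfsg.Agent.H9.HdTc2
import Cfsg.Agent.H9.HdTc3

set_option autoImplicit false
set_option maxRecDepth 100000
set_option linter.all false
set_option Elab.async false

namespace CfsgH9.Hd

open CfsgH5 CfsgH5.KT

noncomputable section

theorem kallB2 : ∀ p, p < 29155 → kcB2 p = true := (all_of_blocks (all_of_blocks (all_of_blocks (all_of_blocks (all_of_blocks (all_of_blocks (all_of_blocks (all_of_blocks (all_of_blocks (all_of_blocks (all_of_blocks (all_of_blocks (all_of_blocks (all_of_blocks (all_of_blocks (all_of_blocks (all_of_blocks (all_of_blocks (all_of_blocks (all_of_blocks (all_of_blocks (all_of_blocks (all_of_blocks (all_of_blocks (all_of_blocks (all_of_blocks (all_of_blocks (all_of_blocks (all_of_blocks (all_of_blocks (all_of_blocks (all_of_blocks (all_of_blocks (all_of_blocks (all_of_blocks (all_of_blocks (all_of_blocks (all_of_blocks (all_of_blocks (all_of_blocks (all_of_blocks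 (all_of_blocks (all_of_blocks (all_of_blocks (all_of_blocks (all_of_blocks (all_of_blocks (all_of_blocks (all_of_blocks all_zero kkB2_0) kkB2_600) kkB2_1200) kkB2_1800) kkB2_2400) kkB2_3000) kkB2_3600) kkB2_4200) kkB2_4800) kkB2_5400) kkB2_6000) kkB2_6600) kkB2_7200) kkB2_7800) kkB2_8400) kkB2_9000) kkB2_9600) kkB2_10200) kkB2_10800) kkB2_11400) kkB2_12000) kkB2_12600) kkB2_13200) kkB2_13800) kkB2_14400) kkB2_15000) kkB2_15600) kkB2_16200) kkB2_16800) kkB2_17400) kkB2_18000) kkB2_18600) kkB2_19200) kkB2_19800) kkB2_20400) kkB2_21000) kkB2_21600) kkB2_22200) kkB2_22800) kkB2_23400) kkB2_24000) kkB2_24600) kkB2_25200) kkB2_25800) kkB2_26400) kkB2_27000) kkB2_27600) kkB2_28200) kkB2_28800)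

end

end CfsgH9.Hd
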