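/-
The three presented groups and their models.
-/
import Cfsg.Agent.H9.HdE
import Cfsg.Agent.H9.HdTd
import Cfsg.Agent.H5.He
import Cfsg.Agent.H5.Str

set_option autoImplicit false
set_option maxRecDepth 100000
set_option linter.style.haveILetI false
set_option linter.constructorNameAsVariable false

namespace CfsgH9.Hd

open CfsgH5 CfsgH6 CfsgH5.KT Subgroup Equiv

noncomputable section

/-- the relators -/
def rels (N B : List (List (List ℕ))) : List (List ℕ) := relsD kdT ++ (relsD N ++ relsD B)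

theorem ub {N B : List (List (List ℕ))} {R R' : ℕ → ℕ} {n n' : ℕ}
    (h1 : ∀ p, p < n → chk R (fun _ => 0) (rtD N) n n 13 2046
      [1, 2, 3, 4, 5, 6, 7, 8, 9, 10, 11, 12, 13] p = true)
    (h2 : ∀ p, p < n' → chk R' (fun _ => 0) (rtD B) n' n' 14 16382
      [1, 2, 3, 4, 5, 6, 7, 8, 9, 10, 11, 12, 13, 14] p = true)
    (h3 : allL (relsD N) (wdb 13) = true) (h4 : allL (relsD B) (wdb 14) = true) (hn : 0 < n)
    (hn' : 0 < n') : Finite (PG 0 14 (rels N B)) ∧ Nat.card (PG 0 14 (rels N B)) ≤ n' * (n * 1024) := by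
  have := card_step (let_D (g := PG.g 0 14 (rels N B)) (by decide) PG.cox.1
      (fun l hl => PG.rel (by simp [rels, hl])) h4) h2
    (card_step (let_D (by decide) PG.cox.1 (fun l hl => PG.rel (by simp [rels, hl])) h3) h1
    (card_step (let_D (by decide) PG.cox.1 (fun l hl => PG.rel (by simp [rels, hl]))
      (by decide +kernel)) kallT (card_zero _) (by decide +kernel)) (L' := 10) (by
        rw [band_eq, band_eq, (ble_true_iff _ _).2 le_rfl, (lt_iff _ _).2 hn]; decide +kernel))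
    (L' := 13) (by
      rw [band_eq, band_eq, (ble_true_iff _ _).2 le_rfl, (lt_iff _ _).2 hn']; decide +kernel)
  rw [PG.grp_top, card_top] at this
  have h := this.1
  exact ⟨Finite.of_equiv _ topEquiv.toEquiv, this.2⟩

/-- the first presented group -/
abbrev P0 : Type := PG 0 14 (rels kdN0 kdB0)
/-- the second presented group -/
abbrev P1 : Type := PG 0 14 (rels kdN1 kdB1)
/-- the third presented group -/
abbrev P2 : Type := PG 0 14 (rels kdN2 kdB2)

theorem ub0 : Finite P0 ∧ Nat.card P0 ≤ 155 * (63 * 1024) :=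
  ub kallN0 kallB0 (by decide +kernel) (by decide +kernel) (by norm_num) (by norm_num)

theorem ub1 : Finite P1 ∧ Nat.card P1 ≤ 1771 * (135 * 1024) :=
  ub kallN1 kallB1 (by decide +kernel) (by decide +kernel) (by norm_num) (by norm_num)

theorem ub2 : Finite P2 ∧ Nat.card P2 ≤ 29155 * (135 * 1024) :=
  ub kallN2 kallB2 (by decide +kernel) (by decide +kernel) (by norm_num) (by norm_num)

theorem rel0 : allL (rels kdN0 kdB0) (relb 0 0) = true := by decide +kernel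

theorem rel1 : allL (rels kdN1 kdB1) (relb 0 3) = true := by decide +kernel

theorem rel2 : allL (rels kdN2 kdB2) (relb 3 3) = true := by decide +kernel

instance : Finite P0 := ub0.1
instance : Finite P1 := ub1.1
instance : Finite P2 := ub2.1

theorem nthL_ge {α : Type} (l : List α) (d : α) : ∀ i, l.length ≤ i → nthL l d i = d := by
  induction l with
  | nil => intro i _; rfl
  | cons a l ih =>
    intro i hi
    cases i with
    | zero => simp at hi
    | succ i => exact ih i (by simpa using hi)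

/-! ### The group of order 4030387200 -/

/-- words for the letters -/
def uw (x : ℕ) : List ℕ := nthL [[], [2, 9, 2, 7, 2, 7, 2, 9, 2], [2, 4, 9, 2, 1, 4, 2, 7, 5, 2, 1, 2, 7, 2, 9, 4, 2, 9, 3], [2, 4, 8, 9, 2, 1, 4, 2, 5, 2, 7, 2, 7, 1, 2, 9, 8, 4, 2], [4, 2, 9, 2, 7, 2, 5, 2, 9, 1, 2, 5, 7, 2, 9, 2, 4], [1, 4, 2, 1, 7, 8, 1, 2, 1, 8, 2, 1, 2, 1, 8, 7, 1, 2, 4, 1], [2, 1, 4, 9, 7, 2, 1, 2, 7, 1, 2, 1, 2, 7, 9, 4, 1, 2], [3, 6, 7, 2, 7, 9, 5, 2, 1, 2, 9, 2, 5, 7, 2, 5], [2, 9, 2, 7, 5, 2, 1, 2, 5, 2, 7, 2, 9, 2], [7, 9, 5, 2, 7, 2, 9, 5, 7], [2, 4, 6, 9, 2, 1, 7, 2, 7, 5, 2, 4, 1, 2, 9, 4, 2, 7, 5], [7, 9, 2, 5, 7, 2, 7, 9, 8, 7, 4], [1, 3, 4, 2, 7, 8, 9, 2, 1, 8, 2, 1, 2, 9, 8, 7, 2, 4, 3, 1], [2, 4, 2, 1, 6, 7, 2, 9, 4, 2, 7, 1, 2, 9, 7, 3, 2, 7, 2, 1], [1, 2, 4, 8, 9, 2, 1, 2, 9, 8, 4, 2, 7, 5, 3, 1]] [] x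
/-- words for the generators -/
def vw (x : ℕ) : List ℕ := nthL [[], [6, 7, 9, 14, 11, 12, 8, 13, 14, 11, 13, 11, 12, 14, 11, 12, 14, 7, 2], [8, 11, 14, 13, 5, 8, 11, 13, 11, 14, 13, 11, 8, 3], [4, 12, 14, 7, 12, 14, 11, 12, 13, 8, 11, 13, 14, 12, 14, 12], [9, 7, 14, 12, 14, 8, 7, 9, 2], [7, 9, 4, 14, 11, 12, 14, 12, 11, 14, 10, 7, 4, 2], [10, 9, 5, 6, 2], [7, 9, 14, 12, 10, 14, 13, 11, 13, 11, 14, 12, 14, 8, 12], [7, 14, 12, 10, 6, 12, 11, 14, 7, 1], [4, 7, 14, 12, 9, 11, 14, 13, 11, 13, 11, 13, 14, 11, 12, 14, 7, 4]] [] x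

theorem chkHe : allL (rels kdN2 kdB2) (fun l =>
    eqb He.R 12 4095 0 2058 9 He.BB (sbs uw l) []) = true := by decide +kernel

theorem chkHe' : allLt 15 (fun x => eqb He.R 12 4095 0 2058 9 He.BB (sbs uw [x, x]) []) = true := by
  decide +kernel

theorem chkHe'' : allIco 1 10 (fun x =>
    eqb He.R 12 4095 0 2058 9 He.BB [x] (sbs uw (vw x))) = true := by decide +kernel

theorem model2 : Nat.card P2 = 4030387200 ∧ IsSimpleGroup P2 := by
  have h0 : ∀ x, ¬ (0 < x ∧ x ≤ 14) → wl He.g (uw x) = 1 := fun x hx => by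
    rcases Nat.eq_zero_or_pos x with rfl | h
    · exact wl_nil _
    · rw [uw, nthL_ge _ _ _ (by simp; omega), wl_nil]
  have hs : ∀ x, wl He.g (uw x) * wl He.g (uw x) = 1 := fun x => by
    rcases Nat.lt_or_ge x 15 with h | h
    · have := He.weq ((allLt_iff _ _).1 chkHe' x h)
      rwa [wl_sbs, wl_cons, wl_single, wl_nil] at this
    · rw [h0 x (by omega), one_mul]
  have hr : ∀ l ∈ rels kdN2 kdB2, wl (fun x => wl He.g (uw x)) l = 1 := fun l hl => by
    rw [← wl_sbs, He.weq ((allL_iff _ _).1 chkHe l hl), wl_nil]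
  have hf : Function.Surjective (PG.lift (cox_zero hs) h0 hr) := by
    rw [← MonoidHom.range_eq_top, eq_top_iff, ← PG.grp_top]
    refine grp_le fun x x1 x2 => ⟨wl (PG.g _ _ _) (vw x), ?_⟩
    rw [map_wl]
    simp only [PG.lift_g]
    rw [← wl_sbs, ← He.weq ((allIco_iff _ _ _).1 chkHe'' x x1 (by omega)), wl_single]
  have hb := hf.bijective_of_nat_card_le (ub2.2.trans_eq He.chain.1.symm)
  have := He.simple
  exact ⟨(Nat.card_eq_of_bijective _ hb).trans He.chain.1,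
    (MulEquiv.ofBijective _ hb).isSimpleGroup⟩

/-! ### The group of order 244823040 -/

theorem RankN.dvd {G : Type*} [Group G] [Finite G] {φ : G →* Perm ℕ} {K : Subgroup G}
    {a b r : ℕ} {c nx : ℕ → ℕ} (h : RankN φ K a b r c nx) {N : Subgroup G} (hNK : N ≤ K)
    (hN : ∀ k ∈ K, ∀ n ∈ N, k * n * k⁻¹ ∈ N) :
    (∀ n ∈ N, ∀ q, a ≤ q → q < b → φ n q = q) ∨ b - a ∣ Nat.card N := by
  by_cases hf : ∀ n ∈ N, φ n a = a
  · refine Or.inl fun n hn q q1 q2 => ?_
    obtain ⟨k, hk, rfl⟩ := h.orb q q1 q2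
    have := hf _ (hN _ (inv_mem hk) n hn)
    rwa [inv_inv, map_mul, map_mul, map_inv, Perm.mul_apply, Perm.mul_apply, Perm.inv_eq_iff_eq] at this
  push Not at hf
  obtain ⟨m, hm, hne⟩ := hf
  let M : Subgroup G :=
    { carrier := {x | x ∈ K ∧ ∃ n ∈ N, φ n a = φ x a}
      one_mem' := ⟨one_mem _, 1, one_mem _, rfl⟩
      mul_mem' := fun {x y} ⟨hx, n, hn, e⟩ ⟨hy, n', hn', e'⟩ => ⟨mul_mem hx hy, x * n' * x⁻¹ * n,
        mul_mem (hN x hx n' hn') hn, by
          simp only [map_mul, map_inv, Perm.mul_apply, e, ← e']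
          rw [show (φ x)⁻¹ (φ x a) = a from (φ x).symm_apply_apply a]⟩
      inv_mem' := fun {x} ⟨hx, n, hn, e⟩ => ⟨inv_mem hx, x⁻¹ * n⁻¹ * x⁻¹⁻¹,
        hN _ (inv_mem hx) _ (inv_mem hn), by
          simp only [map_mul, map_inv, Perm.mul_apply, inv_inv, ← e]
          rw [show (φ n)⁻¹ (φ n a) = a from (φ n).symm_apply_apply a]⟩ }
  have ht := h.trans (M := M) (fun x hx => ⟨hx.1, 1, one_mem _, by
    rw [map_one, mem_Fx_one.1 hx.2]; rfl⟩) (fun x hx => hx.1) (m := m) ⟨hNK hm, m, hm, rfl⟩ hne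
  right
  rw [card_eq_of_orb (fun k hk => h.inv k (hNK hk)) fun q q1 q2 => by
    obtain ⟨x, ⟨-, n, hn, e⟩, e'⟩ := ht q q1 q2
    exact ⟨n, hn, e.trans e'⟩]
  exact dvd_mul_right _ _

/-- the permutations of 24 points -/
def mr (p : ℕ) : ℕ := nthD [0x22ce705ce505290a020, 0x9025c2c2c56c2c0ac0, 0x11d71b2a31d86328ea0, 0xd243d084b1704b1300, 0x15a529ca5290a5196e0, 0x18ccc5ccf33ccb59ce0, 0x1ce7214f43d0ec618c0, 0x44d922314a14a40500, 0x44918a64d424214a920, 0x3b126a9b20a90852540, 0x3d6b155905c16633180, 0x5186b0d7364d873ad60, 0x48a8535499362e6c9a0, 0x28610b8218ba4d745c0, 0x2df37e1e681a9085280, 0x421080a6b7ae6f7ce60, 0x26a94c508745b28ba20, 0x36ea4492a6c9d193640, 0x4e6f9da0ca3214a4200, 0x3294a128799df39bde0, 0x6235aac75a8ab5bd460, 0x583864c5620c5625840, 0x5e43b9af7be2f7adca0, 0x555633f1815c9816080] 0 p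
/-- words in the stabilisers -/
def mwd (k : ℕ) : List ℕ := nthL [[], [7, 9, 13, 11, 13, 11, 14, 12, 11, 13, 11, 13, 12, 1], [8, 13, 11, 8, 7, 13, 9], [5, 14, 13, 7, 8, 11, 13, 14, 4], [6, 13, 9, 7, 11, 14, 11, 13, 7, 6], [7, 12, 14, 13, 11, 14, 13, 12, 14, 1], [1, 14, 12, 13, 14, 11, 13, 14, 12, 7], [14, 12, 13, 11, 8, 7, 14, 12, 11, 13, 9, 7], [7, 9, 13, 11, 12, 14, 7, 8, 11, 13, 12, 14], [2, 5, 12, 14, 13, 11, 12, 14, 13, 12, 7, 5], [5, 7, 12, 13, 14, 11, 12, 13, 14, 12, 5, 2], [7, 9, 13, 10, 14, 11, 12, 14, 12, 11, 13, 9, 5], [5, 9, 13, 12, 14, 11, 12, 14, 12, 10, 13, 9, 7], [6, 5, 11, 12, 14, 13, 11, 14, 13, 12, 11, 6, 2, 1], [12, 5, 8, 7, 3, 1], [11, 14, 12, 9, 7, 14, 8, 11, 10], [1, 4, 9, 12, 14, 12], [14, 2], [1, 6], [1, 13]] [] k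
/-- the choice of the words -/
def mkk (p : ℕ) : ℕ := nthD [1, 20, 19, 18, 17, 16, 2, 2, 15, 3, 4, 5, 6, 7, 8, 9, 10, 11, 12, 13, 14, 14, 14, 14] 0 p

theorem mod1 : Mod mr 5 31 0 24 14 (fun _ => []) (fun _ => [])
    [1, 2, 3, 4, 5, 6, 7, 8, 9, 10, 11, 12, 13, 14] :=
  ⟨fun x h1 h2 => by simp; omega, fun p _ hp => (allLt_iff 24 _).1 (by decide +kernel) p hp⟩

/-- the permutation representation -/
def φ1 : P1 →* Perm ℕ := PG.lift (cox_zero mod1.sq) (fun _ => mod1.σ_out)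
  (mod1.rels (by decide +kernel) fun p _ hp => (allLt_iff 24 _).1 (by decide +kernel) p hp)

theorem act1 : Act (PG.g 0 14 (rels kdN1 kdB1)) φ1 mr 5 31 0 24 14 :=
  ⟨PG.cox.1, fun x p h1 h2 => by simp only [φ1, PG.lift_g]; exact mod1.acts x p h1 h2⟩

theorem dn1 {B : List ℕ} (M : ℕ) {a b c : ℕ}
    (h : allIco b c (dchk mr 5 31 mwd mkk M a) = true := by decide +kernel)
    (hd : band (Nat.ble c 24) (fixW mr 5 31 0 24 14 B mwd M) = true := by decide +kernel) :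
    Down φ1 (Fx φ1 B) a b c := by
  rw [band_eq, Bool.and_eq_true, ble_true_iff] at hd
  exact act1.down (act1.fixW hd.2) (Nat.zero_le _) hd.1 h

theorem chain1 : Nat.card P1 = 244823040 ∧ Fx φ1 [5, 8, 4, 3, 2, 1, 0] = ⊥ := by
  have h0 := (dn1 (B := []) 1048574 (a := 0) (b := 1) (c := 24)).card_Fx
  have h1 := (dn1 (B := [0]) 524286 (a := 1) (b := 2) (c := 24)).card_Fx
  have h2 := (dn1 (B := [1, 0]) 262142 (a := 2) (b := 3) (c := 24)).card_Fx
  have h3 := (dn1 (B := [2, 1, 0]) 131070 (a := 3) (b := 4) (c := 24)).card_Fx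
  have h4 := (dn1 (B := [3, 2, 1, 0]) 65534 (a := 4) (b := 5) (c := 24)).card_Fx
  have h5 := (dn1 (B := [4, 3, 2, 1, 0]) 16382 (a := 8) (b := 9) (c := 24)).card_Fx
  have h6 := (dn1 (B := [8, 4, 3, 2, 1, 0]) 2 (a := 5) (b := 6) (c := 8)).card_Fx
  have h7 : 0 < Nat.card (Fx φ1 [5, 8, 4, 3, 2, 1, 0]) := Nat.card_pos
  have u := ub1.2
  rw [Fx_nil, card_top] at h0
  exact ⟨by omega, card_eq_one.1 (by omega)⟩

theorem model1 (N : Subgroup P1) (hN : N.Normal) : N = ⊥ ∨ 24 ∣ Nat.card N := by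
  have rk : RankN φ1 ⊤ 0 24 1 (nthD [1] 24) fun _ => 0 :=
    { inv := fun k _ => act1.mem (PG.grp_top ▸ mem_top k) le_rfl (by decide)
      cov := fun p h1 h2 => ⟨0, by decide, h1, h2⟩
      dn := fun i hi => by
        rw [top_inf_eq]
        interval_cases i
        exact dn1 524286
      lnk := fun i hi => by
        interval_cases i
        refine ⟨by decide, wl (PG.g _ _ _) [2], trivial, ?_⟩
        rw [act1.map (l := [2]) (p := 0) (q := 7) (by decide +kernel)]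
        refine ⟨by decide, by decide, tv mr 5 31 1 1, by decide +kernel, by decide +kernel, ?_⟩
        rw [act1.map (l := [2]) (q := tv mr 5 31 2 (tv mr 5 31 1 1)) (by decide +kernel)]
        decide +kernel
      cyc := fun i hi j hj => ⟨0, by simp; omega⟩
      ne := ⟨wl (PG.g _ _ _) [2], trivial, by
        rw [act1.map (l := [2]) (p := 0) (q := 7) (by decide +kernel)]; decide⟩ }
  refine (RankN.dvd rk le_top fun k _ n hn => hN.1 n hn k).imp_left fun k => ?_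
  rw [eq_bot_iff, ← chain1.2]
  exact fun n hn b hb => k n hn b (Nat.zero_le _) ((by decide : ∀ b ∈ [5, 8, 4, 3, 2, 1, 0], b < 24) b hb)

/-! ### The linear group -/

/-- transvections -/
def tv5 (i j : Fin 5) (h : i ≠ j) : SL5 :=
  ⟨Matrix.transvection i j 1, Matrix.det_transvection_of_ne _ _ h _⟩

/-- transpositions -/
def w5 (i j : Fin 5) (h : i ≠ j) : SL5 := tv5 i j h * tv5 j i h.symm * tv5 i j h

/-- the inclusion -/
def φ0 : H0 →* SL5 := (centralizer ({z5} : Set SL5)).subtype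

/-- the letters in the linear group -/
def s0 : ℕ → SL5 := ltr φ0 (w5 0 1 (by decide)) (w5 3 4 (by decide))

/-- codes of the letters -/
def lc0 (x : ℕ) : ℕ := bif' (Nat.beq x 12) 0x10204042 (bif' (Nat.beq x 13) 0x8404081 (lc x))

theorem φ0_eq (a : H0) : φ0 a = a := rfl

theorem cd_E {c : ℕ} (h : vH c = true) : cd (E φ0 c) = c := by rw [E, φ0_eq, cd_gH h]

theorem cd_s0 (x : ℕ) : cd (s0 x) = lc0 x := by
  simp only [s0, ltr, lc0, bif'_eq, beq_true_iff]
  split_ifs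
  · rw [w5, cd_mul, cd_mul]; decide +kernel
  · rw [w5, cd_mul, cd_mul]; decide +kernel
  · exact cd_E (vlc x).1

/-- value of a word in codes -/
def ev0 (l : List ℕ) : ℕ := List.rec (motive := fun _ => ℕ) one5 (fun x _ ih => m5 ih (lc0 x)) l

theorem cd_wl (l : List ℕ) : cd (wl s0 l) = ev0 l := by
  induction l with
  | nil => rw [wl_nil, cd_one]; rfl
  | cons x l ih => rw [wl_cons, cd_mul, ih, cd_s0]; rfl

theorem chk0 : allL (rels kdN0 kdB0) (fun l => Nat.beq (ev0 l) one5) = true := by decide +kernel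

/-- words for the transvections -/
def tw (i : ℕ) : List ℕ := nthL [[], [9], [5], [2], [1], [12, 9, 12], [], [7], [4], [3], [12, 14, 7, 14, 12], [14, 7, 14], [], [8], [6], [12, 11, 14, 7, 14, 11, 12], [11, 14, 7, 14, 11], [11, 8, 11], [], [10], [13, 12, 11, 14, 7, 14, 11, 12, 13], [13, 11, 14, 7, 14, 11, 13], [13, 11, 8, 11, 13], [13, 10, 13], []] [] i

theorem card5 : Nat.card SL5 = 9999360 := by
  have := card_SL_zmod 5 2
  rw [show ∏ i : Fin 5, (2 ^ 5 - 2 ^ (i : ℕ)) = 9999360 by decide] at this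
  exact (mul_one _).symm.trans this

theorem ltr_out {G : Type*} [Group G] (φ : H0 →* G) (p s : G) (x : ℕ) (h : ¬ (0 < x ∧ x ≤ 14)) :
    ltr φ p s x = 1 := by
  rw [ltr, if_neg (by omega), if_neg (by omega)]
  rcases Nat.eq_zero_or_pos x with rfl | k
  · exact E_one
  · rw [lc_big (by omega), E_one]

theorem model0 : ∃ e : P0 ≃* SL5, ∀ x, e (PG.g _ _ _ x) = s0 x := by
  have hs : ∀ x, s0 x * s0 x = 1 := fun x => by
    rcases Nat.lt_or_ge x 15 with h | h
    · refine cd_inj ?_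
      rw [cd_mul, cd_s0, cd_one]
      revert x; decide +kernel
    · rw [s0, ltr_out _ _ _ _ (by omega), one_mul]
  have hr : ∀ l ∈ rels kdN0 kdB0, wl s0 l = 1 := fun l hl =>
    cd_inj (by rw [cd_wl, cd_one]; exact (beq_true_iff _ _).1 ((allL_iff _ _).1 chk0 l hl))
  have h0 : ∀ x, ¬ (0 < x ∧ x ≤ 14) → s0 x = 1 := ltr_out _ _ _
  have hf : Function.Surjective (PG.lift (cox_zero hs) h0 hr) := fun g => by
    generalize hψ : PG.lift (cox_zero hs) h0 hr = ψ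
    have k : ∀ l, ψ (wl (PG.g _ _ _) l) = wl s0 l := fun l => by
      rw [map_wl, ← hψ]; simp only [PG.lift_g]
    obtain ⟨a, ha⟩ := Matrix.diagonal_transvection_induction_of_det_ne_zero
      (fun M => ∃ a, (ψ a).1 = M) g.1 (by rw [g.2]; exact one_ne_zero) (fun D hD => ⟨1, by
        rw [Matrix.det_diagonal, Finset.prod_ne_zero_iff] at hD
        rw [map_one, show D = fun _ => 1 from funext fun i =>
          (by decide : ∀ a : ZMod 2, a ≠ 0 → a = 1) _ (hD i (Finset.mem_univ i))]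
        exact Matrix.diagonal_one.symm⟩) (fun ⟨i, j, h, c⟩ => by
        rcases (by decide : ∀ a : ZMod 2, a = 0 ∨ a = 1) c with rfl | rfl
        · exact ⟨1, by rw [map_one]; exact (Matrix.transvection_zero i j).symm⟩
        · refine ⟨_, (congrArg Subtype.val ((k (tw (5 * i + j))).trans (cd_inj
            (h := tv5 i j h) ?_)))⟩
          rw [cd_wl]
          revert i j; decide +kernel) fun A B _ _ ⟨a, ha⟩ ⟨b, hb⟩ =>
        ⟨a * b, by rw [map_mul, ← ha, ← hb]; rfl⟩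
    exact ⟨a, Subtype.ext ha⟩
  exact ⟨MulEquiv.ofBijective _ (hf.bijective_of_nat_card_le (ub0.2.trans_eq card5.symm)),
    fun x => PG.lift_g (cox_zero hs) h0 hr x⟩

end

end CfsgH9.Hd
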