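/-
Simple groups with the centraliser of a transvection of `SL₅(2)`.
-/
import Cfsg.Agent.H9.HdI
import Cfsg.Agent.H9.HdP

set_option autoImplicit false
set_option maxRecDepth 100000
set_option linter.style.haveILetI false

namespace CfsgH9.Hd

open CfsgH5 CfsgH6 CfsgH4 CfsgH5.KT Subgroup

noncomputable section

variable {G : Type*} [Group G] {φ : H0 →* G} {p s : G} {c d : ℕ}

theorem Conf.hom [Finite G] [IsSimpleGroup G] (C : Conf φ p s c d) {R : List (List ℕ)}
    (h : allL R (relb c d) = true) : ∃ f : PG 0 14 R →* G, Function.Surjective f ∧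
      ∀ x, f (PG.g 0 14 R x) = ltr φ p s x := by
  have hr : ∀ l ∈ R, wl (ltr φ p s) l = 1 := fun l hl => C.rel ((allL_iff _ _).1 h l hl)
  have e := PG.lift_g (cox_zero C.sq) (ltr_out φ p s) hr
  refine ⟨_, MonoidHom.range_eq_top.1 (C.top (range_le fun x => ?_) ⟨_, e 12⟩ ⟨_, e 13⟩), e⟩
  by_cases k : x = 12 ∨ x = 13
  · rw [show lc x = one5 by rcases k with rfl | rfl <;> rfl, E_one]; exact one_mem _
  · push Not at k
    exact ⟨_, (e x).trans (by rw [ltr, if_neg k.1, if_neg k.2])⟩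

theorem ker_bot {M : Type*} [Group M] [Finite M] {ψ : H0 →* M} {a b : M} (F : M →* G) (h : Loc φ)
    (h' : Loc ψ) (hF : ∀ x, F (ltr ψ a b x) = ltr φ p s x) (e : b * E ψ x14 * b⁻¹ = E ψ zc) :
    F.ker = ⊥ := by
  have k1 : ∀ g, F (ψ g) = φ g := fun g => by
    refine range_le (φ := MonoidHom.id H0) (K := (F.comp ψ).eqLocus φ) (fun x => ?_) ⟨g, rfl⟩
    show F (E ψ (lc x)) = E φ (lc x)
    by_cases k : x = 12 ∨ x = 13
    · rw [show lc x = one5 by rcases k with rfl | rfl <;> rfl, E_one, E_one, map_one]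
    · push Not at k
      simpa only [ltr, if_neg k.1, if_neg k.2] using hF x
  have hn : ∀ u, ∀ x ∈ F.ker, u * x * u⁻¹ ∈ F.ker := fun u x hx => F.normal_ker.conj_mem x hx u
  have k2 : ∀ n v, n * v * n⁻¹ = E ψ zc → ∀ x ∈ F.ker, v * x * v⁻¹ = x → x = 1 := fun n v e x hx k => by
    obtain ⟨g, hg⟩ := h'.cen _ (e ▸ conj_commute n (Commute.symm (mul_inv_eq_iff_eq_mul.1 k)))
    have := hn n x hx
    rw [← hg, MonoidHom.mem_ker, k1, ← map_one φ] at this
    rw [h.inj this, map_one, eq_comm, conj_eq_one_iff] at hg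
    exact hg
  have v1 : vH x14 = true := by decide +kernel
  have v2 : vH x45 = true := by decide +kernel
  refine (eq_bot_iff_forall _).2 (eq_one_of_four (z_sq (φ := ψ)) ((h'.sq1 v1).1 (by decide +kernel))
    (hn _) (hn _) (k2 1 _ (by group)) (k2 b _ e) (k2 (b * E ψ x45) _ ?_))
  have := E_cj (φ := ψ) v2 (vmul vz v1)
  rw [show cj x45 (iv x45) (m5 zc x14) = x14 by decide +kernel] at this
  rw [← E_mul vz v1, ← e, this]
  group

theorem E0_z : E φ0 zc = z5 := cd_inj ((cd_E vz).trans cd_z5.symm)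

theorem loc0 : Loc φ0 :=
  ⟨subtype_injective _, fun g hg => ⟨⟨g, mem_centralizer_singleton_iff.2 (E0_z ▸ hg)⟩, φ0_eq _⟩⟩

theorem Loc.held [Finite G] [IsSimpleGroup G] (h : Loc φ) :
    Nonempty (G ≃* SL5) ∨ Nonempty (G ≃* P1) ∨ Nonempty (G ≃* P2) := by
  obtain ⟨p, s, c, d, C⟩ := h.conf h.fus.1 h.fus.2.1
  have k : ∀ {φ : H0 →* G} {p s : G}, Conf φ p s 0 3 → Nonempty (G ≃* P1) := fun C => by
    obtain ⟨f, hf, -⟩ := C.hom rel1
    rcases model1 f.ker f.normal_ker with e | e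
    · exact ⟨(MulEquiv.ofBijective f ⟨(MonoidHom.ker_eq_bot_iff f).1 e, hf⟩).symm⟩
    · have h1 := f.ker.index_mul_card
      rw [index_ker, MonoidHom.range_eq_top.2 hf, card_top, chain1.1] at h1
      have := mul_dvd_mul (C.loc.cardT0 ▸ card_subgroup_dvd_card _) e
      rw [h1] at this
      norm_num at this
  have hc := C.hc
  have hd := C.hd
  simp only [List.mem_cons, List.not_mem_nil, or_false] at hc hd
  rcases hc with rfl | rfl <;> rcases hd with rfl | rfl
  · obtain ⟨f, hf, e⟩ := C.hom rel0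
    obtain ⟨m, hm⟩ := model0
    have := ker_bot (f.comp m.symm.toMonoidHom) h loc0 (fun x => by
      rw [← e, ← s0, ← hm]; simp) (mul_inv_eq_iff_eq_mul.2 (cd_inj (by
        rw [cd_mul, cd_mul, cd_E vz, cd_E (by decide +kernel), w5, cd_mul, cd_mul]; decide +kernel)))
    exact .inl ⟨(MulEquiv.ofBijective _ ⟨(MonoidHom.ker_eq_bot_iff _).1 this,
      hf.comp m.symm.surjective⟩).symm⟩
  · exact .inr (.inl (k C))
  · exact .inr (.inl (k C.symm))
  · obtain ⟨f, hf, -⟩ := C.hom rel2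
    rcases model2.2.eq_bot_or_eq_top_of_normal f.ker f.normal_ker with e | e
    · exact .inr (.inr ⟨(MulEquiv.ofBijective f ⟨(MonoidHom.ker_eq_bot_iff f).1 e, hf⟩).symm⟩)
    · obtain ⟨a, ha⟩ := hf (E φ zc)
      exact absurd (ha ▸ (e ▸ mem_top a : a ∈ f.ker)) h.z_ne

theorem chkZ : allLt 64 (fun k => bimp (band (cm (a1 k) x12) (band (cm (a1 k) x45) (cm (a1 k) x34)))
    (bor (Nat.beq k 0) (Nat.beq k 4))) = true := by decide +kernel

theorem loc_of {j : G} (h1 : j ≠ 1) (hi : Function.Injective φ)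
    (hr : φ.range = centralizer {j}) : Loc φ := by
  obtain ⟨c, hc, rfl⟩ := ex_E (hr ▸ mem_centralizer_singleton_iff.2 rfl : j ∈ φ.range)
  have eq : ∀ {a b}, vH a = true → vH b = true → E φ a = E φ b → a = b := fun ha hb e => by
    rw [← cd_gH ha, hi e, cd_gH hb]
  have k : ∀ a, vH a = true → cm c a = true := fun a ha => by
    rw [cm, force_eq, force_eq, beq_true_iff]
    refine eq (vmul hc ha) (vmul ha hc) ?_
    rw [E_mul hc ha, E_mul ha hc]
    exact (mem_centralizer_singleton_iff.1 (hr ▸ E_mem a)).symm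
  have := allH_spec chkCA hc
  simp only [bimp_iff, band_eq, Bool.and_eq_true] at this
  obtain ⟨l, hl, rfl⟩ := inA_iff.1 (this ⟨k _ (va1 (by norm_num)), k _ (va1 (by norm_num)),
    k _ (va1 (by norm_num)), k _ (va1 (by norm_num)), k _ (va1 (by norm_num))⟩)
  have := (allLt_iff _ _).1 chkZ l hl
  simp only [bimp_iff, band_eq, bor_eq, Bool.and_eq_true, Bool.or_eq_true, beq_true_iff] at this
  rcases this ⟨k _ (by decide +kernel), k _ (by decide +kernel), k _ (by decide +kernel)⟩ with rfl | rfl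
  · exact absurd A_zero h1
  · exact ⟨hi, fun g hg => hr ▸ mem_centralizer_singleton_iff.2 ((A_four (φ := φ)).symm ▸ hg)⟩

theorem exists_equiv {M : Type*} [Group M] {a b g : M} (h : g * a * g⁻¹ = b) :
    Nonempty (centralizer ({b} : Set M) ≃* centralizer ({a} : Set M)) := by
  refine ⟨(MulEquiv.subgroupCongr ?_).trans ((MulAut.conj g).subgroupMap _).symm⟩
  ext x
  rw [mem_centralizer_singleton_iff, ← h]
  refine ⟨fun e => ⟨g⁻¹ * x * g, mem_centralizer_singleton_iff.2 ?_, by simp [mul_assoc]⟩, ?_⟩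
  · simpa [mul_assoc] using (conj_commute g⁻¹ e).eq
  · rintro ⟨y, hy, rfl⟩
    exact conj_commute g (mem_centralizer_singleton_iff.1 hy)

theorem held [Finite G] [IsSimpleGroup G] (s : SL5) (hs : s.1 = Matrix.transvection 0 1 1) (j : G)
    (hj : orderOf j = 2) (e : centralizer ({j} : Set G) ≃* centralizer ({s} : Set SL5)) :
    Nonempty (G ≃* SL5) ∨ Nonempty (G ≃* P1) ∨ Nonempty (G ≃* P2) := by
  obtain rfl : s = tv5 0 1 (by decide) := Subtype.ext hs
  obtain ⟨e'⟩ := exists_equiv (g := w5 1 4 (by decide)) (a := tv5 0 1 (by decide)) (b := z5)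
    (mul_inv_eq_iff_eq_mul.2 (cd_inj (by
      rw [cd_mul, cd_mul, cd_z5, w5, cd_mul, cd_mul]; decide +kernel)))
  generalize e'.trans e.symm = f
  refine Loc.held (φ := (centralizer {j}).subtype.comp f.toMonoidHom) (loc_of
    (orderOf_eq_two_iff.1 hj).2 ((subtype_injective _).comp f.injective) ?_)
  rw [MonoidHom.range_comp, MonoidHom.range_eq_top.2 f.surjective, ← MonoidHom.range_eq_map,
    range_subtype]

end

end CfsgH9.Hd
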