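/-
Simple groups with an involution centraliser `2^(1+4):A₅`: the elementary abelian subgroup of
order 16 and its normaliser.
-/
import Cfsg.Agent.H9.J3Cent
import Cfsg.Agent.H1.Transfer

set_option autoImplicit false
set_option maxRecDepth 100000

namespace CfsgH9.J3

open Subgroup CfsgH9.J1

/-- linear maps of bit vectors, by the images of the basis -/
abbrev T4 : Type := Fin 16 × Fin 16 × Fin 16 × Fin 16

/-- application -/
def ap4 (A : T4) (k : Fin 16) : Fin 16 :=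
  xr (if k.1 % 2 = 1 then A.1 else 0) (xr (if k.1 / 2 % 2 = 1 then A.2.1 else 0)
    (xr (if k.1 / 4 % 2 = 1 then A.2.2.1 else 0) (if k.1 / 8 % 2 = 1 then A.2.2.2 else 0)))

/-- first `A`, then `B` -/
def cp (A B : T4) : T4 := (ap4 B A.1, ap4 B A.2.1, ap4 B A.2.2.1, ap4 B A.2.2.2)

/-- identity -/
def aI : T4 := (1, 2, 4, 8)
/-- the action of `σ` -/
def aA : T4 := (1, 2, 8, 12)
/-- the action of `ρ` -/
def aR : T4 := (3, 1, 8, 12)
/-- the action of `q` -/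
def aQ : T4 := (1, 2, 5, 11)

theorem ap4_basis (A : T4) :
    ap4 A 1 = A.1 ∧ ap4 A 2 = A.2.1 ∧ ap4 A 4 = A.2.2.1 ∧ ap4 A 8 = A.2.2.2 := by
  simp [ap4, xr_zero, zero_xr]

theorem ap4_three (A : T4) : ap4 A 3 = xr A.1 A.2.1 := by simp [ap4, xr_zero]

theorem ap4_aI : ∀ k, ap4 aI k = k := by decide

variable {G : Type*} [Group G]

/-- elements of the elementary abelian subgroup -/
def el (φ : M →* G) (k : Fin 16) : G := φ (eM k)

variable {φ : M →* G}

theorem el_mul (a b : Fin 16) : el φ a * el φ b = el φ (xr a b) := by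
  rw [el, el, el, ← map_mul, eM_mul]

theorem el_zero : el φ 0 = 1 := map_one φ
theorem el_one : el φ 1 = φ mT := rfl
theorem el_two : el φ 2 = φ mU := rfl
theorem el_four : el φ 4 = φ mS := rfl

theorem el_sq (a : Fin 16) : el φ a * el φ a = 1 := by rw [el_mul, xr_self, el_zero]

theorem el_inv (a : Fin 16) : (el φ a)⁻¹ = el φ a := inv_eq_of_mul_eq_one_left (el_sq a)

theorem el_comm (a b : Fin 16) : Commute (el φ a) (el φ b) := by
  rw [Commute, SemiconjBy, el_mul, el_mul, xr_comm]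

theorem Loc.el_inj (h : Loc φ) : Function.Injective (el φ) := h.inj.comp eM_inj

theorem Loc.el_ne (h : Loc φ) {k : Fin 16} (hk : k ≠ 0) : el φ k ≠ 1 := fun e =>
  hk (h.el_inj (e.trans el_zero.symm))

theorem comm_T (a : M) : Commute (φ a) (φ mT) := by
  rw [Commute, SemiconjBy, ← map_mul, ← map_mul, m_T]

theorem comm_map {a b : M} (h : a * b = b * a) : Commute (φ a) (φ b) := by
  rw [Commute, SemiconjBy, ← map_mul, ← map_mul, h]

theorem Loc.of_comm (h : Loc φ) {a b : M} (e : Commute (φ a) (φ b)) : a * b = b * a :=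
  h.inj (by rw [map_mul, map_mul, e.eq])

theorem conj_map {a b c : M} (h : a⁻¹ * b * a = c) : (φ a)⁻¹ * φ b * φ a = φ c := by
  rw [← h, map_mul, map_mul, map_inv]

theorem Loc.of_conj (h : Loc φ) {a b c : M} (e : (φ a)⁻¹ * φ b * φ a = φ c) : a⁻¹ * b * a = c :=
  h.inj (by rw [← e, map_mul, map_mul, map_inv])

theorem comm_iff_conj {a g : G} : Commute g a ↔ g⁻¹ * a * g = a := by
  rw [mul_assoc, inv_mul_eq_iff_eq_mul, eq_comm]; rfl

theorem conj_back {a b g p : G} (h : g⁻¹ * a * g = p⁻¹ * b * p) :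
    (g * p⁻¹)⁻¹ * a * (g * p⁻¹) = b := by
  rw [show (g * p⁻¹)⁻¹ * a * (g * p⁻¹) = p * (g⁻¹ * a * g) * p⁻¹ by group, h]; group

variable (φ) in
/-- the elementary abelian subgroup -/
def AA : Subgroup G where
  carrier := Set.range (el φ)
  mul_mem' := by rintro _ _ ⟨a, rfl⟩ ⟨b, rfl⟩; exact ⟨_, (el_mul a b).symm⟩
  one_mem' := ⟨0, el_zero⟩
  inv_mem' := by rintro _ ⟨a, rfl⟩; exact ⟨a, (el_inv a).symm⟩

theorem el_mem (k : Fin 16) : el φ k ∈ AA φ := ⟨k, rfl⟩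

theorem Loc.card_AA (h : Loc φ) : Nat.card (AA φ) = 16 := by
  have := Nat.card_range_of_injective h.el_inj
  rwa [Nat.card_eq_fintype_card (α := Fin 16), Fintype.card_fin] at this

theorem pgroup_AA : IsPGroup 2 (AA φ) := by
  rintro ⟨_, k, rfl⟩
  exact ⟨1, Subtype.ext (by simpa [pow_two] using el_sq k)⟩

theorem AA_comm : AA φ ≤ centralizer (AA φ : Set G) := by
  rintro _ ⟨a, rfl⟩ _ ⟨b, rfl⟩
  exact el_comm b a

theorem Loc.mem_AA (h : Loc φ) {g : G} {k : Fin 16} (h4 : 4 ≤ k) (ht : Commute g (φ mT))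
    (hk : Commute g (el φ k)) : g ∈ AA φ := by
  obtain ⟨m, rfl⟩ := h.cent g ht
  obtain ⟨j, rfl⟩ := m_cent m k h4 (h.of_comm hk)
  exact el_mem j

variable (φ) in
/-- the action of `g` -/
def Act (g : G) (A : T4) : Prop := ∀ k, g⁻¹ * el φ k * g = el φ (ap4 A k)

theorem act_of_gens {g : G} {a b c d : Fin 16} (h1 : g⁻¹ * el φ 1 * g = el φ a)
    (h2 : g⁻¹ * el φ 2 * g = el φ b) (h4 : g⁻¹ * el φ 4 * g = el φ c)
    (h8 : g⁻¹ * el φ 8 * g = el φ d) : Act φ g (a, b, c, d) := by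
  intro k
  have key : ∀ (P : Prop) [Decidable P] (i j : Fin 16), g⁻¹ * el φ i * g = el φ j →
      g⁻¹ * el φ (if P then i else 0) * g = el φ (if P then j else 0) := by
    intro P _ i j hij
    split_ifs
    · exact hij
    · simp [el_zero]
  conv_lhs => rw [← ap4_aI k]
  rw [ap4, ap4, ← el_mul, ← el_mul, ← el_mul, ← el_mul, ← el_mul, ← el_mul,
    ← key _ _ _ h1, ← key _ _ _ h2, ← key _ _ _ h4, ← key _ _ _ h8]
  simp only [aI]
  group

theorem Act.mul {g g' : G} {A B : T4} (h : Act φ g A) (h' : Act φ g' B) :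
    Act φ (g * g') (cp A B) := by
  have key : ∀ k, (g * g')⁻¹ * el φ k * (g * g') = el φ (ap4 B (ap4 A k)) := fun k => by
    rw [← h', ← h]; group
  obtain ⟨e1, e2, e4, e8⟩ := ap4_basis A
  exact act_of_gens (by rw [key, e1]) (by rw [key, e2]) (by rw [key, e4]) (by rw [key, e8])

theorem Act.inv {g : G} {A B : T4} (h : Act φ g A) (e : ∀ k, ap4 A (ap4 B k) = k) :
    Act φ g⁻¹ B := fun k => by
  conv_lhs => rw [← e k, ← h]
  group

theorem Act.congr {g : G} {A B : T4} (h : Act φ g A) (e : A = B) : Act φ g B := e ▸ h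

theorem act_one : Act φ 1 aI := fun k => by simp [ap4_aI]

theorem act_el (j : Fin 16) : Act φ (el φ j) aI := fun k => by
  rw [ap4_aI, ← comm_iff_conj]; exact el_comm j k

theorem act_A : Act φ (φ mA) aA := fun k => conj_map (by revert k; decide +kernel)
theorem act_Q : Act φ (φ mQ) aQ := fun k => conj_map (by revert k; decide +kernel)

theorem norm_of {g : G} (h : ∀ k, ∃ j, g⁻¹ * el φ k * g = el φ j) :
    g ∈ normalizer (AA φ : Set G) := by
  have : Finite (AA φ : Set G) := Set.finite_range (el φ)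
  refine (Subgroup.inv_mem_iff _).1 (mem_normalizer_fintype ?_)
  rintro _ ⟨k, rfl⟩
  obtain ⟨j, hj⟩ := h k
  rw [inv_inv, hj]; exact el_mem _

theorem Act.norm {g : G} {A : T4} (h : Act φ g A) : g ∈ normalizer (AA φ : Set G) :=
  norm_of fun k => ⟨_, h k⟩

theorem of_norm {g : G} (hg : g ∈ normalizer (AA φ : Set G)) (k : Fin 16) :
    ∃ j, g⁻¹ * el φ k * g = el φ j := by
  obtain ⟨j, hj⟩ := (mem_normalizer_iff''.1 hg _).1 (el_mem k)
  exact ⟨j, hj.symm⟩

theorem exists_act {g : G} (hg : g ∈ normalizer (AA φ : Set G)) : ∃ A, Act φ g A := by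
  obtain ⟨a, ha⟩ := of_norm hg 1
  obtain ⟨b, hb⟩ := of_norm hg 2
  obtain ⟨c, hc⟩ := of_norm hg 4
  obtain ⟨d, hd⟩ := of_norm hg 8
  exact ⟨_, act_of_gens ha hb hc hd⟩

theorem Loc.mem_of_act (h : Loc φ) {g : G} (hg : Act φ g aI) : g ∈ AA φ :=
  h.mem_AA (k := 4) le_rfl (comm_iff_conj.2 (hg 1)) (comm_iff_conj.2 (hg 4))

theorem Loc.act_unique (h : Loc φ) {g : G} {A B : T4} (hA : Act φ g A) (hB : Act φ g B) :
    A = B := by
  have key : ∀ k, ap4 A k = ap4 B k := fun k => h.el_inj ((hA k).symm.trans (hB k))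
  obtain ⟨e1, e2, e4, e8⟩ := ap4_basis A
  obtain ⟨f1, f2, f4, f8⟩ := ap4_basis B
  exact Prod.ext (by rw [← e1, key, f1]) (Prod.ext (by rw [← e2, key, f2])
    (Prod.ext (by rw [← e4, key, f4]) (by rw [← e8, key, f8])))

theorem Loc.act_ne (h : Loc φ) {g : G} {A : T4} (hA : Act φ g A) {k : Fin 16} (hk : k ≠ 0) :
    ap4 A k ≠ 0 := fun e => h.el_ne hk (conj_eq_one (by rw [hA, e, el_zero]))

theorem Loc.fix_of_comm (h : Loc φ) {g : G} {A : T4} (hA : Act φ g A) {k : Fin 16}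
    (hk : Commute g (el φ k)) : ap4 A k = k := h.el_inj (by rw [← hA, ← comm_iff_conj]; exact hk)

theorem Loc.fix_u (h : Loc φ) {g : G} (hg : g ∈ normalizer (AA φ : Set G))
    (ht : Commute g (φ mT)) : Commute g (φ mU) := by
  obtain ⟨m, rfl⟩ := h.cent g ht
  obtain ⟨k, hk⟩ := of_norm hg 4
  exact comm_map (m_norm m ⟨k, h.of_conj hk⟩).2

theorem Loc.card_range (h : Loc φ) : Nat.card φ.range = 1920 :=
  (Nat.card_congr (MonoidHom.ofInjective h.inj).toEquiv).symm.trans MM.card_eq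

theorem Loc.centralizer_eq (h : Loc φ) : centralizer {φ mT} = φ.range := by
  ext g
  rw [mem_centralizer_singleton_iff]
  exact ⟨fun e => (h.cent g e).imp fun _ e => e.symm, fun ⟨m, e⟩ => e ▸ comm_T m⟩

theorem Loc.conj_into [Finite G] (h : Loc φ) {K : Subgroup G} (hK : φ.range ≤ K) {v : G}
    (hv : v ∈ K) (h2 : v * v = 1) : ∃ g ∈ K, ∃ m, g⁻¹ * v * g = φ m := by
  obtain ⟨T, hT⟩ := CfsgH1.exists_isSylowIn (p := 2) φ.range
  have hT' := hT.trans_of_not_dvd hK fun hd => h.syl (by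
    have h1 := CfsgH1.card_mul_relIndex hK
    rw [h.card_range] at h1
    exact Dvd.dvd.trans (by omega) (card_subgroup_dvd_card K))
  obtain ⟨g, hg, hle⟩ := hT'.exists_cj_le
    (CfsgH1.isPGroup_zpowers (x := v) (k := 1) (by simpa [pow_two] using h2)) ((zpowers_le).2 hv)
  obtain ⟨m, hm⟩ := hT.le (hle (CfsgH1.conj_mem_cj g (mem_zpowers v)))
  exact ⟨g⁻¹, K.inv_mem hg, m, by rw [inv_inv, hm]⟩

theorem Loc.cls (h : Loc φ) {m : M} (h2 : φ m * φ m = 1) (h1 : φ m ≠ 1) :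
    m = mT ∨ (m.1 < 32 ∧ ∃ p, φ m = (φ p)⁻¹ * φ mU * φ p) ∨
      (32 ≤ m.1 ∧ ∃ p, φ m = (φ p)⁻¹ * φ mS * φ p) := by
  rcases m_cls m (h.inj (by rw [map_mul, h2, map_one])) with e | e | ⟨e, e'⟩ | ⟨e, e'⟩
  · exact absurd (by rw [e, map_one]) h1
  · exact Or.inl e
  · exact Or.inr (Or.inl ⟨e, _, (conj_map e'.symm).symm⟩)
  · exact Or.inr (Or.inr ⟨e, _, (conj_map e'.symm).symm⟩)

theorem Loc.el_conj (h : Loc φ) {k : Fin 16} (hk : 4 ≤ k) :
    ∃ p, el φ k = (φ p)⁻¹ * φ mS * φ p := by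
  have : ∀ k : Fin 16, 4 ≤ k → eM k ≠ mT ∧ ¬ (eM k).1 < 32 := by decide +kernel
  rcases h.cls (el_sq k) (h.el_ne (by rintro rfl; exact absurd hk (by decide))) with e | e | e
  exacts [absurd e (this k hk).1, absurd e.1 (this k hk).2, e.2]

theorem Loc.exists_norm (h : Loc φ) {g : G} {k : Fin 16} (hg : g⁻¹ * φ mT * g = el φ k) :
    ∃ y ∈ normalizer (AA φ : Set G), y⁻¹ * φ mT * y = el φ k := by
  have key : ∀ i, ∃ m, g * el φ i * g⁻¹ = φ m := fun i => h.cent _ (by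
    have := (el_comm (φ := φ) i k).conj g
    rwa [← hg, show g * (g⁻¹ * φ mT * g) * g⁻¹ = φ mT by group] at this)
  choose f hf using key
  have f2 : ∀ i, φ (f i) * φ (f i) = 1 := fun i => by rw [← hf, conj_mul, el_sq]; group
  obtain ⟨i, hi⟩ : ∃ i, ¬ (f i).1 < 32 := by
    by_contra hn
    push Not at hn
    have := Set.ncard_le_ncard_of_injOn f (s := Set.univ) (t := {m : M | m * m = 1 ∧ m.1 < 32})
      (fun i _ => ⟨h.inj (by rw [map_mul, f2, map_one]), hn i⟩)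
      (fun i _ j _ e => h.el_inj (mul_left_cancel (mul_right_cancel ((hf i).trans (e ▸ (hf j).symm))))) (Set.toFinite _)
    rw [m_twelve, Set.ncard_univ, Nat.card_fin] at this
    omega
  obtain ⟨-, p, hp⟩ := ((h.cls (f2 i) fun e => hi (by
    rw [h.inj (e.trans (map_one φ).symm)]; decide)).resolve_left fun e => hi (by
    rw [e]; decide)).resolve_left fun e => hi e.1
  refine ⟨φ p * g, (Subgroup.inv_mem_iff _).1 (norm_of fun j => ?_), ?_⟩
  · obtain ⟨l, hl⟩ := h.mem_AA (g := φ p * φ (f j) * (φ p)⁻¹) (k := 4) le_rfl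
      (((comm_T _).mul_left (comm_T _)).mul_left (comm_T _).inv_left) (by
        have := ((el_comm (φ := φ) j i).conj g).conj (φ p)
        rwa [hf, hf, hp, show φ p * ((φ p)⁻¹ * φ mS * φ p) * (φ p)⁻¹ = φ mS by group] at this)
    exact ⟨l, by rw [hl, ← hf]; group⟩
  · rw [← hg, show (φ p * g)⁻¹ * φ mT * (φ p * g) = g⁻¹ * ((φ p)⁻¹ * φ mT * φ p) * g by group,
      comm_iff_conj.1 (comm_T p)]

theorem conj_X : (φ mX)⁻¹ * el φ 2 * φ mX = el φ 3 := conj_map (by decide +kernel)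
theorem conj_X' : (φ mX)⁻¹ * el φ 3 * φ mX = el φ 2 := conj_map (by decide +kernel)

theorem Loc.t_conj_u [Finite G] [IsSimpleGroup G] (h : Loc φ) :
    ∃ g, g⁻¹ * φ mT * g = el φ 2 := by
  have t2 : φ mT * φ mT = 1 := el_sq 1
  have t1 : φ mT ≠ 1 := h.el_ne (k := 1) (by decide)
  obtain ⟨g, g1, g2⟩ := exists_fused (CfsgH4.orderOf_eq_two_iff.2 ⟨t2, t1⟩)
    (by rw [h.centralizer_eq, h.card_range]; norm_num)
  obtain ⟨m, hm⟩ := h.cent _ g2
  rcases h.cls (m := m) (by rw [← hm, cmul', t2]; group) (fun e => t1 (conj_eq_one (hm.trans e)))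
    with e | ⟨-, p, e⟩ | ⟨-, p, e⟩
  · exact absurd (by rw [hm, e]) g1
  · exact ⟨g * (φ p)⁻¹, conj_back (hm.trans e)⟩
  by_contra hn
  push Not at hn
  have hs : (g * (φ p)⁻¹)⁻¹ * φ mT * (g * (φ p)⁻¹) = el φ 4 := conj_back (hm.trans e)
  obtain ⟨y, hy, e1⟩ := h.exists_norm hs
  have key : ∀ (z : G) k, z⁻¹ * el φ 2 * z = el φ k → k = 2 ∨ k = 3 := fun z k hk => by
    rcases (by decide : ∀ k : Fin 16, k = 0 ∨ k = 1 ∨ (k = 2 ∨ k = 3) ∨ 4 ≤ k) k with
      rfl | rfl | e | e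
    · exact absurd (conj_eq_one (hk.trans el_zero)) (h.el_ne (by decide))
    · exact absurd (by rw [← el_one, ← hk]; group) (hn z⁻¹)
    · exact e
    · obtain ⟨p, hp⟩ := h.el_conj e
      refine absurd ?_ (hn (y * φ p * z⁻¹))
      rw [show el φ 2 = z * (z⁻¹ * el φ 2 * z) * z⁻¹ by group, hk, hp, ← el_four, ← e1]; group
  obtain ⟨A, hA⟩ := exists_act hy
  have k2 := key y _ (hA 2)
  have k3 := key (φ mX * y) (ap4 A 3) (by rw [← hA, ← conj_X]; group)
  have k1 := h.el_inj ((hA 1).symm.trans e1)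
  rw [ap4_three, ← (ap4_basis A).1, ← (ap4_basis A).2.1, k1] at k3
  rcases k2 with e | e <;> rw [e] at k3 <;> exact absurd k3 (by decide)

theorem Loc.img_u (h : Loc φ) {y : G} {A : T4} (hA : Act φ y A) (h1 : A.1 < 4) : A.2.1 < 4 := by
  have fx : ∀ k : Fin 16, ap4 aA k = k ↔ k < 4 := by decide
  have h2 : Commute (φ mA) (y⁻¹ * el φ 1 * y) := by
    rw [hA, (ap4_basis A).1, comm_iff_conj, act_A, (fx _).2 h1]
  have h3 := h.fix_u (g := y * φ mA * y⁻¹)
    (mul_mem (mul_mem hA.norm act_A.norm) (inv_mem hA.norm)) (by simpa [mul_assoc, el_one] using h2.conj y)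
  have h4 : Commute (φ mA) (y⁻¹ * el φ 2 * y) := by simpa [mul_assoc, el_two] using h3.conj y⁻¹
  rw [hA, (ap4_basis A).2.1] at h4
  exact (fx _).1 (h.fix_of_comm act_A h4)

theorem Loc.norm_sigma (h : Loc φ) {y z : G} (hy : y ∈ normalizer (AA φ : Set G))
    (hz : z ∈ normalizer (AA φ : Set G)) (z3 : z * z * z = 1) (z1 : z ≠ 1)
    (hc : Commute z (y⁻¹ * φ mT * y)) : ∃ y' ∈ normalizer (AA φ : Set G),
      y'⁻¹ * φ mT * y' = y⁻¹ * φ mT * y ∧ y'⁻¹ * φ mU * y' = y⁻¹ * φ mU * y ∧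
      (y' * z * y'⁻¹ = φ mA ∨ y' * z * y'⁻¹ = (φ mA)⁻¹) := by
  obtain ⟨m, hm⟩ := h.cent (y * z * y⁻¹) (by simpa [mul_assoc] using hc.conj y)
  obtain ⟨k, hk⟩ := of_norm (hm ▸ mul_mem (mul_mem hy hz) (inv_mem hy)) 4
  obtain ⟨h1, h2⟩ := m_three m (h.inj (by
      rw [map_mul, map_mul, ← hm, conj_mul, conj_mul, z3, map_one]; group))
    (fun e => z1 (by simpa [e] using hm)) ⟨k, h.of_conj hk⟩
  generalize (MM.mk _ : M) = p at h1 h2
  have hp : φ p ∈ normalizer (AA φ : Set G) := norm_of fun i =>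
    ((m_norm p h1).1 i).imp fun _ e => conj_map e
  have key : ∀ a, Commute (φ p) a → ((φ p)⁻¹ * y)⁻¹ * a * ((φ p)⁻¹ * y) = y⁻¹ * a * y :=
    fun a ha => by
      rw [show ((φ p)⁻¹ * y)⁻¹ * a * ((φ p)⁻¹ * y) = y⁻¹ * (φ p * a * (φ p)⁻¹) * y by group, ha.eq,
        mul_inv_cancel_right]
  refine ⟨(φ p)⁻¹ * y, mul_mem (inv_mem hp) hy, key _ (comm_T p), key _ (h.fix_u hp (comm_T p)), ?_⟩
  rw [show (φ p)⁻¹ * y * z * ((φ p)⁻¹ * y)⁻¹ = (φ p)⁻¹ * (y * z * y⁻¹) * φ p by group, hm,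
    ← map_inv φ mA]
  exact h2.imp conj_map conj_map

theorem A_cube : φ mA * φ mA * φ mA = 1 := by
  rw [← map_mul, ← map_mul, show mA * mA * mA = 1 by decide +kernel, map_one]

theorem Loc.A_ne (h : Loc φ) : φ mA ≠ 1 := fun e =>
  absurd (h.inj (e.trans (map_one φ).symm)) (by decide +kernel)

theorem Loc.exists_rho0 [Finite G] [IsSimpleGroup G] (h : Loc φ) :
    ∃ r, Act φ r aR ∧ Commute r (φ mA) := by
  obtain ⟨g, hg⟩ := h.t_conj_u
  obtain ⟨y, hy, e1⟩ := h.exists_norm hg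
  obtain ⟨z, hz, e2⟩ := h.exists_norm (g := g * φ mX) (k := 3) (by rw [← conj_X, ← hg]; group)
  obtain ⟨A, hA⟩ := exists_act hy
  obtain ⟨B, hB⟩ := exists_act hz
  have a1 : A.1 = 2 := (ap4_basis A).1.symm.trans (h.el_inj ((hA 1).symm.trans e1))
  have b1 : B.1 = 3 := (ap4_basis B).1.symm.trans (h.el_inj ((hB 1).symm.trans e2))
  obtain ⟨y, A, hA, a1, a2⟩ : ∃ y A, Act φ y A ∧ A.1 = 2 ∧ A.2.1 = 3 := by
    have a2 := h.img_u hA (by rw [a1]; decide)
    have b2 := h.img_u hB (by rw [b1]; decide)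
    have a3 := h.act_ne hA (k := 2) (by decide)
    have b3 := h.act_ne hB (k := 2) (by decide)
    have a4 := h.act_ne hA (k := 3) (by decide)
    have b4 := h.act_ne hB (k := 3) (by decide)
    rw [(ap4_basis _).2.1] at a3 b3
    rw [ap4_three] at a4 b4
    rw [a1] at a4
    rw [b1] at b4
    rcases (by decide : ∀ b : Fin 16, b < 4 → b ≠ 0 → xr 2 b ≠ 0 → b = 3 ∨ b = 1) _ a2 a3 a4 with
      a5 | a5
    · exact ⟨y, A, hA, a1, a5⟩
    rcases (by decide : ∀ b : Fin 16, b < 4 → b ≠ 0 → xr 3 b ≠ 0 → b = 2 ∨ b = 1) _ b2 b3 b4 with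
      b5 | b5
    · refine ⟨_, _, hA.mul hB, ?_, ?_⟩
      · show ap4 B A.1 = 2
        rw [a1, (ap4_basis B).2.1, b5]
      · show ap4 B A.2.1 = 3
        rw [a5, (ap4_basis B).1, b1]
    · refine ⟨_, _, hB.mul hB, ?_, ?_⟩
      · show ap4 B B.1 = 2
        rw [b1, ap4_three, b1, b5]; rfl
      · show ap4 B B.2.1 = 3
        rw [b5, (ap4_basis B).1, b1]
  obtain ⟨y', hy', e1, e2, e3⟩ := h.norm_sigma hA.norm act_A.norm A_cube h.A_ne (by
    rw [← el_one, hA, (ap4_basis A).1, a1, comm_iff_conj, act_A]; rfl)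
  obtain ⟨B, hB⟩ := exists_act hy'
  have b1 : B.1 = 2 := by
    rw [← a1, ← (ap4_basis A).1, ← (ap4_basis B).1]
    exact h.el_inj ((hB 1).symm.trans (e1.trans (hA 1)))
  have b2 : B.2.1 = 3 := by
    rw [← a2, ← (ap4_basis A).2.1, ← (ap4_basis B).2.1]
    exact h.el_inj ((hB 2).symm.trans (e2.trans (hA 2)))
  have hc : Commute (y' * y') (φ mA) := by
    rw [Commute, SemiconjBy, ← mul_inv_eq_iff_eq_mul,
      show y' * y' * φ mA * (y' * y')⁻¹ = y' * (y' * φ mA * y'⁻¹) * y'⁻¹ by group]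
    rcases e3 with e | e
    · rw [e, e]
    · rw [e, ← conj_inv, e, inv_inv]
  have hC := hB.mul hB
  have c1 : (cp B B).1 = 3 := by
    show ap4 B B.1 = 3
    rw [b1, (ap4_basis B).2.1, b2]
  have c2 : (cp B B).2.1 = 1 := by
    show ap4 B B.2.1 = 1
    rw [b2, ap4_three, b1, b2]; rfl
  generalize cp B B = C at hC c1 c2
  obtain ⟨c1', c2', c, d⟩ := C
  obtain rfl : c1' = 3 := c1
  obtain rfl : c2' = 1 := c2
  have c3 := h.act_unique (hC.mul act_A) (hc.eq ▸ act_A.mul hC)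
  have c4 := h.act_ne hC (k := 4) (by decide)
  rcases (by decide +kernel : ∀ c d : Fin 16, cp (3, 1, c, d) aA = cp aA (3, 1, c, d) →
    ap4 (3, 1, c, d) 4 ≠ 0 → (3, 1, c, d) = aR ∨ cp (3, 1, c, d) aA = aR ∨
      cp (cp (3, 1, c, d) aA) aA = aR) c d c3 c4 with e | e | e
  · exact ⟨_, hC.congr e, hc⟩
  · exact ⟨_, (hC.mul act_A).congr e, hc.mul_left (Commute.refl _)⟩
  · exact ⟨_, ((hC.mul act_A).mul act_A).congr e,
      (hc.mul_left (Commute.refl _)).mul_left (Commute.refl _)⟩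

theorem Loc.eq_one_of (h : Loc φ) {r g : G} (hr : Act φ r aR) (hg : Act φ g aI)
    (hc : Commute r g) : g = 1 := by
  obtain ⟨k, rfl⟩ := h.mem_of_act hg
  rw [(by decide : ∀ k, ap4 aR k = k → k = 0) k (h.fix_of_comm hr hc), el_zero]

theorem Loc.rho_cube (h : Loc φ) {r : G} (hr : Act φ r aR) : r * r * r = 1 :=
  h.eq_one_of hr (((hr.mul hr).mul hr).congr (by decide))
    (((Commute.refl r).mul_right (Commute.refl r)).mul_right (Commute.refl r))

theorem Q_sq : φ mQ * φ mQ = 1 := by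
  rw [← map_mul, show mQ * mQ = 1 by decide +kernel, map_one]

theorem X_sq : φ mX * φ mX = 1 := by
  rw [← map_mul, show mX * mX = 1 by decide +kernel, map_one]

theorem Loc.rho_q (h : Loc φ) {r : G} (hr : Act φ r aR) (hc : Commute r (φ mA)) :
    Commute r (φ mQ) := by
  have hA : Act φ (r⁻¹ * φ mQ * r) aQ :=
    (((hr.inv (B := cp aR aR) (by decide)).mul act_Q).mul hr).congr (by decide)
  obtain ⟨m, hm⟩ := h.cent _ (comm_iff_conj.2 (hA 1))
  rw [comm_iff_conj, hm]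
  rw [hm] at hA
  refine congrArg φ (m_q m (h.inj ?_) (h.inj ?_) (h.of_conj (hA 4)) (h.of_conj (hA 8)))
  · rw [map_mul, ← hm, cmul', Q_sq, map_one]; group
  · simp only [map_mul, map_one]
    rw [← hm, ← comm_iff_conj.1 hc, cmul', cmul', cmul', ← map_mul, ← map_mul, ← map_mul,
      show mQ * mA * (mQ * mA) * (mQ * mA) = 1 by decide +kernel, map_one]; group

/-- the configuration with the element `ρ` -/
structure Conf (φ : M →* G) (r : G) : Prop extends Loc φ where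
  act : Act φ r aR
  comm : Commute r (φ mA)
  sq : φ mX * r * (φ mX * r) = φ mA

theorem Loc.exists_conf [Finite G] [IsSimpleGroup G] (h : Loc φ) : ∃ r, Conf φ r := by
  obtain ⟨r, hr, hc⟩ := h.exists_rho0
  have step : ∀ a b c : G, (φ mX)⁻¹ * a * φ mX = b → r⁻¹ * b * r = c →
      (φ mX * r)⁻¹ * a * (φ mX * r) = c := fun a b c h1 h2 => by rw [← h2, ← h1]; group
  have step2 : ∀ a b c : G, (φ mX * r)⁻¹ * a * (φ mX * r) = b → (φ mX * r)⁻¹ * b * (φ mX * r) = c →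
      (φ mX * r * (φ mX * r))⁻¹ * a * (φ mX * r * (φ mX * r)) = c := fun a b c h1 h2 => by
    rw [← h2, ← h1]; group
  have x1 : (φ mX)⁻¹ * el φ 1 * φ mX = el φ 1 := comm_iff_conj.1 (comm_T mX)
  have s1 := step _ _ _ x1 (hr 1)
  have s2 := step _ _ _ conj_X (hr 3)
  have s3 := step _ _ _ conj_X' (hr 2)
  have sa : Commute (φ mX * r) (φ mA) := (comm_map (by decide +kernel)).mul_left hc
  obtain ⟨m, hm⟩ := h.cent _ (comm_iff_conj.2 (step2 _ _ _ s1 s3))
  have s4 := step2 _ _ _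
    (step _ _ _ (conj_map (a := mX) (b := mS) (c := mQ) (by decide +kernel))
      (comm_iff_conj.1 (h.rho_q hr hc)))
    (step _ _ _ (conj_map (a := mX) (b := mQ) (c := mS) (by decide +kernel)) (hr 4))
  obtain ⟨k, hk, e⟩ := m_sig m (h.of_comm (hm ▸ sa.mul_left sa))
    (h.of_comm (hm ▸ comm_iff_conj.2 (step2 _ _ _ s2 s2))) (h.of_conj (hm ▸ s4))
  rw [e, map_mul] at hm
  have hk2 : Commute (φ mX * r) (el φ k) := by
    have : Commute (φ mX * r) (el φ k * φ mA) :=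
      hm ▸ (Commute.refl _).mul_right (Commute.refl _)
    simpa using this.mul_right sa.inv_right
  rcases (by decide : ∀ k : Fin 16, k < 4 → k = 0 ∨ k = 1 ∨ k = 2 ∨ k = 3) k hk with
    rfl | rfl | rfl | rfl
  · exact ⟨r, h, hr, hc, by rw [hm, ← el, el_zero, one_mul]⟩
  · exact absurd (h.el_inj (s1.symm.trans (comm_iff_conj.1 hk2))) (by decide)
  · refine ⟨r * el φ 1, h, (hr.mul (act_el 1)).congr (by decide),
      hc.mul_left (comm_T mA).symm, ?_⟩
    rw [show φ mX * (r * el φ 1) * (φ mX * (r * el φ 1)) = φ mX * r * (φ mX * r) *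
      ((φ mX * r)⁻¹ * el φ 1 * (φ mX * r)) * el φ 1 by group, s1, hm, mul_assoc, el_mul]
    rw [el, ← map_mul, ← map_mul]
    exact congrArg φ (by decide +kernel)
  · exact absurd (h.el_inj (s3.symm.trans (comm_iff_conj.1 hk2))) (by decide)

end CfsgH9.J3
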