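/-
Simple groups with an involution centraliser `2^(1+4):A₅` and two classes of involutions.
-/
import Cfsg.Agent.H9.J3Loc
import Cfsg.Agent.S0213

set_option autoImplicit false
set_option maxRecDepth 100000

namespace CfsgH9.J3

open Subgroup CfsgH9.J1 CfsgH5
open scoped commutatorElement

variable {G : Type*} [Group G] {φ : M →* G} {ξ : G}

/-- the action of `ξ` -/
def aZ : T4 := (2, 3, 4, 8)
/-- the action of `ξ⁻¹` -/
def aZ' : T4 := (3, 1, 4, 8)

/-- two classes of involutions -/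
structure Two (φ : M →* G) (ξ : G) : Prop extends Loc φ where
  act : Act φ ξ aZ
  cube : ξ ^ 3 = 1
  nc : ∀ g, g⁻¹ * φ mT * g ≠ φ mS

theorem Conf.act_xi {r : G} (h : Conf φ r) : Act φ (r⁻¹ * φ mA) aZ :=
  ((h.act.inv (B := cp aR aR) (by decide)).mul act_A).congr (by decide)

theorem Conf.xi_cube {r : G} (h : Conf φ r) : (r⁻¹ * φ mA) ^ 3 = 1 := by
  have h1 := h.toLoc.rho_cube h.act
  have h2 := A_cube (φ := φ)
  rw [h.comm.inv_left.mul_pow, inv_pow, show r ^ 3 = r * r * r by simp [pow_succ],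
    show φ mA ^ 3 = φ mA * φ mA * φ mA by simp [pow_succ], h1, h2, inv_one, one_mul]

variable (φ) in
/-- the centraliser of `s` -/
abbrev KK : Subgroup G := centralizer {φ mS}

variable (φ) in
/-- the class of `t` in the centraliser of `s` -/
def JJ2 : Set G := {v | ∃ g ∈ KK φ, v = g⁻¹ * φ mT * g}

theorem mem_KK {g : G} : g ∈ KK φ ↔ Commute g (el φ 4) := mem_centralizer_singleton_iff

theorem el_KK (k : Fin 16) : el φ k ∈ KK φ := mem_KK.2 (el_comm k 4)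

theorem AA_le : AA φ ≤ KK φ := by rintro _ ⟨k, rfl⟩; exact el_KK k

namespace Two

variable (h : Two φ ξ)
include h

theorem act' : Act φ ξ⁻¹ aZ' := h.act.inv (by decide)

theorem xi_mem : ξ ∈ KK φ := mem_KK.2 (comm_iff_conj.2 (h.act 4))

theorem small {g : G} {k : Fin 16} (e : g⁻¹ * φ mT * g = el φ k) : k = 1 ∨ k = 2 ∨ k = 3 := by
  rcases (by decide : ∀ k : Fin 16, k = 0 ∨ (k = 1 ∨ k = 2 ∨ k = 3) ∨ 4 ≤ k) k with rfl | e' | e'
  · exact absurd (conj_eq_one (e.trans el_zero)) (h.toLoc.el_ne (k := 1) (by decide))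
  · exact e'
  · obtain ⟨p, hp⟩ := h.toLoc.el_conj e'
    exact absurd (conj_back (e.trans hp)) (h.nc _)

theorem el_J {k : Fin 16} (e : k = 1 ∨ k = 2 ∨ k = 3) : el φ k ∈ JJ2 φ := by
  rcases e with rfl | rfl | rfl
  · exact ⟨1, one_mem _, by simp [el_one]⟩
  · exact ⟨ξ, h.xi_mem, (h.act 1).symm⟩
  · exact ⟨ξ⁻¹, inv_mem h.xi_mem, (h.act' 1).symm⟩

theorem conj_mem {c : G} (hc : c ∈ JJ2 φ) : ∃ g ∈ KK φ, c = g⁻¹ * φ mT * g ∧
    ∀ x ∈ KK φ, Commute x c → ∃ k, x = g⁻¹ * el φ k * g := by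
  obtain ⟨g, hg, rfl⟩ := hc
  refine ⟨g, hg, rfl, fun x hx hc => ?_⟩
  obtain ⟨k, hk⟩ := h.toLoc.mem_AA (g := g * x * g⁻¹) (k := 4) le_rfl
    (by simpa [mul_assoc] using hc.conj g) (mem_KK.1 (mul_mem (mul_mem hg hx) (inv_mem hg)))
  exact ⟨k, by rw [hk]; group⟩

theorem sq_of_comm {c x : G} (hc : c ∈ JJ2 φ) (hx : x ∈ KK φ) (e : Commute x c) : x * x = 1 := by
  obtain ⟨g, -, -, hg⟩ := h.conj_mem hc
  obtain ⟨k, rfl⟩ := hg x hx e
  rw [cmul', el_sq]; group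

theorem comm_of_comm {c x y : G} (hc : c ∈ JJ2 φ) (hx : x ∈ KK φ) (e : Commute x c)
    (hy : y ∈ KK φ) (e' : Commute y c) : Commute x y := by
  obtain ⟨g, -, -, hg⟩ := h.conj_mem hc
  obtain ⟨k, rfl⟩ := hg x hx e
  obtain ⟨l, rfl⟩ := hg y hy e'
  exact comm_conj.2 (el_comm k l)

theorem mem_AA' {x : G} {k : Fin 16} (e : k = 1 ∨ k = 2 ∨ k = 3) (hx : x ∈ KK φ)
    (hc : Commute x (el φ k)) : x ∈ AA φ :=
  h.toLoc.mem_AA (k := 4) le_rfl (h.comm_of_comm (h.el_J e) hx hc (el_KK 1) (el_comm 1 k))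
    (mem_KK.1 hx)

theorem norm_K {g : G} {i j : Fin 16} (hg : g ∈ KK φ) (hj : j = 1 ∨ j = 2 ∨ j = 3)
    (e : g⁻¹ * el φ i * g = el φ j) : g ∈ normalizer (AA φ : Set G) := norm_of fun k => by
  obtain ⟨l, hl⟩ := h.mem_AA' hj (mul_mem (mul_mem (inv_mem hg) (el_KK k)) hg)
    (e ▸ comm_conj.2 (el_comm k i))
  exact ⟨l, hl.symm⟩

theorem nk {g : G} (hg : g ∈ KK φ) (hn : g ∈ normalizer (AA φ : Set G)) :
    ∃ k, g = el φ k ∨ g = el φ k * ξ ∨ g = el φ k * ξ⁻¹ := by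
  obtain ⟨j, hj⟩ := of_norm hn 1
  rcases h.small hj with rfl | rfl | rfl
  · obtain ⟨k, hk⟩ := h.toLoc.mem_AA (k := 4) le_rfl (comm_iff_conj.2 hj) (mem_KK.1 hg)
    exact ⟨k, Or.inl hk.symm⟩
  · obtain ⟨k, hk⟩ := h.toLoc.mem_AA (k := 4) le_rfl
      (comm_iff_conj.2 (conj_back (hj.trans (h.act 1).symm)))
      (mem_KK.1 (mul_mem hg (inv_mem h.xi_mem)))
    exact ⟨k, Or.inr (Or.inl (by rw [hk]; group))⟩
  · obtain ⟨k, hk⟩ := h.toLoc.mem_AA (k := 4) le_rfl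
      (comm_iff_conj.2 (conj_back (hj.trans (h.act' 1).symm)))
      (mem_KK.1 (mul_mem hg (inv_mem (inv_mem h.xi_mem))))
    exact ⟨k, Or.inr (Or.inr (by rw [hk]; group))⟩

theorem nk_act {g : G} (hg : g ∈ KK φ) (hn : g ∈ normalizer (AA φ : Set G)) :
    Act φ g aI ∨ Act φ g aZ ∨ Act φ g aZ' := by
  obtain ⟨k, rfl | rfl | rfl⟩ := h.nk hg hn
  · exact Or.inl (act_el k)
  · exact Or.inr (Or.inl (((act_el k).mul h.act).congr (by decide)))
  · exact Or.inr (Or.inr (((act_el k).mul h.act').congr (by decide)))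

theorem two_el {g : G} {n : ℕ} (hg : g ∈ KK φ) (hn : g ∈ normalizer (AA φ : Set G))
    (h2 : g ^ 2 ^ n = 1) : g ∈ AA φ := by
  have key : ∀ A, Act φ g A → cp (cp A A) A = aI → ap4 A 1 = 1 := fun A hA e => by
    obtain ⟨m, hm⟩ := exists_pow_eq_self_of_coprime (x := g) (n := 3)
      (Nat.Coprime.coprime_dvd_right (orderOf_dvd_of_pow_eq_one h2)
        (Nat.Coprime.pow_right n (by norm_num)))
    have h3 : Commute (g ^ 3) (el φ 1) := by
      rw [show g ^ 3 = g * g * g by simp [pow_succ]]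
      exact comm_iff_conj.2 ((((hA.mul hA).mul hA).congr e) 1)
    exact h.toLoc.fix_of_comm hA (hm ▸ h3.pow_left m)
  rcases h.nk_act hg hn with e | e | e
  · exact h.toLoc.mem_of_act e
  · exact absurd (key _ e (by decide)) (by decide)
  · exact absurd (key _ e (by decide)) (by decide)

variable [Finite G]

theorem sylK : CfsgH1.IsSylowIn 2 (AA φ) (KK φ) :=
  CfsgH1.isSylowIn_of_maximal pgroup_AA AA_le fun Q hQ h1 h2 =>
    CfsgH1.le_of_inf_normalizer_le hQ h1 fun g hg => by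
      obtain ⟨n, hn⟩ := CfsgH1.isPGroup_iff_forall.1 hQ g hg.1
      exact h.two_el (h2 hg.1) hg.2 hn

theorem lt_four {k : Fin 16} (hk : el φ k ∈ CfsgH1.resIn 2 (KK φ)) : k < 4 := by
  let V : Subgroup G :=
    { carrier := {v | ∃ k : Fin 16, k < 4 ∧ v = el φ k}
      mul_mem' := by
        rintro _ _ ⟨a, ha, rfl⟩ ⟨b, hb, rfl⟩
        exact ⟨_, (by decide : ∀ a b : Fin 16, a < 4 → b < 4 → xr a b < 4) a b ha hb, el_mul a b⟩
      one_mem' := ⟨0, by decide, el_zero.symm⟩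
      inv_mem' := by rintro _ ⟨a, ha, rfl⟩; exact ⟨a, ha, el_inv a⟩ }
  have : AA φ ⊓ CfsgH1.resIn 2 (KK φ) ≤ V := by
    rw [h.sylK.inf_resIn_of_comm AA_comm, commutator_le]
    rintro _ ⟨j, rfl⟩ g hg
    have key : ∀ A, Act φ g⁻¹ A → xr j (ap4 A j) < 4 → ⁅el φ j, g⁆ ∈ V := fun A hA e =>
      ⟨_, e, by rw [← el_mul, ← hA, commutatorElement_def, el_inv]; group⟩
    rcases h.nk_act (inv_mem hg.1) (inv_mem hg.2) with e | e | e <;>
      exact key _ e (by clear * -; revert j; decide)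
  obtain ⟨l, hl, e⟩ := this ⟨el_mem k, hk⟩
  rwa [h.toLoc.el_inj e]

theorem xi_mem0 : ξ ∈ CfsgH1.resIn 2 (KK φ) :=
  CfsgH1.mem_resIn h.xi_mem
    (Nat.Coprime.coprime_dvd_left (orderOf_dvd_of_pow_eq_one h.cube) (by norm_num))

omit h in
theorem conj0 {g v : G} (hg : g ∈ KK φ) (hv : v ∈ CfsgH1.resIn 2 (KK φ)) :
    g⁻¹ * v * g ∈ CfsgH1.resIn 2 (KK φ) :=
  (mem_normalizer_iff''.1 (CfsgH1.le_normalizer_resIn _ hg) v).1 hv

theorem J_le {v : G} (hv : v ∈ JJ2 φ) : v ∈ CfsgH1.resIn 2 (KK φ) := by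
  obtain ⟨g, hg, rfl⟩ := hv
  refine conj0 hg ?_
  have := mul_mem (conj0 (el_KK 2) (inv_mem h.xi_mem0)) h.xi_mem0
  rwa [mul_assoc, mul_assoc, ← mul_assoc ξ⁻¹, h.act, el_inv, el_mul] at this

omit h [Finite G] in
theorem J_conj {v g : G} (hv : v ∈ JJ2 φ) (hg : g ∈ KK φ) : g⁻¹ * v * g ∈ JJ2 φ := by
  obtain ⟨a, ha, rfl⟩ := hv
  exact ⟨a * g, mul_mem ha hg, by group⟩

omit [Finite G] in
theorem J_inv {v : G} (hv : v ∈ JJ2 φ) : v ∈ KK φ ∧ v * v = 1 ∧ v ≠ 1 := by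
  obtain ⟨a, ha, rfl⟩ := hv
  exact ⟨mul_mem (mul_mem (inv_mem ha) (el_KK 1)) ha,
    inv_conj a _ ⟨el_sq 1, h.toLoc.el_ne (k := 1) (by decide)⟩⟩

theorem into_A {v : G} (hv : v ∈ KK φ) (h2 : v * v = 1) :
    ∃ g ∈ KK φ, ∃ k, v = g⁻¹ * el φ k * g := by
  obtain ⟨g, hg, hle⟩ := h.sylK.exists_cj_le
    (CfsgH1.isPGroup_zpowers (x := v) (k := 1) (by simpa [pow_two] using h2)) ((zpowers_le).2 hv)
  obtain ⟨k, hk⟩ := hle (CfsgH1.conj_mem_cj g (mem_zpowers v))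
  exact ⟨g, hg, k, by rw [hk]; group⟩

theorem mem_J {v a : G} (hv : v ∈ KK φ) (e : v = a⁻¹ * φ mT * a) : v ∈ JJ2 φ := by
  obtain ⟨g, hg, k, hk⟩ := h.into_A hv (by rw [e, cmul', show φ mT * φ mT = 1 from el_sq 1]; group)
  exact hk ▸ J_conj (h.el_J (h.small (conj_back (e.symm.trans hk)))) hg

theorem mem_J0 {v : G} (hv : v ∈ CfsgH1.resIn 2 (KK φ)) (h2 : v * v = 1) (h1 : v ≠ 1) :
    v ∈ JJ2 φ := by
  obtain ⟨g, hg, k, rfl⟩ := h.into_A (CfsgH1.resIn_le _ hv) h2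
  have := conj0 (inv_mem hg) hv
  rw [show g⁻¹⁻¹ * (g⁻¹ * el φ k * g) * g⁻¹ = el φ k by group] at this
  refine J_conj (h.el_J ((by decide : ∀ k : Fin 16, k < 4 → k ≠ 0 → k = 1 ∨ k = 2 ∨ k = 3) k
    (h.lt_four this) ?_)) hg
  rintro rfl
  exact h1 (by simp [el_zero])

theorem odd_J {x y : G} (hx : x ∈ JJ2 φ) (hy : y ∈ JJ2 φ) (hc : ¬ Commute x y) :
    Odd (orderOf (x * y)) := by
  refine (odd_or_central (h.J_inv hx).2.1 (h.J_inv hy).2.1).resolve_right ?_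
  rintro ⟨c, hc0, c2, c1, cx, cy⟩
  exact hc (h.comm_of_comm (h.mem_J0 (zpowers_le.2 (mul_mem (h.J_le hx) (h.J_le hy)) hc0) c2 c1)
    (h.J_inv hx).1 cx.symm (h.J_inv hy).1 cy.symm)

omit [Finite G] in
theorem card_K : (JJ2 φ).ncard * 16 = Nat.card (KK φ) := by
  have : KK φ ⊓ centralizer {φ mT} = AA φ := le_antisymm
    (fun g hg => h.mem_AA' (k := 1) (Or.inl rfl) hg.1 (mem_centralizer_singleton_iff.1 hg.2))
    (le_inf AA_le (by rintro _ ⟨k, rfl⟩; exact mem_centralizer_singleton_iff.2 (el_comm k 1)))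
  rw [← ncard_class (KK φ) (φ mT), this, h.toLoc.card_AA]; rfl

omit [Finite G] in
theorem J_A {x : G} (hx : x ∈ JJ2 φ) {i j : Fin 16} (hj : j = 1 ∨ j = 2 ∨ j = 3)
    (e : x⁻¹ * el φ i * x = el φ j) : x ∈ ({el φ 1, el φ 2, el φ 3} : Set G) := by
  obtain ⟨k, rfl⟩ := h.two_el (n := 1) (h.J_inv hx).1 (h.norm_K (h.J_inv hx).1 hj e)
    (by simpa [pow_two] using (h.J_inv hx).2.1)
  obtain ⟨g, -, hg⟩ := hx
  rcases h.small hg.symm with rfl | rfl | rfl <;> simp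

omit [Finite G] in
theorem card_V : ({el φ 1, el φ 2, el φ 3} : Set G).ncard = 3 :=
  Set.ncard_eq_three.2 ⟨_, _, _, h.toLoc.el_inj.ne (by decide), h.toLoc.el_inj.ne (by decide),
    h.toLoc.el_inj.ne (by decide), rfl⟩

omit [Finite G] in
theorem V_sub : ({el φ 1, el φ 2, el φ 3} : Set G) ⊆ JJ2 φ := by
  rintro _ (rfl | rfl | rfl) <;> exact h.el_J (by simp)

omit [Finite G] in
theorem el_xi (j : Fin 16) : el φ j * ξ * el φ j = el φ (xr j (ap4 aZ' j)) * ξ := by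
  rw [← el_mul, ← h.act']; group

omit [Finite G] in
theorem not_V {x : G} (e : x * ξ * x = ξ⁻¹) : x ∉ ({el φ 1, el φ 2, el φ 3} : Set G) := by
  have : ∀ k, el φ k * ξ * el φ k ≠ ξ⁻¹ := fun k e =>
    absurd (h.toLoc.act_unique (((act_el k).mul h.act).mul (act_el k)) (e ▸ h.act')) (by decide)
  rintro (rfl | rfl | rfl) <;> exact this _ e

theorem card_J : (JJ2 φ).ncard = 3 + 4 * {x | x ∈ JJ2 φ ∧ x * ξ * x = ξ⁻¹}.ncard := by
  set I := {x | x ∈ JJ2 φ ∧ x * ξ * x = ξ⁻¹} with hI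
  have e1 : JJ2 φ \ {el φ 1, el φ 2, el φ 3} =
      (fun p : Fin 16 × G => el φ p.1 * p.2 * el φ p.1) '' ({j | j < 4} ×ˢ I) := by
    ext x
    constructor
    · rintro ⟨hx, hV⟩
      obtain ⟨xK, x2, -⟩ := h.J_inv hx
      have xi : x⁻¹ = x := inv_eq_of_mul_eq_one_left x2
      have hv := J_conj (h.el_J (k := 2) (by simp)) xK
      have ht := h.el_J (k := 1) (by simp)
      have nc : ¬ Commute (el φ 1) (x⁻¹ * el φ 2 * x) := fun e => by
        obtain ⟨k, hk⟩ := h.mem_AA' (k := 1) (Or.inl rfl) (h.J_inv hv).1 e.symm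
        obtain ⟨g, -, hg⟩ := hv
        exact hV (h.J_A hx (h.small (hg.symm.trans hk.symm)) hk.symm)
      obtain ⟨n, -, m2, hm⟩ := exists_mid (el_sq 1) (h.J_inv hv).2.1 (h.odd_J ht hv nc)
      have m0 : (el φ 1 * (x⁻¹ * el φ 2 * x)) ^ n * el φ 1 ∈ CfsgH1.resIn 2 (KK φ) :=
        mul_mem (pow_mem (mul_mem (h.J_le ht) (h.J_le hv)) n) (h.J_le ht)
      generalize (el φ 1 * (x⁻¹ * el φ 2 * x)) ^ n * el φ 1 = m at m2 hm m0
      have mi : m⁻¹ = m := inv_eq_of_mul_eq_one_left m2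
      have d0 := mul_mem m0 (h.J_le hx)
      have d1 : (m * x)⁻¹ * el φ 1 * (m * x) = el φ 2 := by
        rw [mul_inv_rev, mi, mul_assoc x⁻¹, hm, xi]
        simp only [← mul_assoc]
        rw [x2, one_mul, mul_assoc _ m m, m2, mul_one, mul_assoc, x2, mul_one]
      have dK := CfsgH1.resIn_le _ d0
      obtain ⟨k, e | e | e⟩ := h.nk dK (h.norm_K dK (by simp) d1)
      · rw [e, act_el] at d1
        exact absurd (h.toLoc.el_inj d1) (by decide)
      · have k4 := h.lt_four (k := k) (by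
          have := mul_mem d0 (inv_mem h.xi_mem0)
          rwa [e, mul_inv_cancel_right] at this)
        obtain ⟨j, hj, rfl⟩ := (by decide : ∀ k : Fin 16, k < 4 → ∃ j : Fin 16, j < 4 ∧
          k = xr j (ap4 aZ' j)) k k4
        rw [← h.el_xi] at e
        refine ⟨(j, (el φ j)⁻¹ * x * el φ j), ⟨hj, J_conj hx (el_KK j), ?_⟩, ?_⟩
        · have e2 : ξ = (el φ j)⁻¹ * (m * x) * el φ j := by
            rw [e, ← mul_assoc, ← mul_assoc, inv_mul_cancel, one_mul, mul_assoc, el_sq, mul_one]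
          rw [e2, cmul', cmul', mul_assoc x, mul_assoc m, x2, mul_one]
          nth_rewrite 1 [← xi, ← mi]
          group
        · simp only [← mul_assoc, mul_inv_cancel, one_mul]
          rw [mul_assoc, el_sq, mul_one]
      · rw [e, (act_el k).mul h.act'] at d1
        exact absurd (h.toLoc.el_inj d1) (by decide)
    · rintro ⟨⟨j, y⟩, ⟨-, hy, e⟩, rfl⟩
      refine ⟨by simpa only [el_inv] using J_conj hy (el_KK j), fun hV => h.not_V e ?_⟩
      have : ∀ k, el φ j * y * el φ j = el φ k → y = el φ k := fun k e => by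
        rw [← comm_iff_conj.1 (el_comm (φ := φ) j k), ← e, ← mul_assoc, ← mul_assoc,
          inv_mul_cancel, one_mul, mul_assoc, el_sq, mul_one]
      rcases hV with e | e | e <;> rw [this _ e] <;> simp
  have e2 : Set.InjOn (fun p : Fin 16 × G => el φ p.1 * p.2 * el φ p.1) ({j | j < 4} ×ˢ I) := by
    rintro ⟨j, x⟩ ⟨hj, hx, ex⟩ ⟨j', y⟩ ⟨hj', hy, ey⟩ e
    simp only at e hj hj' hx ex hy ey
    have e3 : y = el φ (xr j' j) * x * el φ (xr j' j) := by
      nth_rewrite 2 [xr_comm]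
      rw [← el_mul, ← el_mul, show el φ j' * el φ j * x * (el φ j * el φ j') =
        el φ j' * (el φ j * x * el φ j) * el φ j' by group, e, ← mul_assoc, ← mul_assoc, el_sq,
        one_mul, mul_assoc, el_sq, mul_one]
    by_cases hjj : j = j'
    · subst hjj
      rw [e3, xr_self, el_zero, one_mul, mul_one]
    exfalso
    have hl := (by decide : ∀ j j' : Fin 16, j < 4 → j' < 4 → j ≠ j' →
      ap4 aZ (xr (xr j' j) (ap4 aZ' (xr j' j))) = 1 ∨ ap4 aZ (xr (xr j' j) (ap4 aZ' (xr j' j))) = 2 ∨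
        ap4 aZ (xr (xr j' j) (ap4 aZ' (xr j' j))) = 3) j j' hj hj' hjj
    generalize xr j' j = i at e3 hl
    have xi : x⁻¹ = x := inv_eq_of_mul_eq_one_left (h.J_inv hx).2.1
    refine h.not_V ex (h.J_A hx (i := xr i (ap4 aZ' i)) hl ?_)
    have e4 : x * (el φ i * ξ * el φ i) * x = (el φ i * ξ * el φ i)⁻¹ := by
      rw [mul_inv_rev, mul_inv_rev, ← ey, e3, el_inv]
      simp only [← mul_assoc, el_sq, one_mul]
      rw [mul_assoc _ (el φ i) (el φ i), el_sq, mul_one]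
    rw [h.el_xi] at e4
    rw [← h.act, xi, show x * el φ (xr i (ap4 aZ' i)) * x =
      (x * (el φ (xr i (ap4 aZ' i)) * ξ) * x) * (x * ξ * x)⁻¹ * (x * x) by group,
      (h.J_inv hx).2.1, ex, e4, mul_inv_rev, el_inv]
    group
  have e3 := Set.ncard_sdiff_add_ncard_of_subset h.V_sub
  rw [e1, Set.InjOn.ncard_image e2, Set.ncard_prod, h.card_V,
    show {j : Fin 16 | j < 4}.ncard = 4 by
      rw [Set.ncard_eq_toFinset_card']; decide] at e3
  omega

theorem card_J' : (JJ2 φ).ncard = 3 ∨ (JJ2 φ).ncard = 15 := by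
  have h1 := h.card_J
  set I := {x | x ∈ JJ2 φ ∧ x * ξ * x = ξ⁻¹} with hI
  rcases I.eq_empty_or_nonempty with e | ⟨x, hx, ex⟩
  · left; rw [h1, e]; simp
  right
  set B := CfsgH1.resIn 2 (KK φ) ⊓ centralizer {ξ} with hB
  have BK : B ≤ KK φ := inf_le_left.trans (CfsgH1.resIn_le _)
  have x3 : orderOf ξ = 3 := orderOf_eq_prime h.cube fun e =>
    absurd (h.toLoc.act_unique h.act (e ▸ act_one)) (by decide)
  have ho : Odd (Nat.card B) := CfsgH4.odd_card_iff_no_involution.2 fun v hv v2 => by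
    have := CfsgH4.orderOf_eq_two_iff.1 v2
    have h2 := h.sq_of_comm (h.mem_J0 hv.1 this.1 this.2) h.xi_mem
      (mem_centralizer_singleton_iff.1 hv.2).symm
    have := orderOf_dvd_of_pow_eq_one ((pow_two ξ).trans h2)
    rw [x3] at this; omega
  have h3 : 3 ∣ Nat.card B :=
    x3.symm.dvd.trans (B.orderOf_dvd_natCard ⟨h.xi_mem0, mem_centralizer_singleton_iff.2 rfl⟩)
  have h4 := ncard_class B x
  rw [show B ⊓ centralizer {x} = ⊥ from eq_bot_iff.2 fun g hg => by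
    by_contra g1
    exact CfsgH4.odd_card_iff_no_involution.1 ho g hg.1 (CfsgH4.orderOf_eq_two_iff.2
      ⟨h.sq_of_comm hx (BK hg.1) (mem_centralizer_singleton_iff.1 hg.2), g1⟩), card_bot,
    mul_one] at h4
  have h5 : Nat.card B ≤ I.ncard := h4 ▸ Set.ncard_le_ncard (by
    rintro _ ⟨g, hg, rfl⟩
    refine ⟨J_conj hx (BK hg), ?_⟩
    have : g⁻¹ * ξ * g = ξ := comm_iff_conj.1 (mem_centralizer_singleton_iff.1 hg.2)
    nth_rewrite 1 [← this]
    rw [cmul', cmul', ex]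
    nth_rewrite 2 [← this]
    group) (Set.toFinite _)
  have h6 : I.ncard ≤ Nat.card B := by
    rw [← SetLike.coe_sort_coe, Nat.card_coe_set_eq]
    refine Set.ncard_le_ncard_of_injOn (fun y => x * y) ?_ (fun a _ b _ e => by simpa using e)
      (Set.toFinite _)
    rintro y ⟨hy, ey⟩
    refine ⟨mul_mem (h.J_le hx) (h.J_le hy), mem_centralizer_singleton_iff.2 ?_⟩
    have yi : y⁻¹ = y := inv_eq_of_mul_eq_one_left (h.J_inv hy).2.1
    have xi : x⁻¹ = x := inv_eq_of_mul_eq_one_left (h.J_inv hx).2.1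
    have e1 : y * ξ = ξ⁻¹ * y := by rw [← ey, mul_assoc _ y y, (h.J_inv hy).2.1, mul_one]
    have e2 : x * ξ⁻¹ = ξ * x := by rw [← ex, ← mul_assoc, ← mul_assoc, (h.J_inv hx).2.1, one_mul]
    rw [mul_assoc, e1, ← mul_assoc, e2, mul_assoc]
  have h7 : Nat.card B ∣ (JJ2 φ).ncard := by
    have := card_dvd_of_le BK
    rw [← h.card_K] at this
    exact (Nat.Coprime.pow_right 4 ho.coprime_two_right).dvd_of_dvd_mul_right this
  rw [le_antisymm h6 h5] at h1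
  rw [h1] at h7 ⊢
  rw [Nat.dvd_antisymm ((Nat.dvd_add_left (Dvd.intro_left _ rfl)).1 h7) h3]

omit [Finite G] in
theorem T2 : orderOf (φ mT) = 2 :=
  CfsgH4.orderOf_eq_two_iff.2 ⟨el_sq 1, h.toLoc.el_ne (k := 1) (by decide)⟩

omit [Finite G] in
theorem S2 : orderOf (φ mS) = 2 :=
  CfsgH4.orderOf_eq_two_iff.2 ⟨el_sq 4, h.toLoc.el_ne (k := 4) (by decide)⟩

omit h [Finite G] in
theorem isConj_iff' {a b : G} : IsConj a b ↔ ∃ g, b = g⁻¹ * a * g :=
  isConj_iff.trans ⟨fun ⟨g, e⟩ => ⟨g⁻¹, by rw [inv_inv, e]⟩, fun ⟨g, e⟩ => ⟨g⁻¹, by rw [inv_inv, e]⟩⟩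

omit h [Finite G] in
theorem inv_of {a b : G} (e : IsConj a b) (ha : orderOf a = 2) : b * b = 1 ∧ b ≠ 1 := by
  obtain ⟨g, rfl⟩ := isConj_iff'.1 e
  exact inv_conj g a (CfsgH4.orderOf_eq_two_iff.1 ha)

omit [Finite G] in
theorem nconj : ¬ IsConj (φ mT) (φ mS) := fun e =>
  let ⟨g, hg⟩ := isConj_iff'.1 e
  h.nc g hg.symm

omit [Finite G] in
theorem cls' {m : M} (h2 : φ m * φ m = 1) (h1 : φ m ≠ 1) :
    (m.1 < 32 ∧ IsConj (φ mT) (φ m)) ∨ (32 ≤ m.1 ∧ IsConj (φ mS) (φ m)) := by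
  rcases h.toLoc.cls h2 h1 with rfl | ⟨e, p, hp⟩ | ⟨e, p, hp⟩
  · exact Or.inl ⟨by decide, IsConj.refl _⟩
  · exact Or.inl ⟨e, (isConj_iff'.2 ⟨ξ, (h.act 1).symm⟩).trans (isConj_iff'.2 ⟨_, hp⟩)⟩
  · exact Or.inr ⟨e, isConj_iff'.2 ⟨_, hp⟩⟩

theorem card_T : Nat.card {p : G × G // IsConj (φ mT) p.1 ∧ IsConj (φ mS) p.2 ∧
    φ mT ∈ zpowers (p.1 * p.2)} = 960 := by
  rw [← m_pairs]
  refine (Nat.card_coe_set_eq {p : G × G | IsConj (φ mT) p.1 ∧ IsConj (φ mS) p.2 ∧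
    φ mT ∈ zpowers (p.1 * p.2)}).trans (ncard_eq_countLt _ _
      (fun i => (φ (MM.mk (i % 32)), φ (MM.mk (i / 32)))) _ (fun i j hi hj _ _ e => ?_) ?_)
  · have e1 := congrArg (fun a : M => a.1) (h.inj (congrArg Prod.fst e))
    have e2 := congrArg (fun a : M => a.1) (h.inj (congrArg Prod.snd e))
    rw [MM.val_mk (by omega), MM.val_mk (by omega)] at e1 e2
    omega
  rintro ⟨a, b⟩
  simp only [pairT, decide_eq_true_eq, Set.mem_ofPred_eq, Prod.mk.injEq]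
  constructor
  · rintro ⟨ha, hb, hz⟩
    have a2 := inv_of ha h.T2
    have b2 := inv_of hb h.S2
    obtain ⟨m, rfl⟩ := h.cent a (CfsgH4.dih_commute_left a2.1 b2.1 hz (el_sq 1)).symm
    obtain ⟨n, rfl⟩ := h.cent b (CfsgH4.dih_commute_right a2.1 b2.1 hz (el_sq 1)).symm
    have hm := ((h.cls' a2.1 a2.2).resolve_right fun e => h.nconj (ha.trans e.2.symm)).1
    have hn := ((h.cls' b2.1 b2.2).resolve_left fun e => h.nconj (e.2.trans hb.symm)).1
    have e1 : (m.1 + 32 * n.1) % 32 = m.1 := by omega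
    have e2 : (m.1 + 32 * n.1) / 32 = n.1 := by omega
    have m2 : m * m = 1 := h.inj (by rw [map_mul, a2.1, map_one])
    have n2 : n * n = 1 := h.inj (by rw [map_mul, b2.1, map_one])
    refine ⟨m.1 + 32 * n.1, by have := n.2; omega, ?_⟩
    rw [e1, e2, MM.mk_val, MM.mk_val]
    refine ⟨⟨n2, hn, m2, fun e => a2.2 ?_, ?_⟩, rfl, rfl⟩
    · rw [← MM.mk_val m, e]; exact map_one φ
    · have h8 := m_eight n n2 ⟨m.1, hm⟩ (by rw [MM.mk_val]; exact m2)
      rw [MM.mk_val] at h8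
      obtain ⟨k, hk⟩ := mem_powers_iff_mem_zpowers.2 hz
      refine ⟨⟨k % 8, Nat.mod_lt _ (by norm_num)⟩, h.inj ?_⟩
      rw [← pow_eq_pow_mod k h8, map_pow, map_mul]; exact hk
  · rintro ⟨i, hi, ⟨n2, hn, m2, hm, k, hk⟩, rfl, rfl⟩
    have v1 : (MM.mk (i % 32) : M).1 = i % 32 := MM.val_mk (by omega)
    have v2 : (MM.mk (i / 32) : M).1 = i / 32 := MM.val_mk (by omega)
    have ne : ∀ m : M, m.1 ≠ 0 → φ m ≠ 1 := fun m h0 e =>
      h0 (by rw [h.inj (e.trans (map_one φ).symm)]; rfl)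
    refine ⟨((h.cls' (by rw [← map_mul, m2, map_one]) (ne _ (by omega))).resolve_right
      fun e => by omega).2, ((h.cls' (by rw [← map_mul, n2, map_one])
        (ne _ (by omega))).resolve_left fun e => by omega).2, ?_⟩
    rw [← hk, map_pow, map_mul]
    exact pow_mem (mem_zpowers _) _

theorem card_fib {x : G} (hx : x ∈ JJ2 φ) :
    {k | k ∈ JJ2 φ ∧ (k = x ∨ ¬ Commute x k)}.ncard = (JJ2 φ).ncard - 2 := by
  obtain ⟨g, hg, rfl, hc⟩ := h.conj_mem hx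
  have inj : ∀ {i j}, g⁻¹ * el φ i * g = g⁻¹ * el φ j * g → i = j := fun e =>
    h.toLoc.el_inj (mul_left_cancel (mul_right_cancel e))
  have : {k | k ∈ JJ2 φ ∧ (k = g⁻¹ * φ mT * g ∨ ¬ Commute (g⁻¹ * φ mT * g) k)} =
      JJ2 φ \ {g⁻¹ * el φ 2 * g, g⁻¹ * el φ 3 * g} := by
    ext k
    refine and_congr_right fun hk => ⟨?_, fun hn => ?_⟩
    · rintro (e | e) (rfl | rfl)
      · exact absurd (inj (j := 1) e) (by decide)
      · exact absurd (inj (j := 1) e) (by decide)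
      · exact e (comm_conj.2 (el_comm 1 2))
      · exact e (comm_conj.2 (el_comm 1 3))
    · rw [or_iff_not_imp_right, not_not]
      intro e
      obtain ⟨l, rfl⟩ := hc k (h.J_inv hk).1 e.symm
      obtain ⟨a, -, ha⟩ := hk
      rcases h.small (conj_back ha.symm) with rfl | rfl | rfl
      · rfl
      · exact absurd (Or.inl rfl) hn
      · exact absurd (Or.inr rfl) hn
  rw [this, Set.ncard_sdiff (by
    rintro _ (rfl | rfl) <;> exact J_conj (h.el_J (by simp)) hg),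
    Set.ncard_pair fun e => absurd (inj e) (by decide)]

theorem card_S : Nat.card {p : G × G // IsConj (φ mT) p.1 ∧ IsConj (φ mS) p.2 ∧
    φ mS ∈ zpowers (p.1 * p.2)} = (JJ2 φ).ncard * ((JJ2 φ).ncard - 2) := by
  classical
  have s2 : φ mS * φ mS = 1 := el_sq 4
  have s0 : φ mS ∉ CfsgH1.resIn 2 (KK φ) := fun e => absurd (h.lt_four (k := 4) e) (by decide)
  have cs : ∀ g ∈ KK φ, Commute (φ mS) g := fun g hg => (mem_KK.1 hg).symm
  have spow : ∀ j, φ mS ^ (2 * j) = 1 := fun j => by rw [pow_mul, pow_two, s2, one_pow]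
  have e1 : {p : G × G | IsConj (φ mT) p.1 ∧ IsConj (φ mS) p.2 ∧ φ mS ∈ zpowers (p.1 * p.2)} =
      (fun p : G × G => (p.1, φ mS * p.2)) ''
        {p | p.1 ∈ JJ2 φ ∧ p.2 ∈ JJ2 φ ∧ (p.2 = p.1 ∨ ¬ Commute p.1 p.2)} := by
    ext ⟨a, b⟩
    constructor
    · rintro ⟨ha, hb, hz⟩
      have a2 := inv_of ha h.T2
      have b2 := inv_of hb h.S2
      have aK : a ∈ KK φ := mem_KK.2 (CfsgH4.dih_commute_left a2.1 b2.1 hz s2).symm
      have bK : b ∈ KK φ := mem_KK.2 (CfsgH4.dih_commute_right a2.1 b2.1 hz s2).symm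
      obtain ⟨g, hg⟩ := isConj_iff'.1 ha
      have aJ := h.mem_J aK hg
      obtain ⟨j, hj⟩ := mem_powers_iff_mem_zpowers.2 hz
      replace hj : (a * b) ^ j = φ mS := hj
      have h0 : ∀ j, (b ^ j)⁻¹ * (a * b) ^ j ∈ CfsgH1.resIn 2 (KK φ) := fun j => by
        induction j with
        | zero => simp
        | succ j ih =>
          have := conj0 bK (mul_mem ih (h.J_le aJ))
          rwa [show b⁻¹ * ((b ^ j)⁻¹ * (a * b) ^ j * a) * b =
            (b ^ (j + 1))⁻¹ * (a * b) ^ (j + 1) by rw [pow_succ, pow_succ]; group] at this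
      have h1 := h0 j
      have bpow : ∀ j, b ^ (2 * j) = 1 := fun j => by rw [pow_mul, pow_two, b2.1, one_pow]
      rcases Nat.even_or_odd' j with ⟨j, rfl | rfl⟩
      · rw [bpow, hj, inv_one, one_mul] at h1
        exact absurd h1 s0
      rw [pow_succ b, bpow, one_mul, hj, inv_eq_of_mul_eq_one_left b2.1, ← (cs b bK).eq] at h1
      have eb : b = φ mS * (φ mS * b) := by rw [← mul_assoc, s2, one_mul]
      have kK := CfsgH1.resIn_le _ h1
      have k2 : φ mS * b * (φ mS * b) = 1 := by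
        rw [mul_assoc, ← mul_assoc b, ← (cs b bK).eq, mul_assoc, b2.1, mul_one, s2]
      generalize φ mS * b = k at h1 eb kK k2
      have h3 : (a * k) ^ (2 * j + 1) = 1 := by
        rw [eb, ← mul_assoc, ← (cs a aK).eq, mul_assoc, (cs _ (mul_mem aK kK)).mul_pow, pow_succ,
          spow, one_mul] at hj
        exact mul_eq_left.1 hj
      have h4 : Commute a k → k = a := fun e => by
        rw [pow_succ, pow_mul, e.mul_pow, pow_two, pow_two, a2.1, k2, one_mul, one_pow,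
          one_mul] at h3
        rw [eq_inv_of_mul_eq_one_right h3, inv_eq_of_mul_eq_one_left a2.1]
      refine ⟨(a, k), ⟨aJ, h.mem_J0 h1 k2 fun (e : k = 1) => a2.2 ?_, ?_⟩, by rw [eb]⟩
      · rw [← h4 (e ▸ Commute.one_right a), e]
      · rw [or_iff_not_imp_right, not_not]; exact h4
    · rintro ⟨⟨x, k⟩, ⟨hx, hk, e⟩, e'⟩
      obtain ⟨rfl, rfl⟩ := Prod.mk.inj e'
      simp only at hx hk e ⊢
      have xK := (h.J_inv hx).1
      have kK := (h.J_inv hk).1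
      refine ⟨(hx.imp fun _ e => e.2) |> isConj_iff'.2, ?_, ?_⟩
      · obtain ⟨g, hg, rfl⟩ := hk
        refine isConj_iff'.2 ⟨φ mQ * g, ?_⟩
        rw [show (φ mQ * g)⁻¹ * φ mS * (φ mQ * g) = g⁻¹ * ((φ mQ)⁻¹ * el φ 4 * φ mQ) * g by
          rw [el_four]; group, act_Q, show ap4 aQ 4 = xr 4 1 by rfl, ← el_mul, ← cmul', el_four,
          comm_iff_conj.1 (cs g hg).symm, el_one]
      · obtain ⟨j, hj⟩ : Odd (orderOf (x * k)) := by
          rcases e with rfl | e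
          · rw [(h.J_inv hx).2.1, orderOf_one]; exact odd_one
          · exact h.odd_J hx hk e
        refine mem_powers_iff_mem_zpowers.1 ⟨2 * j + 1, ?_⟩
        show (x * (φ mS * k)) ^ (2 * j + 1) = _
        rw [← mul_assoc, ← (cs x xK).eq, mul_assoc, (cs _ (mul_mem xK kK)).mul_pow, ← hj,
          pow_orderOf_eq_one, hj, pow_succ, spow, one_mul, mul_one]
  refine (Nat.card_coe_set_eq {p : G × G | IsConj (φ mT) p.1 ∧ IsConj (φ mS) p.2 ∧
    φ mS ∈ zpowers (p.1 * p.2)}).trans ?_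
  rw [e1, Set.ncard_image_of_injective _ (fun a b e => by simpa [Prod.ext_iff] using e),
    ← Nat.card_coe_set_eq]
  have := Fintype.ofFinite G
  refine (Nat.card_congr (Equiv.subtypeProdEquivSigmaSubtype fun x k =>
    x ∈ JJ2 φ ∧ k ∈ JJ2 φ ∧ (k = x ∨ ¬ Commute x k))).trans ?_
  rw [Nat.card_sigma, Finset.sum_congr rfl
    (g := fun x => if x ∈ JJ2 φ then (JJ2 φ).ncard - 2 else 0) fun x _ => ?_]
  · rw [← Finset.sum_filter, Finset.sum_const, smul_eq_mul, Set.ncard_eq_toFinset_card' (JJ2 φ)]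
    congr 2
    ext; simp
  · split_ifs with hx
    · rw [← h.card_fib hx, ← Nat.card_coe_set_eq]
      exact Nat.card_congr (Equiv.subtypeEquivRight fun k => and_iff_right hx)
    · simp [hx]

theorem card_G : Nat.card G = 1920 * (JJ2 φ).ncard * ((JJ2 φ).ncard + 6) := by
  have := Cfsg.Agent.S0213.result _ _ h.T2 h.S2 h.nconj fun v hv => by
    have v2 := CfsgH4.orderOf_eq_two_iff.1 hv
    obtain ⟨g, -, m, hm⟩ := h.toLoc.conj_into le_top (mem_top v) v2.1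
    have := inv_conj g v v2
    rw [hm] at this
    have e := (isConj_iff'.2 ⟨g, hm.symm⟩).symm
    exact (h.cls' this.1 this.2).imp (fun e' => e'.2.trans e) fun e' => e'.2.trans e
  rw [h.card_T, h.card_S, h.toLoc.centralizer_eq, h.toLoc.card_range, ← h.card_K] at this
  rcases h.card_J' with e | e <;> rw [this, e]

theorem not_three : (JJ2 φ).ncard ≠ 3 := fun h3 => by
  have := Fact.mk (by norm_num : Nat.Prime 5)
  have hJ := Set.eq_of_subset_of_ncard_le h.V_sub (by rw [h3, h.card_V])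
  have key : ∀ m, m * m = 1 → Commute m (φ mS) → Commute m (φ mT) := fun m m2 ms => by
    have mK : m ∈ KK φ := mem_KK.2 ms
    have : m⁻¹ * el φ 1 * m ∈ ({el φ 1, el φ 2, el φ 3} : Set G) :=
      hJ ▸ J_conj (h.el_J (by simp)) mK
    obtain ⟨k, rfl⟩ := h.two_el (n := 1) mK (by
      rcases this with e | e | e <;> exact h.norm_K mK (by simp) e) (by simpa [pow_two] using m2)
    exact el_comm k 1
  have hu : ∀ m, m * m = 1 → Commute m (φ mT) → Commute m (φ mC) → m = 1 ∨ m = φ mT :=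
    fun m m2 mt mc => by
      obtain ⟨a, rfl⟩ := h.cent m mt
      rcases m_c1 a (h.inj (by rw [map_mul, m2, map_one])) (h.toLoc.of_comm mc) with e | e
      · left; rw [e, map_one]
      · right; rw [e]
  have c1 := ncard_class ⊤ (φ mT)
  rw [top_inf_eq, h.toLoc.centralizer_eq, h.toLoc.card_range, card_top, h.card_G, h3] at c1
  have c2 := ncard_modEq_fixed (I := {v | ∃ g ∈ (⊤ : Subgroup G), v = g⁻¹ * φ mT * g})
    (g := φ mC) 5 (by rw [← map_pow, show mC ^ 5 = 1 by decide +kernel, map_one]) (by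
      rintro _ ⟨g, -, rfl⟩
      exact ⟨g * φ mC, mem_top _, by group⟩)
  obtain ⟨v, ⟨⟨g, -, hg⟩, hv⟩, v1⟩ : ∃ v ∈ {v | v ∈ {v | ∃ g ∈ (⊤ : Subgroup G),
      v = g⁻¹ * φ mT * g} ∧ Commute v (φ mC)}, v ≠ φ mT := by
    by_contra hn
    push Not at hn
    have := Set.ncard_le_ncard (t := {φ mT}) hn
    rw [Set.ncard_singleton] at this
    unfold Nat.ModEq at c2
    omega
  have v2 := hg ▸ inv_conj g _ ⟨el_sq (φ := φ) 1, h.toLoc.el_ne (k := 1) (by decide)⟩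
  obtain ⟨m, m2, -, mt, hm⟩ := gen_lemma (r := φ mS) (el_sq 1)
    (h.toLoc.el_ne (k := 1) (by decide)) (el_sq 4)
    (by rw [← map_mul, ← map_mul, show mS * mC * mS = mC⁻¹ by decide +kernel, map_inv])
    (comm_T mC).symm hu hv fun e => (hu v v2.1 e hv).elim v2.2 v1
  rcases hm with e | e
  · exact mt (key m m2 e)
  · have e1 : el φ 1 * φ mS = (φ mQ)⁻¹ * φ mS * φ mQ := by
      rw [← el_four, act_Q, el_mul]; rfl
    rw [e1] at e
    have := key (φ mQ * m * (φ mQ)⁻¹) (by rw [conj_mul, m2]; group)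
      (by simpa [mul_assoc] using e.conj (φ mQ))
    have := this.conj (φ mQ)⁻¹
    rw [inv_inv, comm_iff_conj.1 (comm_T mQ)] at this
    exact mt (by simpa [mul_assoc, el_one] using this)

theorem card_J2 : Nat.card G = 604800 := by
  rw [h.card_G, h.card_J'.resolve_left h.not_three]

end Two

end CfsgH9.J3
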