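/-
Extensions of an extraspecial group of order 32 by `A₅`.
-/
import Cfsg.Agent.H9.J3Model
import Cfsg.Agent.H9.J3MClos
import Cfsg.Agent.H9.J1Cnt
import Cfsg.Agent.H9.J1Mat

set_option autoImplicit false
set_option maxRecDepth 100000

namespace CfsgH9.J3

open Subgroup CfsgH2 CfsgH9.TC CfsgH9.J1 CfsgH5
open scoped commutatorElement

noncomputable section

/-- letters in the models -/
def mM (c i j : ℕ) (l : ℕ) : MM c := MM.mk (nthD [0, 1, 2, 4, 8, 15, 16, 32, i, 64, 160, 112, j] 0 l)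

/-- words for the cosets -/
def W60 : List (List ℕ) := [[], [7], [9], [7, 9], [9, 7], [9, 9], [7, 9, 7], [7, 9, 9], [9, 7, 9], [9, 9, 7], [7, 9, 7, 9], [7, 9, 9, 7], [9, 7, 9, 7], [9, 7, 9, 9], [9, 9, 7, 9], [7, 9, 7, 9, 7], [7, 9, 7, 9, 9], [7, 9, 9, 7, 9], [9, 7, 9, 7, 9], [9, 7, 9, 9, 7], [9, 9, 7, 9, 7], [9, 9, 7, 9, 9], [7, 9, 7, 9, 7, 9], [7, 9, 7, 9, 9, 7], [7, 9, 9, 7, 9, 7], [7, 9, 9, 7, 9, 9], [9, 7, 9, 7, 9, 9], [9, 7, 9, 9, 7, 9], [9, 9, 7, 9, 7, 9], [7, 9, 7, 9, 7, 9, 9], [7, 9, 7, 9, 9, 7, 9], [7, 9, 9, 7, 9, 7, 9], [9, 7, 9, 7, 9, 9, 7], [9, 7, 9, 9, 7, 9, 7], [9, 7, 9, 9, 7, 9, 9], [9, 9, 7, 9, 7, 9, 9], [7, 9, 7, 9, 7, 9, 9, 7], [7, 9, 7, 9, 9, 7, 9, 7], [7, 9, 7, 9, 9, 7, 9, 9], [7, 9, 9, 7, 9, 7, 9, 9], [9, 7, 9, 7, 9, 9, 7, 9], [9, 7, 9, 9, 7, 9, 7, 9], [9, 9, 7, 9, 7, 9, 9, 7], [7, 9, 7, 9, 7, 9, 9, 7, 9], [7, 9, 7, 9, 9, 7, 9, 7, 9], [7, 9, 9, 7, 9, 7, 9, 9, 7], [9, 7, 9, 7, 9, 9, 7, 9, 7], [9,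 7, 9, 7, 9, 9, 7, 9, 9], [9, 7, 9, 9, 7, 9, 7, 9, 9], [9, 9, 7, 9, 7, 9, 9, 7, 9], [7, 9, 7, 9, 7, 9, 9, 7, 9, 7], [7, 9, 7, 9, 7, 9, 9, 7, 9, 9], [7, 9, 7, 9, 9, 7, 9, 7, 9, 9], [7, 9, 9, 7, 9, 7, 9, 9, 7, 9], [9, 7, 9, 9, 7, 9, 7, 9, 9, 7], [9, 9, 7, 9, 7, 9, 9, 7, 9, 7], [7, 9, 7, 9, 9, 7, 9, 7, 9, 9, 7], [7, 9, 9, 7, 9, 7, 9, 9, 7, 9, 7], [9, 7, 9, 9, 7, 9, 7, 9, 9, 7, 9], [7, 9, 7, 9, 9, 7, 9, 7, 9, 9, 7, 9]]

/-- words for the extraspecial group -/
def W32 (x : ℕ) : List ℕ :=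
  (if x % 2 = 1 then [1] else []) ++ (if x / 2 % 2 = 1 then [2] else []) ++
    (if x / 4 % 2 = 1 then [3] else []) ++ (if x / 8 % 2 = 1 then [4] else []) ++
    (if x / 16 % 2 = 1 then [6] else [])

/-- what is needed of a model -/
structure Good (c i j : ℕ) [Coc c] (w : List ℕ) : Prop where
  rel : ∀ l ∈ relsM ++ [w], wd (mM c i j) l = 1
  gen1 : ∀ m : MM c, (m * (wd (mM c i j) (W60.getD (m.1 / 32) []))⁻¹).1 < 32
  gen2 : ∀ x, x < 32 → MM.mk x = wd (mM c i j) (W32 x)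
  soc : ∀ m : MM c, m = 1 ∨ m = MM.mk 16 ∨ (∃ a : Fin 4, ⁅m, (MM.mk (2 ^ a.1) : MM c)⁆ = MM.mk 16) ∨
    ∃ a b : Fin 4, ⁅⁅m, (MM.mk (2 ^ a.1) : MM c)⁆, (MM.mk (2 ^ b.1) : MM c)⁆ = MM.mk 16

theorem good0 : Good 0 32 304 [7, 7] :=
  ⟨by decide +kernel, by decide +kernel, by decide +kernel, by decide +kernel⟩

theorem good1 : Good C1 48 288 [7, 7, 6] :=
  ⟨by decide +kernel, by decide +kernel, by decide +kernel, by decide +kernel⟩

theorem Good.rels {c i j : ℕ} [Coc c] {w : List ℕ} (h : Good c i j w) :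
    Rels (mM c i j) IVM (relsM ++ [w]) :=
  rels_of (n := 13) rfl (fun l hl => by
      rw [mM, nthD_eq, List.getD_eq_default _ _ (by simpa using hl)]; rfl) h.rel
    fun l hl => ((by decide +kernel : ∀ l, l < 16 → (l = 0 ∨ 13 ≤ l) ∧ ap 4 15 IVM l = 0 ∨
      [l, ap 4 15 IVM l] ∈ relsM) l hl).imp id (List.mem_append_left _)

theorem Good.top {c i j : ℕ} [Coc c] {w : List ℕ} (h : Good c i j w) :
    closure {mM c i j 1, mM c i j 2, mM c i j 3, mM c i j 4, mM c i j 6, mM c i j 7, mM c i j 9} =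
      ⊤ := by
  set K := closure {mM c i j 1, mM c i j 2, mM c i j 3, mM c i j 4, mM c i j 6, mM c i j 7,
    mM c i j 9}
  have hm : ∀ l : List ℕ, (∀ i ∈ l, i ∈ [1, 2, 3, 4, 6, 7, 9]) → wd (mM c i j) l ∈ K :=
    fun l hl => wd_mem fun i hi => by
      have := hl i hi
      simp only [List.mem_cons, List.not_mem_nil, or_false] at this
      rcases this with rfl | rfl | rfl | rfl | rfl | rfl | rfl <;> exact subset_closure (by simp)
  refine top_unique fun m _ => ?_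
  have h1 := h.gen2 _ (h.gen1 m)
  rw [MM.mk_val, mul_inv_eq_iff_eq_mul] at h1
  rw [h1]
  refine K.mul_mem (hm _ ?_) (hm _ ?_)
  · exact (by decide +kernel : ∀ x, x < 32 → ∀ i ∈ W32 x, i ∈ [1, 2, 3, 4, 6, 7, 9]) _ (h.gen1 m)
  · exact (by decide +kernel : ∀ x, x < 60 → ∀ i ∈ W60.getD x [], i ∈ [1, 2, 3, 4, 6, 7, 9]) _
      (by have := m.2; omega)

theorem Good.exists_hom {c i j : ℕ} [Coc c] {w : List ℕ} (h : Good c i j w)
    {C : Type*} [Group C] [Finite C] (hC : Nat.card C = 1920)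
    (hc : ∀ {g : ℕ → C × MM c}, Rels g IVM (relsM ++ [w]) →
      Nat.card (Subgroup.closure {g 1, g 2, g 3, g 4, g 6, g 7, g 9}) ≤ 1920) {g : ℕ → C}
    (hg : Rels g IVM (relsM ++ [w])) (h6 : g 6 ≠ 1) :
    ∃ φ : MM c ≃* C, φ (MM.mk 16) = g 6 := by
  obtain ⟨φ, hφ⟩ := exists_hom_of_graph _ (by
    rw [MonoidHom.map_closure, ← h.top]; simp [Set.image_insert_eq])
    ((hc (hg.prod h.rels)).trans MM.card_eq.ge)
  have e6 : φ (MM.mk 16) = g 6 := hφ (g 6, mM c i j 6) (subset_closure (by simp))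
  have inj : Function.Injective φ := (injective_iff_map_eq_one φ).2 fun m hm => by
    rcases h.soc m with e | e | ⟨a, e⟩ | ⟨a, b, e⟩
    · exact e
    all_goals
      exfalso
      refine h6 ?_
      rw [← e6, ← e]
      simp [map_commutatorElement, hm]
  exact ⟨MulEquiv.ofBijective φ (inj.bijective_of_nat_card_le (by rw [hC, MM.card_eq])), e6⟩

/-- first automorphism -/
def αa : MulAut M32 := M32.mkAut (M32.e 1) (M32.e 0) (M32.e 3) (M32.e 2)
  (by decide +kernel) (by decide +kernel)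
/-- second automorphism -/
def αb : MulAut M32 := M32.mkAut (M32.e 0) (M32.e 2) (M32.e 4) (M32.e 3)
  (by decide +kernel) (by decide +kernel)

theorem αa_e : ∀ i, αa (M32.e i) = M32.e (![1, 0, 3, 2, 4] i) :=
  (by decide +kernel : ∀ i, M32.ev (M32.e 1) (M32.e 0) (M32.e 3) (M32.e 2) (M32.e i) = _)
theorem αb_e : ∀ i, αb (M32.e i) = M32.e (![0, 2, 4, 3, 1] i) :=
  (by decide +kernel : ∀ i, M32.ev (M32.e 0) (M32.e 2) (M32.e 4) (M32.e 3) (M32.e i) = _)

theorem aut_ext {α β : MulAut M32} (h : ∀ i, α (M32.e i) = β (M32.e i)) : α = β :=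
  MulEquiv.ext fun x => by rw [M32.aut_eq_ev α, M32.aut_eq_ev β, h, h, h, h]

theorem αa_sq : αa ^ 2 = 1 := aut_ext fun i => by
  simp only [pow_succ, pow_zero, one_mul, MulAut.mul_apply, αa_e, MulAut.one_apply]
  revert i; decide
theorem αb_cube : αb ^ 3 = 1 := aut_ext fun i => by
  simp only [pow_succ, pow_zero, one_mul, MulAut.mul_apply, αb_e, MulAut.one_apply]
  revert i; decide
theorem αab_five : (αa * αb) ^ 5 = 1 := aut_ext fun i => by
  simp only [pow_succ, pow_zero, one_mul, MulAut.mul_apply, αa_e, αb_e, MulAut.one_apply]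
  revert i; decide

/-- letters of the extraspecial group -/
def eL (l : ℕ) : M32 := M32.mk (nthD [0, 1, 2, 4, 8, 15, 16] 0 l)

theorem rels_split : ∀ l ∈ relsM, ((∀ i ∈ l, i ≤ 6) ∧ wd eL l = 1) ∨
    (∃ i : Fin 5, l = [7, i.1 + 1, 8, (![1, 0, 3, 2, 4] i : Fin 5).1 + 1]) ∨
    (∃ i : Fin 5, l = [9, i.1 + 1, 10, (![0, 2, 4, 3, 1] i : Fin 5).1 + 1]) ∨
    l ∈ [[7, 8], [8, 7], [9, 10], [10, 9], [11, 12], [12, 11], [6, 7, 6, 8], [6, 9, 6, 10],
      [9, 9, 9], [12, 7, 9, 6], [11, 11, 11, 11, 11, 6]] := by decide +kernel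

variable {C : Type*} [Group C]

/-- the letters -/
def gM (ι : M32 →* C) (a b : C) (l : ℕ) : C :=
  if l = 7 then a else if l = 8 then a⁻¹ else if l = 9 then b else if l = 10 then b⁻¹
  else if l = 11 then a * b * ι M32.z else if l = 12 then (a * b * ι M32.z)⁻¹ else ι (eL l)

theorem rels_gM (ι : M32 →* C) {a b : C} (ha : ∀ x, a * ι x * a⁻¹ = ι (αa x))
    (hb : ∀ x, b * ι x * b⁻¹ = ι (αb x)) (h3 : b ^ 3 = 1) (h5 : (a * b) ^ 5 = 1) :
    Rels (gM ι a b) IVM relsM := by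
  have hz : ι M32.z * ι M32.z = 1 := by rw [← map_mul, show M32.z * M32.z = 1 by decide, map_one]
  have za : Commute (ι M32.z) a := by
    have := ha M32.z
    rw [M32.aut_z, mul_inv_eq_iff_eq_mul] at this
    exact this.symm
  have zb : Commute (ι M32.z) b := by
    have := hb M32.z
    rw [M32.aut_z, mul_inv_eq_iff_eq_mul] at this
    exact this.symm
  have ge : ∀ i : Fin 5, gM ι a b (i.1 + 1) = ι (M32.e i) := fun i => by
    fin_cases i <;> rfl
  have ee : ∀ i, ι (M32.e i) * ι (M32.e i) = 1 := fun i => by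
    rw [← map_mul, (by decide +kernel : ∀ i, M32.e i * M32.e i = 1), map_one]
  refine rels_of (n := 13) (map_one ι) (fun l hl => ?_) (fun l hl => ?_) (by decide +kernel)
  · rw [gM, if_neg (by omega), if_neg (by omega), if_neg (by omega), if_neg (by omega),
      if_neg (by omega), if_neg (by omega), eL, nthD_eq,
      List.getD_eq_default _ _ (by simp; omega)]
    exact map_one ι
  rcases rels_split l hl with ⟨h1, h2⟩ | ⟨i, rfl⟩ | ⟨i, rfl⟩ | h
  · rw [← map_one ι, ← h2, map_wd]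
    refine wd_congr fun i hi => ?_
    have := h1 i hi
    rw [gM, if_neg (by omega), if_neg (by omega), if_neg (by omega), if_neg (by omega),
      if_neg (by omega), if_neg (by omega)]
  · simp only [wd, List.map, List.prod_cons, List.prod_nil, mul_one, ge, ← mul_assoc]
    show a * _ * a⁻¹ * _ = 1
    rw [ha, αa_e, ee]
  · simp only [wd, List.map, List.prod_cons, List.prod_nil, mul_one, ge, ← mul_assoc]
    show b * _ * b⁻¹ * _ = 1
    rw [hb, αb_e, ee]
  · have g6 : gM ι a b 6 = ι M32.z := rfl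
    have g7 : gM ι a b 7 = a := rfl
    have g8 : gM ι a b 8 = a⁻¹ := rfl
    have g9 : gM ι a b 9 = b := rfl
    have g10 : gM ι a b 10 = b⁻¹ := rfl
    have g11 : gM ι a b 11 = a * b * ι M32.z := rfl
    have g12 : gM ι a b 12 = (a * b * ι M32.z)⁻¹ := rfl
    simp only [List.mem_cons, List.not_mem_nil, or_false] at h
    rcases h with rfl | rfl | rfl | rfl | rfl | rfl | rfl | rfl | rfl | rfl | rfl <;>
      simp only [wd, List.map, List.prod_cons, List.prod_nil, mul_one, g6, g7, g8, g9, g10, g11,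
        g12, mul_inv_cancel, inv_mul_cancel]
    · rw [← mul_assoc, za.eq, mul_assoc, ← mul_assoc (ι _), hz, one_mul, mul_inv_cancel]
    · rw [← mul_assoc, zb.eq, mul_assoc, ← mul_assoc (ι _), hz, one_mul, mul_inv_cancel]
    · simpa [pow_succ, mul_assoc] using h3
    · rw [← mul_assoc a, inv_mul_cancel]
    · have : (a * b * ι M32.z) ^ 5 * ι M32.z = 1 := by
        rw [(za.mul_right zb).symm.mul_pow, h5, one_mul, ← pow_succ, show 5 + 1 = 2 * 3 by rfl,
          pow_mul, pow_two, hz, one_pow]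
      simpa only [pow_succ, pow_zero, one_mul, mul_assoc] using this

theorem card_A5 : Nat.card (alternatingGroup (Fin 5)) = 60 := by
  rw [Nat.card_eq_fintype_card, card_alternatingGroup]; rfl

variable [Finite C] {z : C} {E : Subgroup C}

theorem card_C [E.Normal] (hE : Nat.card E = 32) (e : C ⧸ E ≃* alternatingGroup (Fin 5)) :
    Nat.card C = 1920 := by
  rw [card_eq_card_quotient_mul_card_subgroup E, Nat.card_congr e.toEquiv, card_A5, hE]

theorem sq_twelve [E.Normal] (hs : Sympl 2 z E) (hE : Nat.card E = 32) (hC : Nat.card C = 1920)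
    (hc : centralizer (E : Set C) ≤ E) : sqCount E = 12 := by
  have := Fact.mk (by norm_num : Nat.Prime 5)
  obtain ⟨c, hc5⟩ := exists_prime_orderOf_dvd_card' (G := C) 5 (by rw [hC]; norm_num)
  have c5 : c ^ 5 = 1 := orderOf_dvd_iff_pow_eq_one.1 hc5.dvd
  have hn : ∀ v ∈ E, c⁻¹ * v * c ∈ E := fun v hv => (inferInstance : E.Normal).conj_mem' v hv c
  have h1 := ncard_modEq_fixed (I := (E : Set C)) 5 c5 hn
  have e1 : {v | v ∈ (E : Set C) ∧ Commute v c} = (E ⊓ centralizer {c} : Subgroup C) := by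
    ext v; simp [mem_centralizer_singleton_iff, Commute, SemiconjBy]
  rw [e1, ← Nat.card_coe_set_eq, ← Nat.card_coe_set_eq, SetLike.coe_sort_coe,
    SetLike.coe_sort_coe, hE] at h1
  have h2 : Nat.card (E ⊓ centralizer {c} : Subgroup C) ∣ 32 := hE ▸ card_dvd_of_le inf_le_left
  have h3 : ∀ d ∈ Nat.divisors 32, 32 % 5 = d % 5 → d = 2 ∨ d = 32 := by decide
  rcases h3 _ (Nat.mem_divisors.2 ⟨h2, by norm_num⟩) h1 with h | h
  · have h4 : zpowers z = E ⊓ centralizer {c} := eq_of_le_of_card_ge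
      (le_inf hs.zpowers_le (zpowers_le.2 (center_le_centralizer _ hs.central)))
      (by rw [h, hs.card_zpowers])
    have h5 := ncard_modEq_fixed (I := {k | k ∈ E ∧ k ^ 2 = 1}) 5 c5 fun v hv =>
      ⟨hn v hv.1, by rw [cpow', hv.2]; group⟩
    have e2 : {v | v ∈ {k | k ∈ E ∧ k ^ 2 = 1} ∧ Commute v c} = (zpowers z : Set C) := by
      ext v
      refine ⟨fun hv => h4 ▸ ⟨hv.1.1, mem_centralizer_singleton_iff.2 hv.2⟩, fun hv => ?_⟩
      have hv' : v ∈ E ⊓ centralizer {c} := h4 ▸ hv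
      refine ⟨⟨hv'.1, ?_⟩, mem_centralizer_singleton_iff.1 hv'.2⟩
      rcases eq_or_eq_of_mem_zpowers_two hs.pow_eq hv with rfl | rfl
      exacts [one_pow 2, hs.pow_eq]
    rw [e2, ← Nat.card_coe_set_eq (zpowers z : Set C), SetLike.coe_sort_coe, hs.card_zpowers] at h5
    obtain ⟨m, hm, hm'⟩ := hs.exists_sqCount
    rw [hE] at hm
    have : 2 * m + 1 = 5 := (Nat.pow_right_injective (le_refl 2) (hm.symm.trans (by norm_num)))
    obtain rfl : m = 2 := by omega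
    have h6 : sqCount E % 5 = 2 % 5 := h5
    omega
  · exfalso
    have h4 : E ⊓ centralizer {c} = E := eq_of_le_of_card_ge inf_le_left (by rw [h, hE])
    have h5 : c ∈ E := hc fun v hv => mem_centralizer_singleton_iff.1 (h4.ge hv).2
    have := Subgroup.orderOf_dvd_natCard E h5
    rw [hc5, hE] at this
    exact absurd this (by norm_num)

theorem exists_model [E.Normal] (hs : Sympl 2 z E) (hE : Nat.card E = 32)
    (hC : Nat.card C = 1920) (hc : centralizer (E : Set C) ≤ E) :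
    (∃ φ : MM 0 ≃* C, φ (MM.mk 16) = z) ∨ ∃ φ : MM C1 ≃* C, φ (MM.mk 16) = z := by
  have h12 : sqCount (⊤ : Subgroup E) = 12 := by
    rw [← sq_twelve hs hE hC hc, sqCount, sqCount,
      ← Set.ncard_image_of_injective _ (Subtype.val_injective (p := (· ∈ E)))]
    congr 1
    ext k
    exact ⟨fun ⟨k, hk, e⟩ => e ▸ ⟨k.2, congrArg Subtype.val hk.2⟩,
      fun hk => ⟨⟨k, hk.1⟩, ⟨mem_top _, Subtype.ext hk.2⟩, rfl⟩⟩
  obtain ⟨f, hf⟩ := (matched_of_sqCount M32.sympl hs.subgroupOf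
    (by rw [card_top, card_top, hE, M32.card_eq]) (by rw [h12, M32.sqCount_eq])).exists_mulEquiv
    (by rw [hE, M32.card_eq])
  set ι : M32 →* C := E.subtype.comp f.toMonoidHom with hι
  have ιz : ι M32.z = z := congrArg Subtype.val hf
  have ιE : ∀ x, ι x ∈ E := fun x => (f x).2
  set ψ : C →* MulAut M32 := (MulAut.congr f.symm).toMonoidHom.comp MulAut.conjNormal with hψ
  have key : ∀ c x, c * ι x * c⁻¹ = ι (ψ c x) := fun c x => by simp [hι, hψ]
  have ψι : ∀ g, ψ (ι g) = MulAut.conj g := fun g => MulEquiv.ext fun x => by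
    refine f.injective (Subtype.val_injective ?_)
    show ι _ = ι _
    rw [← key, MulAut.conj_apply, map_mul, map_mul, map_inv]
  have kψ : ∀ c, ψ c = 1 → c = 1 ∨ c = z := fun c h => by
    have h1 : c ∈ centralizer (E : Set C) := fun v hv => by
      obtain ⟨x, hx⟩ := f.surjective ⟨v, hv⟩
      have h2 : ι x = v := congrArg Subtype.val hx
      have := key c x
      rw [h, MulAut.one_apply, h2, mul_inv_eq_iff_eq_mul] at this
      exact this.symm
    exact eq_or_eq_of_mem_zpowers_two hs.pow_eq (hs.nondeg ⟨hc h1, h1⟩)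
  have hk : (M32.out.comp ψ).ker = E := by
    ext c
    rw [← MonoidHom.comap_ker, M32.ker_out]
    constructor
    · rintro ⟨g, hg⟩
      have h1 := kψ (c * (ι g)⁻¹) (by rw [map_mul, map_inv, ψι, hg, mul_inv_cancel])
      have h2 : c * (ι g)⁻¹ ∈ E := by
        rcases h1 with h | h <;> rw [h]
        exacts [one_mem _, hs.mem]
      simpa using E.mul_mem h2 (ιE g)
    · intro hc
      obtain ⟨x, hx⟩ := f.surjective ⟨c, hc⟩
      have h2 : ι x = c := congrArg Subtype.val hx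
      exact ⟨x, by rw [← h2, ψι]⟩
  have hr : (M32.out.comp ψ).range = alternatingGroup (Fin 5) := by
    refine Equiv.Perm.eq_alternatingGroup_of_index_eq_two ?_
    have h1 := (M32.out.comp ψ).range.index_mul_card
    have h2 := E.index_mul_card
    rw [← index_ker, hk, Nat.card_perm, Nat.card_fin, show Nat.factorial 5 = 120 by rfl] at h1
    rw [hE, hC] at h2
    rw [show E.index = 60 by omega] at h1
    omega
  have lift : ∀ α : MulAut M32, M32.out α ∈ alternatingGroup (Fin 5) → ∃ c, ψ c = α := by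
    intro α hα
    rw [← hr] at hα
    obtain ⟨c, hc⟩ := hα
    have : α * (ψ c)⁻¹ ∈ M32.out.ker := by
      rw [MonoidHom.mem_ker, map_mul, map_inv, ← hc]; exact mul_inv_cancel _
    rw [M32.ker_out] at this
    obtain ⟨g, hg⟩ := this
    exact ⟨ι g * c, by rw [map_mul, ψι, hg, inv_mul_cancel_right]⟩
  have odd : ∀ (α : MulAut M32) (n : ℕ), α ^ (2 * n + 1) = 1 →
      M32.out α ∈ alternatingGroup (Fin 5) := fun α n h => by
    have := congrArg (fun β => Equiv.Perm.sign (M32.out β)) h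
    simpa [pow_succ, pow_mul] using this
  have zz : z * z = 1 := hs.mul_self
  have zc : ∀ g, Commute z g := fun g => (mem_center_iff.1 hs.central g).symm
  have ψz : ψ z = 1 := by
    rw [← ιz, ψι]
    exact MulEquiv.ext fun x => by
      rw [MulAut.conj_apply, ← mem_center_iff.1 M32.sympl.central x, mul_inv_cancel_right]; rfl
  have adj : ∀ (g c : C) (n : ℕ), ψ (g * c) ^ (2 * n + 1) = 1 →
      ∃ g', ψ g' = ψ g ∧ (g' * c) ^ (2 * n + 1) = 1 := fun g c n h => by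
    rcases kψ _ ((map_pow ψ _ _).trans h) with e | e
    · exact ⟨g, rfl, e⟩
    · refine ⟨z * g, by rw [map_mul, ψz, one_mul], ?_⟩
      rw [mul_assoc, (zc _).mul_pow, e, pow_succ, pow_mul, pow_two, zz, one_pow, one_mul, zz]
  obtain ⟨b0, hb0⟩ := lift αb (odd _ 1 αb_cube)
  obtain ⟨b, hb, b3⟩ := adj b0 1 1 (by rw [mul_one, hb0]; exact αb_cube)
  rw [hb0] at hb
  obtain ⟨a0, ha0⟩ := lift αa (by
    have := mul_mem (odd _ 2 αab_five) (inv_mem (odd _ 1 αb_cube))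
    rwa [map_mul, mul_inv_cancel_right] at this)
  obtain ⟨a, ha, a5⟩ := adj a0 b 2 (by rw [map_mul, ha0, hb]; exact αab_five)
  rw [ha0] at ha
  have hR := rels_gM ι (a := a) (b := b) (fun x => by rw [key, ha]) (fun x => by rw [key, hb])
    (by simpa using b3) a5
  have g6 : gM ι a b 6 = z := ιz
  rcases kψ (a ^ 2) (by rw [map_pow, ha, αa_sq]) with h | h
  · exact Or.inl (g6 ▸ good0.exists_hom hC pM_card (hR.snoc (by
      show a * (a * 1) = 1
      rw [mul_one, ← pow_two, h])) (g6 ▸ hs.ne_one))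
  · exact Or.inr (g6 ▸ good1.exists_hom hC nM_card (hR.snoc (by
      show a * (a * (ι M32.z * 1)) = 1
      rw [mul_one, ← mul_assoc, ← pow_two, h, ιz, zz])) (g6 ▸ hs.ne_one))

end

end CfsgH9.J3
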