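/-
The generators of the amalgam inside the group `J₃`, and the identification theorem.
-/
import Cfsg.Agent.H9.J3ClosG
import Cfsg.Agent.H6.J3Main

set_option autoImplicit false
set_option maxRecDepth 100000

namespace CfsgH9.J3

open CfsgH5 CfsgH9.TC CfsgH9.J1 Subgroup

noncomputable section

/-- the triple cover -/
abbrev G6 : Type := CfsgH6.J3.G
/-- the simple group -/
abbrev JJ3 : Type := G6 ⧸ center G6

/-- codes -/
def C6 : CfsgH6.GC (CfsgH6.ops2 18) G6 :=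
  CfsgH6.J3.C.comap CfsgH6.J3.G.subtype Subtype.val_injective

/-- the generators -/
def xy (i : ℕ) : G6 :=
  if h : tb 8937930026385408 i = true then
    ⟨CfsgH6.J3.C.el (CfsgH6.J3.R i), (CfsgH6.J3.G_m0.get h).el_mem⟩ else 1

/-- their codes -/
def xyc (i : ℕ) : ℕ := bif' (tb 8937930026385408 i) (CfsgH6.J3.R i) (CfsgH6.ops2 18).one

theorem code_xy (i : ℕ) : C6.code (xy i) = xyc i := by
  rw [xy, xyc, bif'_eq]
  split_ifs with h
  exacts [(CfsgH6.J3.G_m0.get h).code_el, C6.code_one]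

/-- words for the letters -/
def kw (i : ℕ) : List ℕ := [[], [47, 51, 22, 22, 51], [40, 48, 40, 52, 47], [40, 48, 52, 40, 22, 40, 52, 22, 47, 40, 47, 52], [22, 40, 47, 40, 46, 52, 22, 40, 22, 22, 40, 46, 47], [40, 48, 40, 52, 47, 47, 51, 22, 22, 51, 40, 48, 40, 52, 47], [47, 51, 22, 22, 51, 40, 48, 40, 52, 47, 47, 51, 22, 22, 51, 40, 48, 40, 52, 47, 47, 51, 22, 22, 51, 40, 48, 40, 52, 47, 47, 51, 22, 22, 51, 40, 48, 40, 52, 47], [40, 48, 52, 40, 22, 40, 52, 22, 47, 40, 47, 52, 40, 48, 40, 52, 47, 40, 48, 52, 40, 22, 40, 52, 22, 47, 40, 47, 52], [22, 40, 47, 40, 46, 52, 22, 40, 22, 22, 40, 46, 47, 22, 40, 51, 22, 40, 50, 52, 22, 51, 48, 40, 47, 22, 40, 47, 40, 46, 52, 22, 40, 22, 22, 40, 46, 47, 22, 40, 51, 22, 40, 50, 52, 22, 51, 48, 40, 47], [22, 40, 47, 40, 46, 52, 22, 40, 22, 22, 40, 46, 47, 22, 40, 51, 22, 40, 50, 52, 22, 51, 48, 40, 47, 22, 40, 47, 40, 46, 52, 22, 40, 22, 22, 40, 46, 47, 22, 40,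 51, 22, 40, 50, 52, 22, 51, 48, 40, 47, 22, 40, 47, 40, 46, 52, 22, 40, 22, 22, 40, 46, 47, 22, 40, 51, 22, 40, 50, 52, 22, 51, 48, 40, 47, 22, 40, 47, 40, 46, 52, 22, 40, 22, 22, 40, 46, 47, 22, 40, 51, 22, 40, 50, 52, 22, 51, 48, 40, 47], [22, 40, 51, 22, 40, 50, 52, 22, 51, 48, 40, 47], [22, 40, 51, 22, 40, 50, 52, 22, 51, 48, 40, 47, 22, 40, 51, 22, 40, 50, 52, 22, 51, 48, 40, 47], [47, 51, 22, 22, 51, 22, 40, 51, 22, 40, 50, 52, 22, 51, 48, 40, 47, 47, 51, 22, 22, 51], [47, 51, 22, 22, 51, 22, 40, 51, 22, 40, 50, 52, 22, 51, 48, 40, 47, 22, 40, 51, 22, 40, 50, 52, 22, 51, 48, 40, 47, 47, 51, 22, 22, 51]].getD i []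

/-- the letters in the triple cover -/
def kG (i : ℕ) : G6 := wd xy (kw i)

/-- their codes -/
def kc (i : ℕ) : ℕ := nthD [0x10000100001000010000100001000010000100001000010000100001000010000100001000010000100001, 0x60000800000800030000800030020000c000018000200018000200000010000100000400004000400004, 0x7c000a4060980832027000c900021400c140101c0102439000e10008480307004840070400000100001, 0xecef3b7b94c59674618e405b8406667d288a5ce4ac387f45127a51cac86ccb0b775ff6a6a9bdd22a25cfc, 0x50cf8537a415524155d130f11d391609418315d06ea50bb51b6852db1d9a6a62cb333a0ddec0f59939621, 0x1176511985020ee0c3b965fc186a425330c5dd10f131391d3b008ed0302f020f90c5d7e065a8121001c100, 0x1575b1596d4122241ccd04b7907da357ced5a797a1a9ac2f468504b050f4d2b975f63f708e9916b991be21, 0x28598f0625ad366f5d9584a9607f105501055023d50ce552abceffe79d2baa5fef0cb4637d49f0f629398, 0x1a4e32c78d395a2e16cca1b2bc2df7b90eae138763d098e5539d05e251061f9082a16c021b40d9922221cc,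 0xfa50bac536eb10bbd1007628098f50ab853fe1c805270052f686f9b0870c80937067d268a5c97b0e1ad38, 0x67fb88aae7383c9e0e47ea70abc97a16aac1bddc58a6463274f8c97a1a7b62cad8432964df1930191d021, 0x22ed0cfb532c66df4886ea70bbc92a530fc5d0984e32078275f8c96a0e2b0b8fd36b8b0be3d0d78335a0d, 0x24ed0c7b56ca44b7c45c6f624b983e0d6e8359f9e6aa28b6135a81d6d4a7197c9201bf002e90d78735a09, 0x2eb18fbd27ca44a7c44429904f215a16a6c1bdf8e6aa38b23b28cedf1d4522545c432924df1d43e914eb1] 0x10000100001000010000100001000010000100001000010000100001000010000100001000010000100001 i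

theorem kG_big {i : ℕ} (h : 14 ≤ i) : kG i = 1 := by
  rw [kG, kw, List.getD_eq_default _ _ (by simpa using h)]; rfl

theorem code_kG (i : ℕ) : C6.code (kG i) = kc i := by
  rcases Nat.lt_or_ge i 14 with h | h
  · rw [kG, code_wd C6 code_xy]
    revert i; decide +kernel
  · rw [kG_big h, C6.code_one, kc, nthD_eq, List.getD_eq_default _ _ (by simpa using h)]
    decide +kernel

/-- equality up to a scalar -/
def eqZ (a b : ℕ) : Bool := force a fun a => force b fun b =>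
  bor (Nat.beq a b) (force ((CfsgH6.ops2 18).mul CfsgH6.J3.om b) fun c =>
    bor (Nat.beq a c) (Nat.beq a ((CfsgH6.ops2 18).mul CfsgH6.J3.om c)))

theorem mk_eq {g h : G6} (e : eqZ (C6.code g) (C6.code h) = true) : (g : JJ3) = h := by
  have key : ∀ c : (Matrix (ZMod 3 × ZMod 3) (ZMod 3 × ZMod 3) F4)ˣ, (∀ a, a * c = c * a) → g.1 = c * h.1 → (g : JJ3) = h :=
    fun c hc e => by
      rw [eq_comm, QuotientGroup.eq, mem_center_iff]
      intro a
      refine Subtype.ext ?_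
      simp only [Subgroup.coe_mul, Subgroup.coe_inv, e]
      rw [← hc, inv_mul_cancel_left, hc]
  simp only [eqZ, force_eq, bor_eq, Bool.or_eq_true, beq_true_iff] at e
  rw [← CfsgH6.J3.om_ok] at e
  rcases e with e | e | e
  · rw [C6.inj e]
  · exact key _ CfsgH6.om4_comm (CfsgH6.J3.C.inj (e.trans (CfsgH6.J3.C.code_mul _ _).symm))
  · refine key (CfsgH6.om4 _ * CfsgH6.om4 _) (fun a => by
      rw [← mul_assoc, CfsgH6.om4_comm, mul_assoc, CfsgH6.om4_comm a, ← mul_assoc])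
      (CfsgH6.J3.C.inj (e.trans ?_))
    rw [mul_assoc, CfsgH6.J3.C.code_mul, CfsgH6.J3.C.code_mul]; rfl

/-- the letters in the simple group -/
def kJ (i : ℕ) : JJ3 := (kG i : JJ3)

theorem wd_kJ (l : List ℕ) : wd kJ l = (wd kG l : G6) := (map_wd (QuotientGroup.mk' _) kG l).symm

theorem wd_kJ_one {l : List ℕ} (h : eqZ (wc (CfsgH6.ops2 18) kc l) (CfsgH6.ops2 18).one = true) :
    wd kJ l = 1 := by
  rw [wd_kJ]
  exact mk_eq (h := 1) (by rwa [code_wd C6 code_kG, C6.code_one])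

theorem inv3 : ∀ l, l < 16 → (l = 0 ∨ 14 ≤ l) ∧ ap 4 15 IV3 l = 0 ∨
    [l, ap 4 15 IV3 l] ∈ rels3 := by decide +kernel

theorem rels_kJ : Rels kJ IV3 rels3 :=
  rels_of (n := 14) rfl (fun l hl => by rw [kJ, kG_big hl]; rfl)
    (fun l hl => wd_kJ_one (by revert l; decide +kernel)) inv3

theorem extra_kJ : wd kJ [4, 3, 4, 3, 5, 6, 12, 4, 3, 4, 3, 5, 6, 12] = 1 :=
  wd_kJ_one (by decide +kernel)

/-- words for the generators -/
def gW : List (ℕ × List ℕ) := [(22, [2, 4, 2, 12, 12, 3, 12, 4, 2, 4, 1, 2, 3, 12]), (40, [2, 3, 4, 3, 4, 12, 2, 12, 3, 4, 1, 3, 12, 4]), (46, [4, 3, 2, 4, 1, 3, 4, 2, 12, 4, 3, 4, 3]), (47, [1, 3, 4, 3, 4, 3, 2, 4, 12, 2, 4, 3]), (48, [2, 3, 12, 3, 4, 3, 12, 1, 2, 4, 3, 12, 3, 4, 3]), (49, [1, 12, 1, 3, 12, 4, 1, 3, 4, 12, 1, 4, 3]), (50, [1, 2, 1, 2, 3, 2, 4, 1, 12, 3, 1, 4, 1, 3]), (51, [2, 12, 1, 4, 3, 2, 1, 4, 2, 3, 1, 4, 3, 1, 2]), (52, [1, 4, 1, 2, 3, 12, 4, 1, 2, 12, 12,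 4])]

theorem gen_kJ : closure {kJ 1, kJ 2, kJ 3, kJ 4, kJ 12} = ⊤ := by
  set K := closure {kJ 1, kJ 2, kJ 3, kJ 4, kJ 12}
  have h1 : ∀ p ∈ gW, (xy p.1 : JJ3) ∈ K := fun p hp => by
    have e : (xy p.1 : JJ3) = wd kJ p.2 := by
      rw [wd_kJ]
      refine mk_eq ?_
      rw [code_wd C6 code_kG, code_xy]
      revert p; decide +kernel
    rw [e]
    refine wd_mem fun i hi => ?_
    rcases (by decide : ∀ p ∈ gW, ∀ i ∈ p.2, i = 1 ∨ i = 2 ∨ i = 3 ∨ i = 4 ∨ i = 12) p hp i hi with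
      rfl | rfl | rfl | rfl | rfl <;> exact subset_closure (by simp)
  have h2 : (⊤ : Subgroup G6) ≤ K.comap (QuotientGroup.mk' _) := by
    refine (closure_closure_coe_preimage (k := CfsgH6.J3.C.els CfsgH6.J3.R 8937930026385408)).ge.trans
      ((closure_le _).2 ?_)
    rintro ⟨a, ha⟩ ⟨i, hi, rfl⟩
    have hi' : tb 8937930026385408 i = true := by simpa using hi
    have hl : i < 53 := by
      by_contra hl
      rw [Nat.testBit_eq_false_of_lt (lt_of_lt_of_le (by norm_num)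
        (Nat.pow_le_pow_right (by norm_num) (not_lt.1 hl)))] at hi
      exact absurd hi (by decide)
    obtain ⟨p, hp, rfl⟩ := (by decide +kernel : ∀ i, i < 53 → tb 8937930026385408 i = true →
      ∃ p ∈ gW, p.1 = i) i hl hi'
    have := h1 p hp
    rwa [xy, dif_pos hi'] at this
  refine top_unique fun x _ => ?_
  obtain ⟨g, rfl⟩ := QuotientGroup.mk'_surjective _ x
  exact h2 (mem_top g)

theorem exists_J3 {G : Type*} [Group G] [Finite G] {g : ℕ → G} (h : Rels g IV3 rels3)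
    (hw : wd g [4, 3, 4, 3, 5, 6, 12, 4, 3, 4, 3, 5, 6, 12] = 1) (hne : g 1 ≠ 1) :
    ∃ K : Subgroup G, IsSimpleGroup K ∧ Nat.card K = 50232960 ∧ g 1 ∈ K ∧ g 2 ∈ K ∧ g 3 ∈ K ∧
      g 4 ∈ K ∧ g 12 ∈ K := by
  obtain ⟨φ, hφ⟩ := exists_hom_of_graph _ (by
    rw [MonoidHom.map_closure, ← gen_kJ]; simp [Set.image_insert_eq])
    ((card_G3 (h.prod rels_kJ) (by rw [wd_prod, hw, extra_kJ]; rfl)).trans CfsgH6.J3.cards.2.ge)
  have hs : IsSimpleGroup JJ3 := CfsgH6.J3.cen.2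
  have m : ∀ i ∈ [1, 2, 3, 4, 12], φ (kJ i) = g i := fun i hi => hφ (g i, kJ i) (subset_closure (by
    simp only [List.mem_cons, List.not_mem_nil, or_false] at hi
    rcases hi with rfl | rfl | rfl | rfl | rfl <;> simp))
  have inj : Function.Injective φ := by
    rw [← MonoidHom.ker_eq_bot_iff]
    refine (hs.eq_bot_or_eq_top_of_normal _ inferInstance).resolve_right fun e => hne ?_
    rw [← m 1 (by simp)]
    exact (e ▸ mem_top _ : kJ 1 ∈ φ.ker)
  exact ⟨φ.range, (MonoidHom.ofInjective inj).symm.isSimpleGroup,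
    (Nat.card_congr (MonoidHom.ofInjective inj).toEquiv).symm.trans CfsgH6.J3.cards.2,
    ⟨_, m 1 (by simp)⟩, ⟨_, m 2 (by simp)⟩, ⟨_, m 3 (by simp)⟩, ⟨_, m 4 (by simp)⟩,
    ⟨_, m 12 (by simp)⟩⟩

end

end CfsgH9.J3
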