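/-
Simple groups with an involution centraliser `2^(1+4):A₅` and one class of involutions: the
relations of the amalgam and the extra relation.
-/
import Cfsg.Agent.H9.J2Cnt
import Cfsg.Agent.H9.J3CollA
import Cfsg.Agent.H9.J3CollB
import Cfsg.Agent.H9.J3Mat

set_option autoImplicit false
set_option maxRecDepth 100000

namespace CfsgH9.J3

open Subgroup CfsgH5 CfsgH9.J1 CfsgH9.TC

/-- the action of `w` -/
def aW : T4 := (4, 12, 1, 3)

/-- value of a word in actions -/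
def evW (A : ℕ → T4) (l : List ℕ) : T4 := l.foldr (fun i B => cp (A i) B) aI

variable {G : Type*} [Group G] {φ : M →* G}

theorem wd_cons (g : ℕ → G) (i : ℕ) (l : List ℕ) : wd g (i :: l) = g i * wd g l := by simp [wd]

theorem act_wd {g : ℕ → G} {A : ℕ → T4} {l : List ℕ} (h : ∀ i ∈ l, Act φ (g i) (A i)) :
    Act φ (wd g l) (evW A l) := by
  induction l with
  | nil => exact act_one
  | cons i l ih =>
    rw [wd_cons]
    exact (h i (by simp)).mul (ih fun j hj => h j (by simp [hj]))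

theorem fin_w : ∀ b c d : Fin 16, (cp (4, b, c, d) aZ = cp aA (4, b, c, d) ∨
    cp (4, b, c, d) aZ = cp (cp aA aA) (4, b, c, d)) → (∀ k, k ≠ 0 → ap4 (4, b, c, d) k ≠ 0) →
    ∃ l ∈ [[0, 3, 0, 3, 0], [0, 3, 2, 0, 1, 3, 0], [0, 1, 1, 0], [0], [2, 0], [2, 2, 0],
      [0, 3, 0, 2, 2, 3, 0]], evW (fun i => [(4, b, c, d), aR, aA, aQ].getD i aI) l = aW ∨
      ((evW (fun i => [(4, b, c, d), aR, aA, aQ].getD i aI) l).1 = 1 ∧
        (evW (fun i => [(4, b, c, d), aR, aA, aQ].getD i aI) l).2.1 ≠ 2) := by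
  decide +kernel

/-- the configuration with `ρ` and `w` -/
structure Conf2 (φ : M →* G) (r w : G) : Prop extends Conf φ r where
  actW : Act φ w aW
  commW : Commute r w

theorem Conf.exists_w {r g : G} (h : Conf φ r) (hg : g⁻¹ * φ mT * g = φ mS) : ∃ w, Conf2 φ r w := by
  obtain ⟨y, hy, e1⟩ := h.exists_norm (k := 4) hg
  obtain ⟨y, hy, e2, -, e3⟩ := h.norm_sigma hy h.act_xi.norm (by
    simpa [pow_succ] using h.xi_cube) (fun e => absurd (h.act_unique h.act_xi (e ▸ act_one))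
      (by decide)) (by rw [e1, comm_iff_conj, h.act_xi]; rfl)
  obtain ⟨⟨a, b, c, d⟩, hB⟩ := exists_act hy
  obtain rfl : a = 4 := (ap4_basis (a, b, c, d)).1.symm.trans
    (h.el_inj ((hB 1).symm.trans (e2.trans e1)))
  obtain ⟨l, -, hl⟩ := fin_w b c d (e3.imp (fun e => h.act_unique (hB.mul h.act_xi)
    (by rw [mul_inv_eq_iff_eq_mul.1 e]; exact act_A.mul hB)) fun e => h.act_unique (hB.mul h.act_xi)
    (by rw [mul_inv_eq_iff_eq_mul.1 e]; exact (act_A.inv (by decide)).mul hB)) fun k => h.act_ne hB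
  have hw : Act φ (wd (fun i => [y, r, φ mA, φ mQ].getD i 1) l)
      (evW (fun i => [(4, b, c, d), aR, aA, aQ].getD i aI) l) := act_wd fun i _ => by
    rcases i with _ | _ | _ | _ | i
    exacts [hB, h.act, act_A, act_Q, act_one]
  generalize wd (fun i => [y, r, φ mA, φ mQ].getD i 1) l = w at hw
  generalize evW _ l = B at hw hl
  rcases hl with rfl | ⟨h1, h2⟩
  · obtain ⟨k, hk⟩ := h.mem_of_act ((((h.act.inv (B := cp aR aR) (by decide)).mul
      (hw.inv (B := aW) (by decide))).mul h.act).mul hw |>.congr (by decide))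
    obtain ⟨j, hj⟩ := (by decide : ∀ k, ∃ j, xr (xr (ap4 aR j) k) j = 0) k
    refine ⟨w * el φ j, h, (hw.mul (act_el j)).congr (by decide), (comm_iff_conj.2 ?_).symm⟩
    rw [show (w * el φ j)⁻¹ * r * (w * el φ j) = r * (r⁻¹ * (el φ j)⁻¹ * r * (r⁻¹ * w⁻¹ * r * w) *
      el φ j) by group, el_inv, h.act, ← hk, el_mul, el_mul, hj, el_zero, mul_one]
  · exact absurd ((ap4_basis B).2.1.symm.trans (h.fix_of_comm hw (k := 2) (h.fix_u hw.norm
      (comm_iff_conj.2 (by rw [← el_one, hw, (ap4_basis B).1, h1]))))) h2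

variable (φ) in
/-- the letters -/
def gL (r w : G) (i : ℕ) : G := if i = 4 then w else if i = 8 then r else if i = 9 then r⁻¹ else φ (mL i)

/-- actions of the letters commuting with `ρ` -/
def aL (i : ℕ) : T4 :=
  [aI, aQ, aI, aI, aW, aI, aI, aI, aR, cp aR aR, aA, cp aA aA, (1, 2, 10, 13)].getD i aI

variable {r w : G}

theorem wd_gL {l : List ℕ} (hl : ∀ i ∈ l, i ≠ 4 ∧ i ≠ 8 ∧ i ≠ 9) : wd (gL φ r w) l = φ (wd mL l) := by
  rw [map_wd]
  exact wd_congr fun i hi => by rw [gL, if_neg (hl i hi).1, if_neg (hl i hi).2.1, if_neg (hl i hi).2.2]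

namespace Conf2

variable (h : Conf2 φ r w)
include h

theorem letter : ∀ i ∈ [1, 4, 8, 9, 10, 11, 12],
    Act φ (gL φ r w i) (aL i) ∧ Commute r (gL φ r w i) := by
  have q := h.rho_q h.act h.comm
  have e1 : gL φ r w 11 = (φ mA)⁻¹ := by rw [← map_inv]; exact congrArg φ (by decide +kernel)
  have e2 : gL φ r w 12 = φ mQ * φ mA * φ mQ := by
    rw [← map_mul, ← map_mul]; exact congrArg φ (by decide +kernel)
  simp only [List.forall_mem_cons]
  exact ⟨⟨act_Q, q⟩, ⟨h.actW, h.commW⟩, ⟨h.act, Commute.refl r⟩,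
    ⟨h.act.inv (by decide), (Commute.refl r).inv_right⟩, ⟨act_A, h.comm⟩,
    ⟨e1.symm ▸ act_A.inv (by decide), e1.symm ▸ h.comm.inv_right⟩,
    ⟨e2.symm ▸ ((act_Q.mul act_A).mul act_Q).congr (by decide),
      e2.symm ▸ (q.mul_right h.comm).mul_right q⟩, by simp⟩

theorem comm_wd {l : List ℕ} (hl : ∀ i ∈ l, i ∈ [1, 4, 8, 9, 10, 11, 12]) :
    Commute r (wd (gL φ r w) l) :=
  mem_centralizer_singleton_iff.1 (wd_mem (H := centralizer {r}) fun i hi =>
    mem_centralizer_singleton_iff.2 (h.letter i (hl i hi)).2.symm) |>.symm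

theorem triv {l : List ℕ} (hl : (∀ i ∈ l, i ∈ [1, 4, 8, 9, 10, 11, 12]) ∧ evW aL l = aI) :
    wd (gL φ r w) l = 1 :=
  h.eq_one_of h.act ((act_wd fun i hi => (h.letter i (hl.1 i hi)).1).congr hl.2) (h.comm_wd hl.1)

theorem w_sq : w * w = 1 := by simpa [wd, gL] using h.triv (l := [4, 4]) (by decide)

theorem w_inv : w⁻¹ = w := inv_eq_of_mul_eq_one_left h.w_sq

theorem wT : w * φ mT * w = φ mS := by have := h.actW 1; rwa [h.w_inv] at this
theorem wS : w * φ mS * w = φ mT := by have := h.actW 4; rwa [h.w_inv] at this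

theorem rels : Rels (gL φ r w) IV3 rels3 := by
  refine rels_of (n := 14) (map_one φ) (fun l hl => ?_) (fun l hl => ?_) inv3
  · rw [gL, if_neg (by omega), if_neg (by omega), if_neg (by omega)]
    obtain ⟨l, rfl⟩ := Nat.exists_eq_add_of_le' hl
    exact map_one φ
  have a := h.act.inv (B := cp aR aR) (by decide)
  simp only [Act, inv_inv] at a
  have e1 : φ (mL 11) = (φ mA)⁻¹ := by rw [← map_inv]; exact congrArg φ (by decide +kernel)
  rcases (by decide +kernel : ∀ l ∈ rels3, (∀ i ∈ l, i ≠ 4 ∧ i ≠ 8 ∧ i ≠ 9) ∨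
    ((∀ i ∈ l, i ∈ [1, 4, 8, 9, 10, 11, 12]) ∧ evW aL l = aI) ∨ l = [8, 6, 9, 7] ∨
    l = [8, 7, 9, 7, 6] ∨ l = [8, 5, 9, 10, 5, 11] ∨ l = [2, 8, 2, 8, 11] ∨ l = [4, 6, 4, 5]) l hl
    with e | e | rfl | rfl | rfl | rfl | rfl
  · rw [wd_gL e, m_rel l hl e, map_one]
  · exact h.triv e
  · show r * (el φ 1 * (r⁻¹ * (el φ 2 * 1))) = 1
    rw [← mul_assoc, ← mul_assoc, a, mul_one]; exact el_sq 2
  · show r * (el φ 2 * (r⁻¹ * (el φ 2 * (el φ 1 * 1)))) = 1
    rw [← mul_assoc, ← mul_assoc, a, mul_one, el_mul]; exact el_sq 3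
  · show r * (el φ 4 * (r⁻¹ * (φ mA * (el φ 4 * (φ (mL 11) * 1))))) = 1
    have b := act_A (φ := φ) |>.inv (B := cp aA aA) (by decide) 4
    rw [inv_inv] at b
    rw [← mul_assoc, ← mul_assoc, a, mul_one, e1, ← mul_assoc (φ mA), b]; exact el_sq 12
  · show φ mX * (r * (φ mX * (r * (φ (mL 11) * 1)))) = 1
    rw [e1, ← h.sq]; group
  · show w * (φ mT * (w * (φ mS * 1))) = 1
    rw [← mul_assoc, ← mul_assoc, h.wT, mul_one]; exact el_sq 4

theorem not_small [Finite G] : ∃ g, Commute g (φ mC) ∧ ¬ Commute g (φ mT) := by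
  by_contra! hn
  have := Fact.mk Nat.prime_five
  have key : ∀ g, Commute g (φ mC) → ∃ m, g = φ m ∧ m * mC = mC * m := fun g hg => by
    obtain ⟨m, rfl⟩ := h.cent g (hn g hg)
    exact ⟨m, rfl, h.of_comm hg⟩
  have key5 : ∀ g, Commute g (φ mC) → g ^ 5 = 1 → g ≠ 1 → ∃ k : ℕ, g ^ k = φ mC := fun g hg g5 g1 => by
    obtain ⟨m, rfl, hm⟩ := key g hg
    obtain ⟨k, hk⟩ := ((m_c2 m hm).1 (h.inj (by rw [map_pow, g5, map_one]))).resolve_left
      fun e => g1 (by rw [e, map_one])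
    exact ⟨k, by rw [← map_pow, hk]⟩
  obtain ⟨P, hP⟩ := (CfsgH1.isPGroup_zpowers (p := 5) (x := φ mC) (k := 1) (by
    rw [pow_one, ← map_pow, show mC ^ 5 = 1 by decide +kernel, map_one])).exists_le_sylow
  have hx := hP (mem_zpowers _)
  have x1 : φ mC ≠ 1 := fun e => absurd (h.inj (e.trans (map_one φ).symm)) (by decide +kernel)
  have : Nontrivial P := ⟨⟨_, hx⟩, 1, fun e => x1 (congrArg Subtype.val e)⟩
  have := P.isPGroup'.center_nontrivial
  obtain ⟨y, hy⟩ := exists_prime_orderOf_dvd_card' (G := center P) 5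
    ((P.isPGroup'.to_subgroup _).card_eq_or_dvd.resolve_left Finite.one_lt_card.ne')
  have yc : ∀ g ∈ P, Commute (y.1.1 : G) g := fun g hg =>
    (congrArg Subtype.val (mem_center_iff.1 y.2 ⟨g, hg⟩)).symm
  rw [← orderOf_coe, ← orderOf_coe] at hy
  obtain ⟨k, hk⟩ := key5 _ (yc _ hx) (orderOf_dvd_iff_pow_eq_one.1 hy.dvd) fun e => by simp [e] at hy
  set c := wd (gL φ r w) [4, 1, 10, 8] with hc
  have c5 : c ^ 5 = 1 := by
    simpa [hc, wd, pow_succ, mul_assoc] using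
      h.triv (l := [4, 1, 10, 8, 4, 1, 10, 8, 4, 1, 10, 8, 4, 1, 10, 8, 4, 1, 10, 8]) (by decide)
  have c1 : c ≠ 1 := fun e => absurd (h.act_unique (act_wd (l := [4, 1, 10, 8]) fun i hi =>
    (h.letter i (by revert i; decide)).1) (e ▸ act_one)) (by decide)
  obtain ⟨Q, hQ⟩ := (CfsgH1.isPGroup_zpowers (p := 5) (x := c) (k := 1) (by simpa using c5)).exists_le_sylow
  obtain ⟨g, rfl⟩ := MulAction.exists_smul_eq G Q P
  obtain ⟨j, hj⟩ := key5 (g * c * g⁻¹) (hk ▸ ((yc _ ⟨c, hQ (mem_zpowers c), rfl⟩).pow_left k).symm)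
    (by rw [conj_pow, c5]; group) (by simpa using c1)
  obtain ⟨m, e, hm⟩ := key (g * r * g⁻¹) (hj ▸ ((h.comm_wd (by decide)).conj g).pow_right j)
  rw [(m_c2 m hm).2 (h.inj (by
    rw [map_pow, ← e, conj_pow, pow_three', h.rho_cube h.act, map_one]; group)), map_one] at e
  exact absurd (h.act_unique h.act ((by simpa using e : r = 1) ▸ act_one)) (by decide)

theorem key {cc : M} {m : G} (hs : mS * cc * mS = cc⁻¹)
    (hu : ∀ a : M, a * a = 1 → a * cc = cc * a → a = 1 ∨ a = mT) (m2 : m * m = 1)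
    (mx : Commute m (φ cc)) (mt : ¬ Commute m (φ mT)) (ms : Commute m (φ mS)) :
    ∃ l ∈ list12, ∀ j : ℕ, w * φ (wd mL l) * w * φ cc ^ j * (w * φ (wd mL l) * w * φ cc ^ j) = 1 := by
  have cw : ∀ a b, w * a * w * (w * b * w) = w * (a * b) * w := fun a b => by
    have := cmul' w a b; rwa [h.w_inv] at this
  have cp : ∀ a (n : ℕ), (w * a * w) ^ n = w * a ^ n * w := fun a n => by
    have := cpow' w a n; rwa [h.w_inv] at this
  have cc2 : ∀ a, w * (w * a * w) * w = a := fun a => by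
    rw [← mul_assoc, ← mul_assoc, h.w_sq, one_mul, mul_assoc, h.w_sq, mul_one]
  obtain ⟨a, ha⟩ := h.cent (w * m * w) (by
    have := ms.conj w; rwa [h.w_inv, h.wS] at this)
  have hm : m = w * φ a * w := by rw [← ha, cc2]
  have htm : ∀ n : ℕ, (φ mT * m) ^ n = w * φ ((mS * a) ^ n) * w := fun n => by
    rw [← h.wS, hm, cw, cp, map_pow, map_mul]
  have hx : ∀ n : ℕ, Commute ((φ mT * m) ^ n) (φ cc) := fun n =>
    ((comm_T cc).symm.mul_left mx).pow_left n
  rcases m_key a (h.inj (by rw [map_mul, ← ha, cw, m2, map_one, mul_one, h.w_sq])) with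
    e | ⟨n, l, hl, e⟩ | ⟨n, z2, z1, zs, zc⟩
  · refine absurd ?_ mt
    have := (comm_map (φ := φ) e).conj w
    rwa [h.w_inv, ← hm, h.wS] at this
  · refine ⟨l, hl, fun j => ?_⟩
    have t2 : φ mT * φ mT = 1 := el_sq 1
    have hy : Commute (φ mT * (φ mT * m) ^ n.1) (φ cc ^ j) :=
      ((comm_T cc).symm.mul_left (hx n)).pow_right j
    have hz : Commute (φ mT * (φ mT * m) ^ n.1) (φ mS) :=
      (comm_T mS).symm.mul_left (((comm_T mS).symm.mul_left ms).pow_left n)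
    have y2 : φ mT * (φ mT * m) ^ n.1 * (φ mT * (φ mT * m) ^ n.1) = 1 := by
      have := CfsgH4.inverts_pow (CfsgH4.dih_inv_left t2 m2) n.1
      rw [inv_eq_of_mul_eq_one_left t2] at this
      rw [← mul_assoc, this, inv_mul_cancel]
    have s1 : φ mS * φ cc ^ j * (φ mS)⁻¹ = (φ cc ^ j)⁻¹ := CfsgH4.inverts_pow (by
      rw [inv_eq_of_mul_eq_one_left (show φ mS * φ mS = 1 from el_sq 4), ← map_mul, ← map_mul, hs, map_inv]) j
    rw [← e, map_mul, map_mul, ← cw, ← cw, ← htm, h.wS, h.wT]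
    generalize φ mT * (φ mT * m) ^ n.1 = y at hy hz y2
    rw [inv_eq_of_mul_eq_one_left (show φ mS * φ mS = 1 from el_sq 4)] at s1
    rw [mul_assoc y, mul_assoc y, ← mul_assoc _ y, ← (hz.mul_right hy).eq, ← mul_assoc y, ← mul_assoc y,
      y2, one_mul, ← mul_assoc, s1, inv_mul_cancel]
  · have hinj : ∀ a b : M, w * φ a * w = w * φ b * w → a = b := fun a b e =>
      h.inj (mul_left_cancel (mul_right_cancel e))
    obtain ⟨b, hb⟩ := h.cent ((φ mT * m) ^ n.1) (by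
      have := (comm_map (φ := φ) zc).conj w
      rwa [h.w_inv, ← htm, h.wS] at this)
    rcases hu b (h.inj (by rw [map_mul, ← hb, htm, cw, ← map_mul, z2, map_one, mul_one, h.w_sq]))
      (h.of_comm (hb ▸ hx n)) with rfl | rfl
    · exact absurd (hinj _ 1 (by rw [← htm, hb, map_one, mul_one, h.w_sq])) z1
    · exact absurd (hinj _ mS (by rw [← htm, hb, h.wS])) zs

omit h in
theorem rel_of {cc : M} {l c : List ℕ} {j : ℕ}
    (e : ∀ j : ℕ, w * φ (wd mL l) * w * φ cc ^ j * (w * φ (wd mL l) * w * φ cc ^ j) = 1)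
    (hc : wd mL c = cc ^ j ∧ (∀ i ∈ l, i ≠ 4 ∧ i ≠ 8 ∧ i ≠ 9) ∧ ∀ i ∈ c, i ≠ 4 ∧ i ≠ 8 ∧ i ≠ 9) :
    wd (gL φ r w) ((4 :: (l ++ 4 :: c)) ++ (4 :: (l ++ 4 :: c))) = 1 := by
  rw [wd_append, wd_cons, wd_append, wd_cons, wd_gL hc.2.1, wd_gL hc.2.2, hc.1, map_pow, ← e j]
  simp only [gL, if_true, mul_assoc]

theorem no_coll (hc : ∀ {H : Subgroup G}, (∀ l, l < 16 → tb 15599 l = true → gL φ r w l ∈ H) →
    gL φ r w 4 ∈ H) : False := by
  have := mem_centralizer_singleton_iff.1 (hc (H := centralizer {φ mT}) fun l h1 h2 => by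
    obtain ⟨e1, e2, e3⟩ := (by decide : ∀ l, l < 16 → tb 15599 l = true → l ≠ 4 ∧ l ≠ 8 ∧ l ≠ 9) l h1 h2
    rw [gL, if_neg e1, if_neg e2, if_neg e3]
    exact mem_centralizer_singleton_iff.2 (comm_T _))
  exact absurd (h.fix_of_comm h.actW (k := 1) this) (by decide)

theorem extra [Finite G] : wd (gL φ r w) [4, 3, 4, 3, 5, 6, 12, 4, 3, 4, 3, 5, 6, 12] = 1 := by
  have hb := h.rels
  obtain ⟨c, hc, hct⟩ := h.not_small
  obtain ⟨m, m2, mx, mt, hm⟩ := gen_lemma (r := φ mS) (el_sq 1) (h.el_ne (k := 1) (by decide))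
    (el_sq 4) (by rw [← map_mul, ← map_mul, ← map_inv]; exact congrArg φ (by decide +kernel))
    (comm_T mC).symm (fun m m2 mt mx => by
      obtain ⟨a, rfl⟩ := h.cent m mt
      rcases m_c1 a (h.inj (by rw [map_mul, m2, map_one])) (h.of_comm mx) with rfl | rfl
      exacts [Or.inl (map_one φ), Or.inr rfl]) hc hct
  rcases hm with hm | hm
  · obtain ⟨l, hl, e⟩ := h.key (by decide +kernel) m_c1 m2 mx mt hm
    simp only [list12, List.mem_cons, List.not_mem_nil, or_false] at hl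
    rcases hl with rfl | rfl | rfl | rfl | rfl | rfl | rfl | rfl | rfl | rfl | rfl | rfl
    · exact rel_of (l := [3]) (c := [3, 5, 6, 12]) (j := 1) e (by decide +kernel)
    · exact (h.no_coll (k1 hb (rel_of (l := [1, 3, 1, 6]) (c := [6, 13, 3, 12, 5]) (j := 3) e (by decide +kernel)))).elim
    · exact (h.no_coll (k2 hb (rel_of (l := [3, 10]) (c := [3, 5, 6, 12]) (j := 1) e (by decide +kernel)))).elim
    · exact (h.no_coll (k3 hb (rel_of (l := [3, 11]) (c := [6, 13, 5, 3]) (j := 4) e (by decide +kernel)))).elim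
    · exact (h.no_coll (k4 hb (rel_of (l := [1, 3, 1, 6, 12]) (c := [3, 5, 6, 12]) (j := 1) e (by decide +kernel)))).elim
    · exact (h.no_coll (k5 hb (rel_of (l := [1, 3, 1, 6, 13]) (c := [6, 13, 3, 12, 5]) (j := 3) e (by decide +kernel)))).elim
    · exact (h.no_coll (k6 hb (rel_of (l := [3, 2, 7, 10]) (c := [5, 6, 13, 3, 12]) (j := 2) e (by decide +kernel)))).elim
    · exact (h.no_coll (k7 hb (rel_of (l := [1, 3, 5, 1, 11, 5]) (c := [6, 13, 5, 3]) (j := 4) e (by decide +kernel)))).elim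
    · exact (h.no_coll (k8 hb (rel_of (l := [13, 3, 12]) (c := [6, 13, 5, 3]) (j := 4) e (by decide +kernel)))).elim
    · exact (h.no_coll (k9 hb (rel_of (l := [5, 3, 5, 13]) (c := [3, 5, 6, 12]) (j := 1) e (by decide +kernel)))).elim
    · exact (h.no_coll (k10 hb (rel_of (l := [3, 6, 12, 3, 5]) (c := [3, 5, 6, 12]) (j := 1) e (by decide +kernel)))).elim
    · exact (h.no_coll (k11 hb (rel_of (l := [2, 13, 2, 3, 5, 11]) (c := [3, 5, 6, 12]) (j := 1) e (by decide +kernel)))).elim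
  · have qi : (φ mQ)⁻¹ = φ mQ := inv_eq_of_mul_eq_one_left Q_sq
    have qq : ∀ a : M, mQ⁻¹ * (mQ * a * mQ) * mQ = a := by decide +kernel
    obtain ⟨l, hl, e⟩ := h.key (cc := mC') (m := φ mQ * m * (φ mQ)⁻¹) (by decide +kernel)
      (fun a a2 ac => by
        rcases m_c1 (mQ⁻¹ * a * mQ) (by rw [cmul', a2]; group) (by
          rw [← qq mC, cmul', cmul']; exact congrArg (mQ⁻¹ * · * mQ) ac) with e | e
        · exact Or.inl (conj_eq_one e)
        · exact Or.inr (by rw [show a = mQ * (mQ⁻¹ * a * mQ) * mQ⁻¹ by group, e]; decide +kernel))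
      (by rw [conj_mul, m2]; group) (by
        have := mx.conj (φ mQ)
        rw [qi, ← map_mul, ← map_mul] at this
        rwa [qi]) (fun e => mt (by
        have := e.conj (φ mQ)⁻¹
        rwa [inv_inv, comm_iff_conj.1 (comm_T mQ),
          show (φ mQ)⁻¹ * (φ mQ * m * (φ mQ)⁻¹) * φ mQ = m by group] at this)) (by
        have := hm.conj (φ mQ)
        rwa [show el φ 1 * φ mS = el φ 5 from el_mul 1 4, ← show _ = el φ 5 from act_Q 4,
          show φ mQ * ((φ mQ)⁻¹ * el φ 4 * φ mQ) * (φ mQ)⁻¹ = φ mS by rw [← el_four]; group] at this)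
    simp only [list12, List.mem_cons, List.not_mem_nil, or_false] at hl
    exfalso
    rcases hl with rfl | rfl | rfl | rfl | rfl | rfl | rfl | rfl | rfl | rfl | rfl | rfl
    · exact h.no_coll (k12 hb (rel_of (l := [3]) (c := [2, 3, 1, 12, 2]) (j := 4) e (by decide +kernel)))
    · exact h.no_coll (k13 hb (rel_of (l := [1, 3, 1, 6]) (c := [1, 3, 1, 5, 10]) (j := 1) e (by decide +kernel)))
    · exact h.no_coll (k14 hb (rel_of (l := [3, 10]) (c := [3, 11, 12, 3, 5]) (j := 3) e (by decide +kernel)))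
    · exact h.no_coll (k15 hb (rel_of (l := [3, 11]) (c := [2, 3, 1, 12, 2]) (j := 4) e (by decide +kernel)))
    · exact h.no_coll (k16 hb (rel_of (l := [1, 3, 1, 6, 12]) (c := [1, 3, 1, 5, 10]) (j := 1) e (by decide +kernel)))
    · exact h.no_coll (k17 hb (rel_of (l := [1, 3, 1, 6, 13]) (c := [3, 12, 3, 5, 11]) (j := 2) e (by decide +kernel)))
    · exact h.no_coll (k18 hb (rel_of (l := [3, 2, 7, 10]) (c := [2, 3, 1, 12, 2]) (j := 4) e (by decide +kernel)))
    · exact h.no_coll (k19 hb (rel_of (l := [1, 3, 5, 1, 11, 5]) (c := [1, 3, 1, 5, 10]) (j := 1) e (by decide +kernel)))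
    · exact h.no_coll (k20 hb (rel_of (l := [13, 3, 12]) (c := [3, 12, 3, 5, 11]) (j := 2) e (by decide +kernel)))
    · exact h.no_coll (k21 hb (rel_of (l := [5, 3, 5, 13]) (c := [3, 11, 12, 3, 5]) (j := 3) e (by decide +kernel)))
    · exact h.no_coll (k22 hb (rel_of (l := [3, 6, 12, 3, 5]) (c := [1, 3, 1, 5, 10]) (j := 1) e (by decide +kernel)))
    · exact h.no_coll (k23 hb (rel_of (l := [2, 13, 2, 3, 5, 11]) (c := [2, 3, 1, 12, 2]) (j := 4) e (by decide +kernel)))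

end Conf2

end CfsgH9.J3
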