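/-
Simple groups with an involution centraliser `2^(1+4):A₅`: the two orders.
-/
import Cfsg.Agent.H9.J3Gen
import Cfsg.Agent.H9.J1Top
import Cfsg.Agent.H2.Generation
import Cfsg.Agent.H2.PCentral
import Cfsg.Agent.L0.OddOrder

set_option autoImplicit false
set_option maxRecDepth 100000

namespace CfsgH9.J3

open Subgroup CfsgH9.J1 CfsgH9.TC

theorem relIndex_normalizer_mod {Γ : Type*} [Group Γ] [Finite Γ] {p : ℕ} [Fact p.Prime]
    {Q H : Subgroup Γ} (hQ : Nat.card Q = p) (hle : Q ≤ H) (hn : ¬ p * p ∣ Nat.card H) :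
    (normalizer (Q : Set Γ)).relIndex H % p = 1 % p := by
  have c : Nat.card (Q.subgroupOf H) = p := (Nat.card_congr (subgroupOfEquivOfLe hle).toEquiv).trans hQ
  let P : Sylow p H := (IsPGroup.of_card (G := Q.subgroupOf H) (n := 1) (by rw [c, pow_one])).toSylow
    fun h => hn (by rw [← (Q.subgroupOf H).index_mul_card, c]; exact Nat.mul_dvd_mul_right h p)
  have := card_sylow_modEq_one p H
  rwa [P.card_eq_index_normalizer, show normalizer (P : Set H) = (normalizer (Q : Set Γ)).subgroupOf H from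
    (subgroupOf_normalizer_eq hle).symm] at this

theorem no_odd_sub3 {Γ : Type*} [Group Γ] [Finite Γ] [IsSimpleGroup Γ] (hc : Nat.card Γ = 50232960)
    (hi : ∀ v g : Γ, v * v = 1 → v ≠ 1 → Commute g v → g ^ 120 = 1) (D : Subgroup Γ)
    (ho : Odd (Nat.card D)) (hd : 26163 ∣ Nat.card D) : False := by
  have := Fact.mk (by norm_num : Nat.Prime 17)
  have hD : Nat.card D ∣ 392445 := by
    have := D.card_subgroup_dvd_card
    rw [hc, show 50232960 = 2 ^ 7 * 392445 by norm_num] at this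
    exact (Nat.Coprime.pow_right 7 ho.coprime_two_right).dvd_of_dvd_mul_left this
  obtain ⟨P, h1, h2, h3⟩ := CfsgH2.exists_isHallOf {17, 19} (CfsgL0.odd_solvable ho)
  have h4 := CfsgH1.card_mul_relIndex h1
  have h5 : 323 ∣ Nat.card P := (show Nat.Coprime 323 (P.relIndex D) from
    Nat.Coprime.mul_left ((Nat.Prime.coprime_iff_not_dvd (p := 17) (by norm_num)).2 fun h =>
      h3 17 (by norm_num) h (by simp)) ((Nat.Prime.coprime_iff_not_dvd (p := 19) (by norm_num)).2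
      fun h => h3 19 (by norm_num) h (by simp))).dvd_of_dvd_mul_right
    (h4 ▸ Dvd.dvd.trans (by norm_num) hd)
  have h6 : Nat.card P ∣ 323 := (show Nat.Coprime (Nat.card P) (3 ^ 5 * 5) from
    Nat.Coprime.mul_right (((Nat.Prime.coprime_iff_not_dvd Nat.prime_three).2 fun h => by
      simpa using h2 3 Nat.prime_three h).symm.pow_right 5)
      ((Nat.Prime.coprime_iff_not_dvd Nat.prime_five).2 fun h => by
      simpa using h2 5 Nat.prime_five h).symm).dvd_of_dvd_mul_left ((Dvd.intro _ h4).trans hD)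
  have h7 := Nat.dvd_antisymm h6 h5
  obtain ⟨x, hx⟩ := exists_prime_orderOf_dvd_card' (G := P) 17 (by rw [h7]; norm_num)
  rw [← orderOf_coe] at hx
  have cQ : Nat.card (zpowers (x : Γ)) = 17 := by rw [Nat.card_zpowers, hx]
  have qP : zpowers (x : Γ) ≤ P := zpowers_le.2 x.2
  set N := normalizer (zpowers (x : Γ) : Set Γ)
  have idx : ∀ {H K : Subgroup Γ}, zpowers (x : Γ) ≤ K → K ≤ N → K ≤ H → ¬ 17 * 17 ∣ Nat.card H →
      N.relIndex H % 17 = 1 % 17 ∧ N.relIndex H ∣ K.relIndex H := fun h1 h2 h3 h4 =>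
    ⟨relIndex_normalizer_mod cQ (h1.trans h3) h4, relIndex_dvd_of_le_left _ h2⟩
  have n1 : P ≤ N := by
    obtain ⟨e1, e2⟩ := idx le_rfl le_normalizer qP (by rw [h7]; norm_num)
    have := CfsgH1.card_mul_relIndex qP
    rw [cQ, h7] at this
    rw [show (zpowers (x : Γ)).relIndex P = 19 by omega] at e2
    exact relIndex_eq_one.1 ((by decide : ∀ d ∈ Nat.divisors 19, d % 17 = 1 % 17 → d = 1) _
      (Nat.mem_divisors.2 ⟨e2, by norm_num⟩) e1)
  have n2 : D ≤ N := by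
    obtain ⟨e1, e2⟩ := idx qP n1 h1 fun h => absurd (h.trans hD) (by norm_num)
    rw [← h4, h7, show 392445 = 323 * 1215 by norm_num] at hD
    exact relIndex_eq_one.1 ((by decide +kernel : ∀ d ∈ Nat.divisors 1215, d % 17 = 1 % 17 → d = 1) _
      (Nat.mem_divisors.2 ⟨e2.trans (Nat.dvd_of_mul_dvd_mul_left (by norm_num) hD), by norm_num⟩) e1)
  obtain ⟨e1, e2⟩ := idx (qP.trans h1) n2 le_top (by rw [card_top, hc]; norm_num)
  rw [relIndex_top_right] at e1 e2
  rw [relIndex_top_right] at e2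
  have e3 : D.index ∣ 1920 := by
    obtain ⟨c, e⟩ := hd
    have := D.index_mul_card
    rw [e, hc] at this
    exact Dvd.intro c (by nlinarith)
  rcases (by decide +kernel : ∀ d ∈ Nat.divisors 1920, d % 17 = 1 % 17 → d = 1 ∨ d = 120) _
    (Nat.mem_divisors.2 ⟨e2.trans e3, by norm_num⟩) e1 with e | e
  · rcases (normalizer_eq_top_iff.1 (index_eq_one.1 e)).eq_bot_or_eq_top with e | e
    · rw [e, card_bot] at cQ; omega
    · rw [e, card_top, hc] at cQ; omega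
  have cN : Nat.card N = 418608 := by
    have := N.index_mul_card
    rw [e, hc] at this; omega
  let f := (zpowers (x : Γ)).normalizerMonoidHom
  have cA : Nat.card (MulAut (zpowers (x : Γ))) = 16 := by
    rw [IsCyclic.card_mulAut, cQ]; decide
  have hk : Odd (Nat.card f.ker) := CfsgH4.odd_card_iff_no_involution.2 fun v hv v2 => by
    have h2 := CfsgH4.orderOf_eq_two_iff.1 v2
    rw [normalizerMonoidHom_ker] at hv
    have := orderOf_dvd_of_pow_eq_one (hi v x (congrArg Subtype.val h2.1)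
      (fun e => h2.2 (Subtype.ext e)) (hv x (mem_zpowers _)))
    rw [hx] at this; omega
  have hr : f.range = ⊤ := eq_top_of_le_card _ (by
    have := f.ker.card_mul_index
    rw [index_ker, cN] at this
    rw [cA]
    exact Nat.le_of_dvd Nat.card_pos ((show Nat.Coprime (2 ^ 4) _ from
      hk.coprime_two_left.pow_left 4).dvd_of_dvd_mul_left (by rw [this]; norm_num)))
  have := CfsgH2.isCyclic_mulAut_of_isCyclic (p := 17) (C := zpowers (x : Γ)) (by norm_num)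
    (IsPGroup.of_card (n := 1) cQ) inferInstance
  obtain ⟨a, ha⟩ := IsCyclic.exists_ofOrder_eq_natCard (α := MulAut (zpowers (x : Γ)))
  obtain ⟨g, rfl⟩ := MonoidHom.range_eq_top.1 hr a
  have h16 : 16 ∣ orderOf (g : Γ) := by rw [orderOf_coe, ← cA, ← ha]; exact orderOf_map_dvd f g
  have h2 := CfsgH4.orderOf_eq_two_iff.1 (CfsgH4.orderOf_pow_half (x := (g : Γ))
    (even_iff_two_dvd.2 (Dvd.dvd.trans (by norm_num) h16)) (orderOf_pos _).ne')
  exact absurd (h16.trans (orderOf_dvd_of_pow_eq_one (hi _ g h2.1 h2.2 ((Commute.refl _).pow_right _))))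
    (by norm_num)

variable {G : Type*} [Group G]

theorem exists_odd_trans [Finite G] [IsSimpleGroup G] {K : Subgroup G} {t : G} (t2 : t * t = 1)
    (t1 : t ≠ 1) (hC : ∀ g, Commute g t → g ∈ K)
    (hI : ∀ v ∈ K, v * v = 1 → v ≠ 1 → ∃ g ∈ K, v = g⁻¹ * t * g) (hK : K ≠ ⊤) :
    ∃ D ≤ K, Odd (Nat.card D) ∧ {v | ∃ g ∈ K, v = g⁻¹ * t * g}.ncard ∣ Nat.card D := by
  have tK := hC t (Commute.refl t)
  have se : ∀ v g, v ∈ K → v * v = 1 → v ≠ 1 → g⁻¹ * v * g ∈ K → g ∈ K := by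
    intro v g hv v2 v1 hg
    obtain ⟨a, ha, e1⟩ := hI v hv v2 v1
    obtain ⟨b, hb, e2⟩ := hI _ hg (inv_conj g v ⟨v2, v1⟩).1 (inv_conj g v ⟨v2, v1⟩).2
    have : a * g * b⁻¹ ∈ K := hC _ (by
      have e3 : t = b * (g⁻¹ * (a⁻¹ * t * a) * g) * b⁻¹ := by rw [← e1, e2]; group
      rw [Commute, SemiconjBy]; nth_rewrite 1 [e3]; group)
    rw [show g = a⁻¹ * (a * g * b⁻¹) * b by group]
    exact K.mul_mem (K.mul_mem (K.inv_mem ha) this) hb
  obtain ⟨u, u2, uK⟩ : ∃ u, u * u = 1 ∧ u ∉ K := by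
    by_contra hn
    push Not at hn
    rcases (normalClosure_normal (s := {t})).eq_bot_or_eq_top with e | e
    · exact t1 (mem_bot.1 (e ▸ subset_normalClosure (Set.mem_singleton _)))
    · refine hK (top_unique (e ▸ (closure_le _).2 fun v hv => ?_))
      obtain ⟨a, ha, hv'⟩ := Group.mem_conjugatesOfSet_iff.1 hv
      obtain ⟨g, rfl⟩ := isConj_iff.1 hv'
      exact hn _ (by rw [conj_mul, show a = t from ha, t2]; group)
  have ui : u⁻¹ = u := inv_eq_of_mul_eq_one_left u2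
  set D := K ⊓ K.comap (MulAut.conj u⁻¹).toMonoidHom with hD
  have mD : ∀ d, d ∈ D ↔ d ∈ K ∧ u⁻¹ * d * u ∈ K := fun d => by simp [hD]
  have ho : Odd (Nat.card D) := CfsgH4.odd_card_iff_no_involution.2 fun v hv v2 => by
    have := CfsgH4.orderOf_eq_two_iff.1 v2
    exact uK (se v u ((mD v).1 hv).1 this.1 this.2 ((mD v).1 hv).2)
  have htr : {v | ∃ g ∈ D, v = g⁻¹ * t * g} = {v | ∃ g ∈ K, v = g⁻¹ * t * g} := by
    refine Set.Subset.antisymm (fun v ⟨g, hg, e⟩ => ⟨g, hg.1, e⟩) ?_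
    rintro s ⟨g, hg, e⟩
    have sK : s ∈ K := e ▸ K.mul_mem (K.mul_mem (K.inv_mem hg) tK) hg
    obtain ⟨s2, s1⟩ : s ∈ J1.Inv G := e ▸ inv_conj g _ ⟨t2, t1⟩
    obtain ⟨b2, b1⟩ := inv_conj u s ⟨s2, s1⟩
    have hodd := (odd_or_central t2 b2).resolve_right (by
      rintro ⟨c, -, c2, c1, ct, cb⟩
      refine uK (se s u sK s2 s1 (se c _ (hC c ct) c2 c1 ?_))
      rw [mul_assoc, cb.eq, inv_mul_cancel_left]; exact hC c ct)
    obtain ⟨k, -, m2, hm⟩ := exists_mid t2 b2 hodd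
    generalize (t * (u⁻¹ * s * u)) ^ k * t = m at m2 hm
    have mi : m⁻¹ = m := inv_eq_of_mul_eq_one_left m2
    have e1 : s = (m * u)⁻¹ * t * (m * u) := by
      rw [mul_inv_rev, mi, mul_assoc u⁻¹, hm, ui]
      simp only [← mul_assoc]
      rw [u2, one_mul, mul_assoc _ m m, m2, mul_one, mul_assoc, u2, mul_one]
    have e2 : m * u ∈ K := se _ _ tK t2 t1 (e1 ▸ sK)
    refine ⟨m * u, (mD _).2 ⟨e2, ?_⟩, e1⟩
    rw [mul_assoc, mul_assoc, u2, mul_one, ← mi, ← mul_inv_rev]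
    exact K.inv_mem e2
  exact ⟨D, inf_le_left, ho, htr ▸ Dvd.intro _ (ncard_class D t)⟩

variable {φ : M →* G} {r w : G}

theorem Conf2.card [Finite G] [IsSimpleGroup G] (h : Conf2 φ r w) : Nat.card G = 50232960 := by
  obtain ⟨K, hs, hc, m1, m2, m3, m4, m12⟩ := exists_J3 h.rels h.extra fun e =>
    absurd (h.inj (e.trans (map_one φ).symm)) (by decide +kernel)
  have mw : ∀ l : List ℕ, (∀ i ∈ l, i = 1 ∨ i = 2 ∨ i = 3 ∨ i = 12) → φ (wd mL l) ∈ K := fun l hl => by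
    rw [map_wd]
    refine wd_mem fun i hi => ?_
    rcases hl i hi with rfl | rfl | rfl | rfl
    exacts [m1, m2, m3, m12]
  have hφ : φ.range ≤ K := by
    rw [MonoidHom.range_eq_map, ← good0.top, map_le_iff_le_comap, closure_le]
    have key : ∀ i ∈ [1, 2, 3, 4, 6, 7, 9], ∃ l ∈ [[3, 2, 3], [1, 2, 1], [12, 12, 2, 12], [2],
      [1, 2, 1, 2, 1, 2, 1, 2], [1, 3, 1, 12], [1, 12, 1]],
        (∀ i ∈ l, i = 1 ∨ i = 2 ∨ i = 3 ∨ i = 12) ∧ mM 0 32 304 i = wd mL l := by decide +kernel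
    rintro _ (rfl | rfl | rfl | rfl | rfl | rfl | rfl) <;>
    exact let ⟨l, _, h1, h2⟩ := key _ (by simp); mem_comap.2 (h2 ▸ mw l h1)
  have mφ : ∀ a, φ a ∈ K := fun a => hφ ⟨a, rfl⟩
  have mr : r ∈ K := by
    have : w * (φ mA * (w * (φ mA * (r⁻¹ * 1)))) = 1 := h.rels.rel [4, 10, 4, 10, 9] (by decide)
    rw [show r = w * (φ mA * (w * (φ mA * (r⁻¹ * 1)))) * r by rw [this, one_mul]]
    simpa [gL, mul_assoc] using mul_mem m4 (mul_mem (mφ mA) (mul_mem m4 (mφ mA)))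
  have hC : ∀ g, Commute g (φ mT) → g ∈ K := fun g hg => let ⟨m, e⟩ := h.cent g hg; e ▸ mφ m
  have hI : ∀ v ∈ K, v * v = 1 → v ≠ 1 → ∃ g ∈ K, v = g⁻¹ * φ mT * g := fun v hv v2 v1 => by
    obtain ⟨g, hg, m, e⟩ := h.conj_into hφ hv v2
    have e' : v = g * φ m * g⁻¹ := by rw [← e]; group
    rcases h.cls (m := m) (e ▸ (inv_conj g v ⟨v2, v1⟩).1) (e ▸ (inv_conj g v ⟨v2, v1⟩).2) with
      rfl | ⟨-, p, hp⟩ | ⟨-, p, hp⟩
    · exact ⟨g⁻¹, inv_mem hg, by rw [inv_inv, e']⟩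
    · refine ⟨r⁻¹ * φ mA * φ p * g⁻¹, mul_mem (mul_mem (mul_mem (inv_mem mr) (mφ _)) (mφ _))
        (inv_mem hg), ?_⟩
      rw [e', hp, ← show (r⁻¹ * φ mA)⁻¹ * φ mT * (r⁻¹ * φ mA) = φ mU from h.act_xi 1]; group
    · refine ⟨w * φ p * g⁻¹, mul_mem (mul_mem m4 (mφ _)) (inv_mem hg), ?_⟩
      rw [e', hp, ← show w⁻¹ * φ mT * w = φ mS from h.actW 1]; group
  by_cases hK : K = ⊤
  · rw [← hc, hK, card_top]
  obtain ⟨D, hD, ho, hd⟩ := exists_odd_trans (el_sq 1) (h.el_ne (k := 1) (by decide)) hC hI hK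
  have c1 := ncard_class K (φ mT)
  rw [h.centralizer_eq, inf_eq_right.2 hφ, h.card_range, hc] at c1
  rw [el_one, show {v | ∃ g ∈ K, v = g⁻¹ * φ mT * g}.ncard = 26163 by omega] at hd
  have e := Nat.card_congr (subgroupOfEquivOfLe hD).toEquiv
  refine (no_odd_sub3 hc (fun v g v2 v1 hv => Subtype.ext ?_) (D.subgroupOf K) (e ▸ ho) (e ▸ hd)).elim
  obtain ⟨a, -, ha⟩ := hI v v.2 (congrArg Subtype.val v2) fun e => v1 (Subtype.ext e)
  obtain ⟨m, hm⟩ := h.cent (a * g * a⁻¹) (by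
    have := Commute.conj (show Commute (g : G) v from congrArg Subtype.val hv) a
    rwa [ha, show a * (a⁻¹ * φ mT * a) * a⁻¹ = φ mT by group] at this)
  have : m ^ 120 = 1 := by
    rcases m_exp m with e | e | e
    exacts [by rw [show 120 = 8 * 15 from rfl, pow_mul, e, one_pow],
      by rw [show 120 = 10 * 12 from rfl, pow_mul, e, one_pow],
      by rw [show 120 = 12 * 10 from rfl, pow_mul, e, one_pow]]
  have := congrArg φ this
  rw [map_pow, ← hm, conj_pow, map_one] at this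
  simpa using this

theorem Loc.card_three [Finite G] [IsSimpleGroup G] (h : Loc φ) {g : G}
    (hg : g⁻¹ * φ mT * g = φ mS) : Nat.card G = 50232960 :=
  let ⟨_, h⟩ := h.exists_conf
  let ⟨_, h⟩ := h.exists_w hg
  h.card

theorem Loc.card_two [Finite G] [IsSimpleGroup G] (h : Loc φ) (hg : ∀ g, g⁻¹ * φ mT * g ≠ φ mS) :
    Nat.card G = 604800 :=
  let ⟨_, h'⟩ := h.exists_conf
  Two.card_J2 ⟨h, h'.act_xi, h'.xi_cube, hg⟩

end CfsgH9.J3
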