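import Cfsg.Agent.H9.Steinberg

set_option autoImplicit false

namespace CfsgH9
open Cfsg
open scoped MatrixGroups

section ZP
variable {X : Type*} [Group X] {p : ℕ} [hp : Fact p.Prime]

/-- powers with exponent in `ZMod p` -/
def zp (g : X) (t : ZMod p) : X := g ^ t.val

theorem zp_natCast {g : X} (hg : g ^ p = 1) (n : ℕ) : zp g (n : ZMod p) = g ^ n := by
  unfold zp
  rw [ZMod.val_natCast]
  conv_rhs => rw [← Nat.mod_add_div n p, pow_add, pow_mul, hg, one_pow, mul_one]

theorem zp_add {g : X} (hg : g ^ p = 1) (s t : ZMod p) : zp g (s + t) = zp g s * zp g t := by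
  have : s + t = ((s.val + t.val : ℕ) : ZMod p) := by simp
  rw [this, zp_natCast hg, pow_add]; rfl

theorem zp_zero (g : X) : zp g (0 : ZMod p) = 1 := by simp [zp]

theorem zp_one {g : X} (hg : g ^ p = 1) : zp g (1 : ZMod p) = g := by
  have := zp_natCast hg 1
  simpa using this

theorem zp_neg {g : X} (hg : g ^ p = 1) (t : ZMod p) : zp g (-t) = (zp g t)⁻¹ := by
  rw [eq_inv_iff_mul_eq_one, ← zp_add hg, neg_add_cancel, zp_zero]

theorem zp_zp {g : X} (hg : g ^ p = 1) (s t : ZMod p) : zp (zp g s) t = zp g (s * t) := by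
  have : s * t = ((s.val * t.val : ℕ) : ZMod p) := by simp
  rw [this, zp_natCast hg, pow_mul]; rfl

theorem zp_conj (w g : X) (t : ZMod p) : w * zp g t * w⁻¹ = zp (w * g * w⁻¹) t := by
  unfold zp; rw [conj_pow]

theorem zp_inv {g : X} (hg : g ^ p = 1) (t : ZMod p) : zp g⁻¹ t = zp g (-t) := by
  rw [zp_neg hg]; unfold zp; rw [inv_pow]

theorem zp_pow_p {g : X} (hg : g ^ p = 1) (t : ZMod p) : zp g t ^ p = 1 := by
  unfold zp; rw [← pow_mul, mul_comm, pow_mul, hg, one_pow]

theorem zp_ne_one {g : X} (hg : g ^ p = 1) (hg1 : g ≠ 1) {t : ZMod p} (ht : t ≠ 0) : zp g t ≠ 1 := by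
  intro h
  apply hg1
  have := zp_zp hg t t⁻¹
  rw [h, mul_inv_cancel₀ ht, zp_one hg] at this
  rw [← this]; simp [zp]

end ZP

theorem sl2_center_coe {k : Type*} [Field k] {g : SL(2, k)} (hg : g ∈ Subgroup.center SL(2, k))
    (hg1 : g ≠ 1) : g.1 = Matrix.scalar (Fin 2) (-1 : k) := by
  obtain ⟨r, hr, e⟩ := Matrix.SpecialLinearGroup.mem_center_iff.1 hg
  have h2 : r * r = 1 := by simpa [pow_two] using hr
  rcases mul_self_eq_one_iff.1 h2 with h | h
  · exfalso; apply hg1
    apply Subtype.ext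
    change (g : Matrix (Fin 2) (Fin 2) k) = 1
    rw [← e, h, map_one]
  · change (g : Matrix (Fin 2) (Fin 2) k) = _
    rw [← e, h]

theorem sl2_ker_cases {k : Type*} [Field k] {N : Subgroup SL(2, k)} (hN : N ≤ Subgroup.center SL(2, k)) :
    N = ⊥ ∨ N = Subgroup.center SL(2, k) := by
  by_cases h : N = ⊥
  · exact Or.inl h
  · right
    obtain ⟨g, hg, hg1⟩ := exists_ne_one_of_ne_bot h
    refine le_antisymm hN fun z hz => ?_
    by_cases hz1 : z = 1
    · rw [hz1]; exact N.one_mem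
    · have : z = g := Subtype.ext ((sl2_center_coe hz hz1).trans (sl2_center_coe (hN hg) hg1).symm)
      rw [this]; exact hg

theorem sl2_center_two {k : Type*} [Field k] (h2 : (2 : k) = 0) : Subgroup.center SL(2, k) = ⊥ := by
  rw [eq_bot_iff]
  intro z hz
  by_contra hz1
  apply hz1
  have e := sl2_center_coe hz hz1
  have : (-1 : k) = 1 := by linear_combination (-1 : k) * h2
  rw [this, map_one] at e
  exact Subtype.ext e

variable {X : Type*} [Group X] {A B : Subgroup X}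

/-- a homomorphism from `SL₂(k)` separating the two unipotent subgroups has central kernel -/
theorem sl2_ker_le_center {k : Type*} [Field k] (φ : SL(2, k) →* X)
    (h : ∀ s t, φ (xU s) = φ (xL t) → s = 0) : φ.ker ≤ Subgroup.center SL(2, k) := by
  rcases r1_normal_dichotomy (special_UU_LL (k := k)).1 (N := φ.ker) (fun x _ => cj_of_normal x _)
    (by rw [UU_sup_LL]; exact le_top) with ⟨n, hn, e⟩ | hc
  · exfalso
    have h1 : n * xU (1 : k) * n⁻¹ ∈ LL k := e ▸ conj_mem_cj (mem_UU.2 ⟨1, rfl⟩)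
    obtain ⟨t, ht⟩ := mem_LL.1 h1
    have h2 := congrArg φ ht
    rw [map_mul, map_mul, map_inv, MonoidHom.mem_ker.1 hn, one_mul, inv_one, mul_one] at h2
    exact one_ne_zero (h _ _ h2)
  · intro n hn
    rw [Subgroup.mem_center_iff]
    intro g
    exact (hc n hn g (by rw [UU_sup_LL]; trivial)).symm

theorem special_prime_hom (hs : IsSpecialRankOnePair A B) (hA : Comm A A) (hB : Comm B B)
    {p : ℕ} [Fact p.Prime] {a : X} (ha : a ∈ A) (ha1 : a ≠ 1) (hp : a ^ p = 1) :
    ∃ φ : SL(2, ZMod p) →* X, φ.range = Subgroup.closure {a, prt A B a} ∧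
      (φ.ker = ⊥ ∨ φ.ker = Subgroup.center _) := by
  set b := prt A B a with hbdef
  have hpow : ∀ c ∈ A, c ≠ 1 → c ^ p = 1 → prt A B c ^ p = 1 := by
    intro c hc hc1 hcp
    have := mu_conj_left hs hc hc1
    rw [← inv_inj, ← inv_pow, ← this, conj_pow, hcp]; group
  have hbp : b ^ p = 1 := hpow a ha ha1 hp
  have hmemA : ∀ t : ZMod p, zp a t ∈ A := fun t => A.pow_mem ha _
  have hprt : ∀ t : ZMod p, t ≠ 0 → prt A B (zp a t) = zp b t⁻¹ := by
    intro t ht
    have h1 := prt_pow_pow hs hA hB ha t.val (zp_ne_one hp ha1 ht)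
    have h2 := hpow _ (hmemA t) (zp_ne_one hp ha1 ht) (zp_pow_p hp t)
    have h3 := zp_zp h2 t t⁻¹
    rw [mul_inv_cancel₀ ht, zp_one h2] at h3
    rw [← h3]
    congr 1
  have hw : ∀ t : ZMod p, t ≠ 0 → zp a t * zp b (-t⁻¹) * zp a t = mu A B (zp a t) := by
    intro t ht
    rw [zp_neg hbp, ← hprt t ht]; rfl
  have hst : St2 (fun t : ZMod p => zp a t) (fun t => zp b t) := by
    refine ⟨zp_add hp, zp_add hbp, fun t ht u => ?_, fun t ht u => ?_⟩
    · rw [hw t ht, ← mul_inv_eq_iff_eq_mul]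
      have h1 := mu_conj_left hs (hmemA t) (zp_ne_one hp ha1 ht)
      have h2 : zp a u = zp (zp a t) (t⁻¹ * u) := by
        rw [zp_zp hp]; congr 1; field_simp
      rw [h2, zp_conj, h1, hprt t ht, ← zp_neg hbp, zp_zp hbp]
      congr 1; field_simp
    · rw [hw t ht, ← mul_inv_eq_iff_eq_mul]
      have h1 := mu_conj_right hs (hmemA t) (zp_ne_one hp ha1 ht)
      have h2 : zp b u = zp (zp b t⁻¹) (t * u) := by
        rw [zp_zp hbp]; congr 1; field_simp
      rw [h2, zp_conj, ← hprt t ht, h1, ← zp_neg hp, zp_zp hp]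
      congr 1; ring
  obtain ⟨φ, hU, hL⟩ := hst.exists_hom
  have hb : b ∈ B := (prt_spec hs.1 ha ha1).1
  refine ⟨φ, le_antisymm ?_ ?_, sl2_ker_cases (sl2_ker_le_center φ fun s t e => ?_)⟩
  · rintro _ ⟨g, rfl⟩
    induction g using sl2_induction with
    | hU t => rw [hU]; exact Subgroup.pow_mem _ (Subgroup.subset_closure (by simp)) _
    | hL t => rw [hL]; exact Subgroup.pow_mem _ (Subgroup.subset_closure (by simp)) _
    | hmul g h h1 h2 => rw [map_mul]; exact Subgroup.mul_mem _ h1 h2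
  · rw [Subgroup.closure_le]
    rintro x (rfl | rfl)
    · exact ⟨xU 1, by rw [hU, zp_one hp]⟩
    · exact ⟨xL 1, by rw [hL, zp_one hbp]⟩
  · rw [hU, hL] at e
    by_contra hs0
    apply zp_ne_one hp ha1 hs0
    exact r1_inf_eq_bot hs.1 (hmemA s) (e ▸ B.pow_mem hb _)

theorem iso_of_ker {k : Type*} [Field k] (φ : SL(2, k) →* X) {K : Subgroup X} (hr : φ.range = K)
    (hk : φ.ker = ⊥ ∨ φ.ker = Subgroup.center _) :
    Nonempty (K ≃* SL(2, k)) ∨ Nonempty (K ≃* Matrix.ProjectiveSpecialLinearGroup (Fin 2) k) := by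
  subst hr
  rcases hk with h | h
  · exact Or.inl ⟨(MonoidHom.ofInjective ((MonoidHom.ker_eq_bot_iff φ).1 h)).symm⟩
  · exact Or.inr ⟨(QuotientGroup.quotientKerEquivRange φ).symm.trans (QuotientGroup.quotientMulEquivOfEq h)⟩

end CfsgH9
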