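import Cfsg.Agent.H9.SL2
import Cfsg.Agent.H9.Special

set_option autoImplicit false

namespace CfsgH9
open Cfsg
open scoped MatrixGroups

variable {k X : Type*} [Field k] [Group X]

/-- the Steinberg relations for `SL₂(k)` -/
structure St2 (x y : k → X) : Prop where
  x_add : ∀ s t, x (s + t) = x s * x t
  y_add : ∀ s t, y (s + t) = y s * y t
  wx : ∀ t, t ≠ 0 → ∀ u, (x t * y (-t⁻¹) * x t) * x u = y (-(u / t ^ 2)) * (x t * y (-t⁻¹) * x t)
  wy : ∀ t, t ≠ 0 → ∀ u, (x t * y (-t⁻¹) * x t) * y u = x (-(t ^ 2 * u)) * (x t * y (-t⁻¹) * x t)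

/-- Weyl elements -/
def stW (x y : k → X) (t : k) : X := x t * y (-t⁻¹) * x t
/-- torus elements -/
def stH (x y : k → X) (t : k) : X := stW x y t * (stW x y 1)⁻¹

namespace St2
variable {x y : k → X} (h : St2 x y)
include h

theorem x_zero : x 0 = 1 := by simpa using h.x_add 0 0
theorem y_zero : y 0 = 1 := by simpa using h.y_add 0 0
theorem x_neg (t : k) : x (-t) = (x t)⁻¹ := by
  rw [eq_inv_iff_mul_eq_one, ← h.x_add, neg_add_cancel, h.x_zero]
theorem y_neg (t : k) : y (-t) = (y t)⁻¹ := by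
  rw [eq_inv_iff_mul_eq_one, ← h.y_add, neg_add_cancel, h.y_zero]

theorem w_x {t : k} (ht : t ≠ 0) (u : k) : stW x y t * x u = y (-(u / t ^ 2)) * stW x y t := h.wx t ht u
theorem w_y {t : k} (ht : t ≠ 0) (u : k) : stW x y t * y u = x (-(t ^ 2 * u)) * stW x y t := h.wy t ht u

theorem w_neg (t : k) : stW x y (-t) = (stW x y t)⁻¹ := by
  simp only [stW, inv_neg, h.x_neg, h.y_neg, mul_inv_rev, mul_assoc]

theorem x_w {t : k} (ht : t ≠ 0) (u : k) : x u * stW x y t = stW x y t * y (-(u / t ^ 2)) := by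
  rw [h.w_y ht]; congr 2; field_simp

theorem y_w {t : k} (ht : t ≠ 0) (u : k) : y u * stW x y t = stW x y t * x (-(t ^ 2 * u)) := by
  rw [h.w_x ht]; congr 2; field_simp

theorem w_braid {t : k} (ht : t ≠ 0) : stW x y t = y (-t⁻¹) * x t * y (-t⁻¹) := by
  have h1 := h.w_x ht t
  rw [show -(t / t ^ 2) = -t⁻¹ by field_simp] at h1
  apply mul_right_cancel (b := x t)
  rw [h1, stW]; simp only [mul_assoc]

theorem y_eq {t : k} : y (-t⁻¹) = x (-t) * stW x y t * x (-t) := by
  rw [h.x_neg, stW]; group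

theorem w_w {t u : k} (ht : t ≠ 0) (hu : u ≠ 0) : stW x y t * stW x y u = stW x y (t ^ 2 / u) * stW x y t := by
  rw [h.w_braid (div_ne_zero (pow_ne_zero 2 ht) hu)]
  conv_lhs => rw [stW.eq_1 x y u, ← mul_assoc, ← mul_assoc, h.w_x ht, mul_assoc _ _ (y _), h.w_y ht,
    mul_assoc, mul_assoc, h.w_x ht]
  simp only [mul_assoc, inv_div]
  congr 3
  field_simp

theorem h_x {t : k} (ht : t ≠ 0) (u : k) : stH x y t * x u = x (t ^ 2 * u) * stH x y t := by
  rw [stH, ← h.w_neg, mul_assoc, h.w_x (by simp), ← mul_assoc, h.w_y ht, mul_assoc]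
  congr 2; ring

theorem h_y {t : k} (ht : t ≠ 0) (u : k) : stH x y t * y u = y (u / t ^ 2) * stH x y t := by
  rw [stH, ← h.w_neg, mul_assoc, h.w_y (by simp), ← mul_assoc, h.w_x ht, mul_assoc]
  congr 2; ring

theorem h_w {t : k} (ht : t ≠ 0) (u : k) : stH x y t * stW x y u = stW x y (t ^ 2 * u) * stH x y t := by
  rw [stW.eq_1 x y u, ← mul_assoc, ← mul_assoc, h.h_x ht, mul_assoc _ _ (y _), h.h_y ht, mul_assoc, mul_assoc,
    h.h_x ht, stW]
  simp only [mul_assoc]
  congr 3
  rw [mul_inv]; ring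

theorem h_one : stH x y 1 = 1 := mul_inv_cancel _

theorem hua {s r : k} (hs : s ≠ 0) (hr : r ≠ 0) (hsr : s + r ≠ 0) :
    stW x y s * (stW x y (s + r))⁻¹ * stW x y r = stW x y (s * r / (s + r)) := by
  have e1 : y (-(s * r / (s + r))⁻¹) = y (-s⁻¹) * y (-r⁻¹) := by
    rw [← h.y_add]; congr 1; field_simp; ring
  rw [h.y_eq, h.y_eq, h.y_eq] at e1
  have e2 : stW x y s * x (-(s + r)) * stW x y r =
      x (s ^ 2 / (s + r)) * (stW x y s * (stW x y (s + r))⁻¹ * stW x y r) * x (r ^ 2 / (s + r)) := by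
    have e3 : y (-(-(s + r) / s ^ 2)) = y (-(-(s ^ 2 / (s + r)))⁻¹) := by congr 1; field_simp
    rw [h.w_x hs, e3, h.y_eq, neg_neg, mul_assoc _ (x _), h.x_w hs, ← h.w_neg (s + r),
      h.w_w hs (neg_ne_zero.2 hsr)]
    simp only [mul_assoc]
    rw [h.y_w hr, div_neg]
    congr 5
    field_simp
  have e4 : x (-s) * stW x y s * x (-s) * (x (-r) * stW x y r * x (-r)) =
      x (-s) * (stW x y s * x (-(s + r)) * stW x y r) * x (-r) := by
    rw [neg_add, h.x_add]; simp only [mul_assoc]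
  rw [e4, e2] at e1
  have e5 : x (-s) * x (s ^ 2 / (s + r)) = x (-(s * r / (s + r))) := by
    rw [← h.x_add]; congr 1; field_simp; ring
  have e6 : x (r ^ 2 / (s + r)) * x (-r) = x (-(s * r / (s + r))) := by
    rw [← h.x_add]; congr 1; field_simp; ring
  rw [← mul_assoc, ← mul_assoc, e5, mul_assoc _ _ (x (-r)), e6] at e1
  exact (mul_left_cancel (mul_right_cancel e1)).symm

theorem h_comm [Finite k] {s t : k} (hs : s ≠ 0) (ht : t ≠ 0) : Commute (stH x y s) (stH x y t) := by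
  obtain ⟨g, hg⟩ := IsCyclic.exists_monoid_generator (α := kˣ)
  have hZ : ∀ z : X, (∀ u, Commute z (x u)) → (∀ u, Commute z (y u)) → ∀ u, Commute z (stH x y u) := by
    intro z h1 h2 u
    have h3 : ∀ u, Commute z (stW x y u) := fun u => ((h1 _).mul_right (h2 _)).mul_right (h1 _)
    exact (h3 u).mul_right (h3 1).inv_right
  have hx : ∀ n : ℕ, ∀ u, stH x y g ^ n * x u = x ((g ^ n) ^ 2 * u) * stH x y g ^ n := by
    intro n
    induction n with
    | zero => simp
    | succ n ih =>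
      intro u
      rw [pow_succ, mul_assoc, h.h_x g.ne_zero, ← mul_assoc, ih, mul_assoc]
      congr 2; ring
  have hy : ∀ n : ℕ, ∀ u, stH x y g ^ n * y u = y (u / (g ^ n) ^ 2) * stH x y g ^ n := by
    intro n
    induction n with
    | zero => simp
    | succ n ih =>
      intro u
      rw [pow_succ, mul_assoc, h.h_y g.ne_zero, ← mul_assoc, ih, mul_assoc]
      congr 2; field_simp; ring
  have key : ∀ s : k, s ≠ 0 → ∃ n : ℕ, ∀ u, Commute ((stH x y g ^ n)⁻¹ * stH x y s) (stH x y u) := by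
    intro s hs
    obtain ⟨n, hn⟩ := hg (Units.mk0 s hs)
    have hn' : (g : k) ^ n = s := by simpa using congrArg Units.val hn
    refine ⟨n, hZ _ (fun u => ?_) fun u => ?_⟩
    · change _ * _ = _ * _
      rw [mul_assoc, h.h_x hs, inv_mul_eq_iff_eq_mul, ← mul_assoc, ← mul_assoc, hx, hn']; group
    · change _ * _ = _ * _
      rw [mul_assoc, h.h_y hs, inv_mul_eq_iff_eq_mul, ← mul_assoc, ← mul_assoc, hy, hn']; group
  obtain ⟨n, hn⟩ := key s hs
  obtain ⟨m, hm⟩ := key t ht
  have h1 : Commute (stH x y g) (stH x y t) := by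
    have := ((Commute.refl (stH x y g)).pow_right m).mul_right (hm g).symm
    simpa using this
  have := (h1.pow_left n).mul_left (hn t)
  simpa using this

theorem h_mul [Finite k] {s t : k} (hs : s ≠ 0) (ht : t ≠ 0) : stH x y (s * t) = stH x y s * stH x y t := by
  have hsq : ∀ {u a : k}, u ≠ 0 → a ≠ 0 → stH x y (a ^ 2 * u) = stH x y u * stH x y (a ^ 2) := by
    intro u a hu ha
    have h1 := (h.h_comm ha hu).eq
    have h2 := h.h_w ha 1
    rw [mul_one] at h2
    have h3 : stH x y a * (stW x y 1)⁻¹ = (stW x y (a ^ 2))⁻¹ * stH x y a := by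
      rw [eq_inv_mul_iff_mul_eq, ← mul_assoc, ← h2]; group
    rw [stH.eq_1 x y u, ← mul_assoc, h.h_w ha, mul_assoc, h3, ← mul_assoc] at h1
    have h4 := mul_right_cancel h1
    rw [stH, stH, stH, ← h4]; group
  by_cases h1 : IsSquare t
  · obtain ⟨a, rfl⟩ := h1
    rw [mul_comm, ← pow_two, hsq hs (fun e => ht (by simp [e]))]
  by_cases h2 : IsSquare s
  · obtain ⟨a, rfl⟩ := h2
    rw [← pow_two, hsq ht (fun e => hs (by simp [e])), h.h_comm ht (by rwa [pow_two])]
  obtain ⟨v, hv1, hv2⟩ : ∃ v : k, ¬ IsSquare v ∧ ¬ IsSquare (1 - v) := by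
    by_contra hn
    push Not at hn
    classical
    haveI := Fintype.ofFinite k
    -- `v ↦ t * (1 - v)` is an injection of the non-squares into themselves missing `t`
    have hmap : Set.MapsTo (fun v => t * (1 - v)) {v : k | ¬ IsSquare v} {v : k | ¬ IsSquare v} := by
      intro v hv hsq
      obtain ⟨a, ha⟩ := hn v hv
      have ha0 : a ≠ 0 := by
        rintro rfl
        exact hv ⟨1, by linear_combination -ha⟩
      obtain ⟨b, hb⟩ := hsq
      exact h1 ⟨b / a, by field_simp; linear_combination hb - t * ha⟩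
    have hinj : Set.InjOn (fun v => t * (1 - v)) {v : k | ¬ IsSquare v} := fun a _ b _ e => by
      have := mul_left_cancel₀ ht e
      linear_combination -this
    obtain ⟨v, hv, e⟩ := (((Set.toFinite _).injOn_iff_bijOn_of_mapsTo hmap).1 hinj).surjOn h1
    have : v = 0 := by
      have : t * v = 0 := by linear_combination -e
      exact (mul_eq_zero.1 this).resolve_left ht
    exact hv (this ▸ IsSquare.zero)
  have hv0 : v ≠ 0 := by rintro rfl; exact hv1 IsSquare.zero
  have hv0' : 1 - v ≠ 0 := fun e => hv2 (e ▸ IsSquare.zero)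
  have hns : ∀ {a b : k}, ¬ IsSquare a → ¬ IsSquare b → ∃ c, c ≠ 0 ∧ a = c ^ 2 * b := by
    intro a b ha hb
    classical
    haveI := Fintype.ofFinite k
    have hb0 : b ≠ 0 := by rintro rfl; exact hb IsSquare.zero
    have ha0 : a ≠ 0 := by rintro rfl; exact ha IsSquare.zero
    have : IsSquare (a * b) := by
      rw [← quadraticChar_one_iff_isSquare (mul_ne_zero ha0 hb0), map_mul,
        quadraticChar_neg_one_iff_not_isSquare.2 ha, quadraticChar_neg_one_iff_not_isSquare.2 hb]; simp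
    obtain ⟨c, hc⟩ := this
    refine ⟨c / b, div_ne_zero (fun e => mul_ne_zero ha0 hb0 (by simp [hc, e])) hb0, ?_⟩
    field_simp; linear_combination hc
  obtain ⟨a, ha, rfl⟩ := hns h2 hv1
  obtain ⟨b, hb, rfl⟩ := hns h1 hv2
  have h3 := h.hua hv0 hv0' (by simp)
  rw [add_sub_cancel, div_one] at h3
  have h4 : stH x y (v * (1 - v)) = stH x y v * stH x y (1 - v) := by
    rw [stH, ← h3, stH, stH]; group
  rw [show a ^ 2 * v * (b ^ 2 * (1 - v)) = b ^ 2 * (a ^ 2 * (v * (1 - v))) by ring,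
    hsq (mul_ne_zero (pow_ne_zero 2 ha) (mul_ne_zero hv0 hv0')) hb, hsq (mul_ne_zero hv0 hv0') ha,
    hsq hv0 ha, hsq hv0' hb, h4, mul_assoc (stH x y v), (h.h_comm hv0' (pow_ne_zero 2 ha)).eq]
  simp only [mul_assoc]

theorem exists_hom [Finite k] : ∃ φ : SL(2, k) →* X, (∀ t, φ (xU t) = x t) ∧ ∀ t, φ (xL t) = y t := by
  classical
  let f : SL(2, k) → X := fun g => if g.1 1 0 = 0 then stH x y (g.1 0 0) * x (g.1 0 1 / g.1 0 0)
    else x (g.1 0 0 / g.1 1 0) * stW x y (-(g.1 1 0)⁻¹) * x (g.1 1 1 / g.1 1 0)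
  have wh : ∀ {s c : k}, s ≠ 0 → c ≠ 0 → stW x y s * stH x y c = stW x y (s / c) := by
    intro s c hs hc
    have h1 : stW x y 1 * stH x y c = stH x y c⁻¹ * stW x y 1 := by
      rw [stH, ← mul_assoc, h.w_w one_ne_zero hc, stH, one_pow, one_div]; group
    calc _ = stH x y s * (stW x y 1 * stH x y c) := by rw [stH.eq_1 x y s]; group
      _ = stH x y (s * c⁻¹) * stW x y 1 := by rw [h1, h.h_mul hs (inv_ne_zero hc), mul_assoc]
      _ = _ := by rw [stH, div_eq_mul_inv]; group
  have ww : ∀ {c : k}, c ≠ 0 → stW x y 1 * stW x y (-c⁻¹) = stH x y c := by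
    intro c hc
    have := wh (s := -1) (by simp) hc
    rw [h.w_neg, neg_div, one_div] at this
    rw [← this]; group
  have hU : ∀ t g, f (xU t * g) = x t * f g := by
    intro t g
    have hd := sl2_det g
    have e0 : (xU t * g).1 1 0 = g.1 1 0 := by simp [sl2_mul_apply]
    have e1 : (xU t * g).1 1 1 = g.1 1 1 := by simp [sl2_mul_apply]
    have e2 : (xU t * g).1 0 0 = g.1 0 0 + t * g.1 1 0 := by simp [sl2_mul_apply]
    have e3 : (xU t * g).1 0 1 = g.1 0 1 + t * g.1 1 1 := by simp [sl2_mul_apply]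
    simp only [f, e0, e1, e2, e3]
    split_ifs with hc
    · have ha : g.1 0 0 ≠ 0 := by
        intro e; simp [e, hc] at hd
      rw [hc, mul_zero, add_zero, h.h_x ha, h.h_x ha, ← mul_assoc, ← h.x_add]
      congr 2
      rw [hc] at hd
      field_simp
      linear_combination t * hd
    · rw [← mul_assoc, ← mul_assoc, ← h.x_add]
      congr 3
      field_simp; ring
  have hW : ∀ g, f (xU 1 * xL (-1) * xU 1 * g) = stW x y 1 * f g := by
    intro g
    have hd := sl2_det g
    have e0 : (xU 1 * xL (-1) * xU 1 * g).1 1 0 = -g.1 0 0 := by simp [sl2_mul_apply]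
    have e1 : (xU 1 * xL (-1) * xU 1 * g).1 1 1 = -g.1 0 1 := by simp [sl2_mul_apply]
    have e2 : (xU 1 * xL (-1) * xU 1 * g).1 0 0 = g.1 1 0 := by simp [sl2_mul_apply]
    have e3 : (xU 1 * xL (-1) * xU 1 * g).1 0 1 = g.1 1 1 := by simp [sl2_mul_apply]
    simp only [f, e0, e1, e2, e3, neg_eq_zero]
    by_cases hc : g.1 1 0 = 0
    · have ha : g.1 0 0 ≠ 0 := by
        intro e; simp [e, hc] at hd
      rw [if_neg ha, if_pos hc, hc, zero_div, h.x_zero, one_mul, ← mul_assoc, wh one_ne_zero ha, inv_neg,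
        neg_neg, one_div, neg_div_neg_eq]
    by_cases ha : g.1 0 0 = 0
    · rw [if_pos ha, if_neg hc, ha, zero_div, h.x_zero, one_mul, ← mul_assoc, ww hc]
    · rw [if_neg ha, if_neg hc, ← mul_assoc, ← mul_assoc, h.w_x one_ne_zero, one_pow, div_one,
        ← inv_div (g.1 1 0), h.y_eq, mul_assoc _ (stW x y 1), ww hc, inv_neg, neg_neg, neg_div_neg_eq, div_neg]
      have e4 : x (-(g.1 1 0 / g.1 0 0)) * stH x y (g.1 1 0) =
          stH x y (g.1 1 0) * x (-(g.1 0 0 * g.1 1 0)⁻¹) := by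
        rw [h.h_x hc]; congr 2; field_simp
      rw [mul_assoc _ (x _) (stH _ _ _), e4, ← mul_assoc, mul_assoc _ (stW _ _ _) (stH _ _ _),
        wh (div_ne_zero hc ha) hc, mul_assoc _ (x _) (x _), ← h.x_add]
      congr 3
      · field_simp
      · field_simp; linear_combination -hd
  have hL : ∀ t g, f (xL t * g) = y t * f g := by
    intro t g
    have e1 : xU 1 * xL (-1) * xU 1 * (xL t * g) = xU (-t) * (xU 1 * xL (-1) * xU 1 * g) := by
      rw [← mul_assoc, ← mul_assoc (xU (-t))]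
      congr 1
      apply sl2_ext <;> simp [sl2_mul_apply]
    have := hW (xL t * g)
    rw [e1, hU, hW, ← mul_assoc, h.x_w one_ne_zero, mul_assoc] at this
    rw [← mul_left_cancel this]; simp
  have f1 : f 1 = 1 := by simp [f, h.h_one, h.x_zero]
  have hmul : ∀ a b, f (a * b) = f a * f b := by
    intro a
    refine sl2_induction (fun a => ∀ b, f (a * b) = f a * f b) (fun t b => ?_) (fun t b => ?_) ?_ a
    · rw [hU, ← mul_one (xU t), hU, f1, mul_one]
    · rw [hL, ← mul_one (xL t), hL, f1, mul_one]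
    · intro a a' h1 h2 b
      rw [mul_assoc, h1, h2, h1, mul_assoc]
  refine ⟨MonoidHom.mk' f hmul, fun t => ?_, fun t => ?_⟩
  · change f _ = _
    rw [← mul_one (xU t), hU, f1, mul_one]
  · change f _ = _
    rw [← mul_one (xL t), hL, f1, mul_one]

end St2

end CfsgH9
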