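/-
Certificates for coset enumeration with wider items, and homomorphisms from graphs.
-/
import Cfsg.Agent.H9.J1Base

set_option autoImplicit false

namespace CfsgH9.TC

open CfsgH5 CfsgH9.J1
open scoped Pointwise

noncomputable section

variable {G : Type*} [Group G]

/-- walk along `n` items of 20 bits -/
def walk2 (F : ℕ → ℕ) (IV m fin n : ℕ) : ℕ → ℕ → ℕ → Bool :=
  Nat.rec (motive := fun _ => ℕ → ℕ → ℕ → Bool)
    (fun _ cur w => band (Nat.beq cur fin) (Nat.beq w 0))
    (fun _ ih its cur w => force (Nat.land its 1048575) fun a => item F IV m a fun l i j =>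
      band (Nat.beq i cur) (step l w fun w' => force (Nat.shiftRight its 20) fun its' =>
        force j fun j => ih its' j w')) n

/-- check of the derived fact number `m` -/
def chk12 (F : ℕ → ℕ) (IV : ℕ) (L : List ℕ) (m c : ℕ) : Bool :=
  force (F m) fun e => force (rot (nthD L 0 (Nat.land c 63)) (Nat.land (Nat.shiftRight c 6) 63))
    fun u => step (lab e) u fun w => force (src e) fun i => force (tgt e) fun j =>
      walk2 F IV m i (Nat.land (Nat.shiftRight c 12) 63) (Nat.shiftRight c 18) j w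

/-- check of a list of derived facts -/
def chkL2 (F : ℕ → ℕ) (IV : ℕ) (L : List ℕ) (l : List ℕ) (m' : ℕ) : ℕ → Bool :=
  List.rec (motive := fun _ => ℕ → Bool) (fun m => Nat.beq m m')
    (fun c _ ih m => band (chk12 F IV L m c) (force (Nat.succ m) ih)) l

/-- check that the first `nf` points are closed under the letter `x` -/
def chkC2 (F : ℕ → ℕ) (IV m nf x T : ℕ) : Bool :=
  allLt nf fun k => force (get32 T k) fun a => item F IV m a fun l i j =>
    band (Nat.beq l x) (band (Nat.beq i k) (Nat.blt j nf))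

variable {Ω : Type*} [MulAction G Ω]
variable {F : ℕ → ℕ} {g : ℕ → G} {ω : Ω} {IV : ℕ} {L : List ℕ}

theorem walk2_sound (hl : Let g IV L) {m fin : ℕ} (H : Holds F g ω m) (n : ℕ) :
    ∀ its cur w, walk2 F IV m fin n its cur w = true →
      pt F g ω fin = (ev g w)⁻¹ • pt F g ω cur := by
  induction n with
  | zero =>
    intro its cur w h
    replace h : band (Nat.beq cur fin) (Nat.beq w 0) = true := h
    rw [band_eq, Bool.and_eq_true, beq_true_iff, beq_true_iff] at h
    rw [h.1, h.2, ev_zero, inv_one, one_smul]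
  | succ n ih =>
    intro its cur w h
    replace h : (force (Nat.land its 1048575) fun a => item F IV m a fun l i j =>
      band (Nat.beq i cur) (step l w fun w' => force (Nat.shiftRight its 20) fun its' =>
        force j fun j => walk2 F IV m fin n its' j w')) = true := h
    rw [force_eq] at h
    obtain ⟨l, i, j, h1, h2⟩ := item_sound hl H h
    rw [band_eq, Bool.and_eq_true, beq_true_iff] at h1
    obtain ⟨w', h3, h4⟩ := step_sound hl.zero h1.2
    rw [force_eq, force_eq] at h3
    rw [ih _ _ _ h3, h2, h4, h1.1, mul_inv_rev, mul_smul]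

theorem chk12_sound (hl : Let g IV L) {m c : ℕ} (H : Holds F g ω m)
    (h : chk12 F IV L m c = true) : Holds F g ω (m + 1) := by
  intro i hi
  rcases Nat.lt_succ_iff_lt_or_eq.1 hi with hi | rfl
  · exact H i hi
  simp only [chk12, force_eq] at h
  obtain ⟨w, h1, h2⟩ := step_sound hl.zero h
  rw [ev_rot hl.zero (hl.rel _)] at h2
  rw [walk2_sound hl H _ _ _ _ h1, ← mul_smul, ← mul_inv_rev, mul_eq_one_comm.1 h2.symm, inv_one,
    one_smul]

theorem Holds.step2 (hl : Let g IV L) {l : List ℕ} {m' : ℕ} :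
    ∀ {m}, Holds F g ω m → chkL2 F IV L l m' m = true → Holds F g ω m' := by
  induction l with
  | nil => intro m H h; rwa [← (beq_true_iff _ _).1 h]
  | cons c l ih =>
    intro m H h
    replace h : band (chk12 F IV L m c) (force (Nat.succ m) (chkL2 F IV L l m')) = true := h
    rw [band_eq, Bool.and_eq_true, force_eq] at h
    exact ih (chk12_sound hl H h.1) h.2

theorem Holds.closed2 (hl : Let g IV L) {m nf x T : ℕ} (H : Holds F g ω m)
    (h : chkC2 F IV m nf x T = true) :
    g x ∈ MulAction.stabilizer G (pt F g ω '' Set.Iio nf) := by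
  have hm : Set.MapsTo (fun y => (g x)⁻¹ • y) (pt F g ω '' Set.Iio nf) (pt F g ω '' Set.Iio nf) := by
    rintro _ ⟨k, hk, rfl⟩
    have := (allLt_iff _ _).1 h k hk
    rw [force_eq] at this
    obtain ⟨l, i, j, h1, h2⟩ := item_sound hl H this
    simp only [band_eq, Bool.and_eq_true, beq_true_iff, blt_true_iff] at h1
    obtain ⟨rfl, rfl, h3⟩ := h1
    exact ⟨j, h3, h2⟩
  rw [← Subgroup.inv_mem_iff, MulAction.mem_stabilizer_iff]
  have hf : (pt F g ω '' Set.Iio nf).Finite := (Set.finite_Iio nf).image _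
  exact ((hf.injOn_iff_bijOn_of_mapsTo hm).1 (MulAction.injective _).injOn).image_eq

/-- letters that satisfy a list of relators -/
structure Rels (g : ℕ → G) (IV : ℕ) (R : List (List ℕ)) : Prop where
  zero : g 0 = 1
  inv : ∀ l, l < 16 → g (ap 4 15 IV l) = (g l)⁻¹
  rel : ∀ l ∈ R, wd g l = 1

theorem Rels.let {R : List (List ℕ)} (h : Rels g IV R) (hL : relChk R L = true) : Let g IV L :=
  ⟨h.zero, h.inv, relOK_of_chk h.zero hL h.rel⟩

theorem Rels.snoc {R : List (List ℕ)} (h : Rels g IV R) {w : List ℕ} (hw : wd g w = 1) :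
    Rels g IV (R ++ [w]) :=
  ⟨h.zero, h.inv, fun l hl => (List.mem_append.1 hl).elim (h.rel l)
    fun e => by rw [List.mem_singleton.1 e]; exact hw⟩

theorem Rels.prod {K : Type*} [Group K] {k : ℕ → K} {R : List (List ℕ)} (h : Rels g IV R)
    (h' : Rels k IV R) : Rels (fun i => (g i, k i)) IV R :=
  ⟨by simp [h.zero, h'.zero, Prod.ext_iff], fun l hl => by simp [h.inv l hl, h'.inv l hl],
    fun l hl => by rw [wd_prod, h.rel l hl, h'.rel l hl]; rfl⟩

/-- relators give the inverses of the letters -/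
theorem rels_of {R : List (List ℕ)} {n : ℕ} (h0 : g 0 = 1) (hb : ∀ l, n ≤ l → g l = 1)
    (hr : ∀ l ∈ R, wd g l = 1)
    (hc : ∀ l, l < 16 → (l = 0 ∨ n ≤ l) ∧ ap 4 15 IV l = 0 ∨ [l, ap 4 15 IV l] ∈ R) :
    Rels g IV R := by
  refine ⟨h0, fun l hl => ?_, hr⟩
  rcases hc l hl with ⟨h1 | h1, h2⟩ | h1
  · rw [h2, h1, h0, inv_one]
  · rw [h2, hb l h1, h0, inv_one]
  · have := hr _ h1
    simp only [wd, List.map, List.prod_cons, List.prod_nil, mul_one] at this
    exact eq_inv_of_mul_eq_one_right this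

theorem fix_of_mem {H : Subgroup G} {SUB : ℕ} (h : ∀ l, l < 16 → tb SUB l = true → g l ∈ H) :
    ∀ l, l < 16 → tb SUB l = true → g l • ((1 : G) : G ⧸ H) = ((1 : G) : G ⧸ H) :=
  fun l hl e => smul_one_iff.2 (h l hl e)

/-- A subgroup of a product that is the graph of a homomorphism. -/
theorem exists_hom_of_graph {K : Type*} [Group K] [Finite G] [Finite K] (W : Subgroup (G × K))
    (h2 : W.map (MonoidHom.snd G K) = ⊤) (hc : Nat.card W ≤ Nat.card K) :
    ∃ φ : K →* G, ∀ w ∈ W, φ w.2 = w.1 := by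
  have r2 : ((MonoidHom.snd G K).comp W.subtype).range = ⊤ := by
    rw [MonoidHom.range_comp, Subgroup.range_subtype, h2]
  have b2 : Function.Bijective ((MonoidHom.snd G K).comp W.subtype) :=
    (MonoidHom.range_eq_top.1 r2).bijective_of_nat_card_le hc
  let e2 := MulEquiv.ofBijective _ b2
  refine ⟨((MonoidHom.fst G K).comp W.subtype).comp e2.symm.toMonoidHom, fun w hw => ?_⟩
  have : e2.symm w.2 = ⟨w, hw⟩ := e2.symm_apply_eq.2 rfl
  simp [this]

end

end CfsgH9.TC
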